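import Cfsg.Prelude.Def_Characters
import Cfsg.Prelude.Def_Blocks
import Cfsg.Agent.H4.BrauerInd4
import Mathlib

set_option linter.all false
set_option autoImplicit false

/-! Artin's theorem. -/

namespace Cfsg.Agent.H4

open Module
open scoped ComplexConjugate

universe u v w

/-- `θ_B`: value `|B|` on generators -/
noncomputable def artinFun (B : Type u) [Group B] : B → ℂ := fun b => if orderOf b = Nat.card B then (Nat.card B : ℂ) else 0

theorem artin_sum {G : Type u} [Group G] [Fintype G] (x : G) :
    ∑ B : Subgroup G, indFun B (artinFun B) x = Nat.card G := by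
  classical
  unfold indFun
  have h1 : ∀ (B : Subgroup G) (y : G), (Nat.card B : ℂ)⁻¹ * extendByZero B (artinFun B) (y⁻¹ * x * y)
      = if B = Subgroup.zpowers (y⁻¹ * x * y) then 1 else 0 := by
    intro B y
    by_cases hz : y⁻¹ * x * y ∈ B
    · rw [extendByZero_mem _ _ hz]
      unfold artinFun
      rw [Subgroup.orderOf_mk]
      by_cases h2 : orderOf (y⁻¹ * x * y) = Nat.card B
      · rw [if_pos h2, inv_mul_cancel₀ (card_ne_zero' B), if_pos]
        symm
        apply Subgroup.eq_of_le_of_card_ge
        · exact Subgroup.zpowers_le.2 hz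
        · rw [Nat.card_zpowers, h2]
      · rw [if_neg h2, mul_zero, if_neg]
        intro h3
        apply h2
        conv_rhs => rw [h3]
        rw [Nat.card_zpowers]
    · rw [extendByZero_not_mem _ _ hz, mul_zero, if_neg]
      intro h3
      apply hz
      rw [h3]; exact Subgroup.mem_zpowers _
  simp only [Finset.mul_sum]
  rw [Finset.sum_comm]
  simp only [h1, Finset.sum_ite_eq', Finset.mem_univ, if_true]
  simp

theorem indFun_top_eq {G : Type u} [Group G] [Fintype G] (f : G → ℂ) (hf : IsClassFunction G f) :
    indFun (⊤ : Subgroup G) (fun x => f x) = f := by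
  have h1 := indFun_mul_restrict (⊤ : Subgroup G) (fun _ => (1 : ℂ)) f hf
  have h2 : indFun (⊤ : Subgroup G) (fun _ => (1 : ℂ)) = fun _ => 1 := by
    funext g
    unfold indFun
    have : ∀ x : G, extendByZero (⊤ : Subgroup G) (fun _ => (1 : ℂ)) (x⁻¹ * g * x) = 1 := fun x =>
      extendByZero_mem _ _ (Subgroup.mem_top _)
    rw [Finset.sum_congr rfl (fun x _ => this x), Finset.sum_const, Finset.card_univ,
      Subgroup.card_top, ← Nat.card_eq_fintype_card, nsmul_eq_mul, mul_one,
      inv_mul_cancel₀ (card_ne_zero' G)]
  rw [h2] at h1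
  have h3 : (fun _ : G => (1 : ℂ)) * f = f := by funext g; simp
  rw [h3] at h1
  simp only [one_mul] at h1
  exact h1

theorem artinFun_gen : ∀ (n : ℕ) (B : Type u) [Group B] [Finite B], Nat.card B = n →
    IsGeneralizedCharacter B (artinFun B) := by
  classical
  intro n
  induction n using Nat.strong_induction_on with
  | _ n ih =>
  intro B _ _ hn
  have := Fintype.ofFinite B
  have hcl : IsClassFunction B (artinFun B) := by
    intro g h
    unfold artinFun
    have h1 : orderOf (h * g * h⁻¹) = orderOf g :=
      orderOf_injective (MulAut.conj h).toMonoidHom (MulAut.conj h).injective g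
    rw [h1]
  have h1 : artinFun B = (fun _ => (Nat.card B : ℂ)) - ∑ C ∈ Finset.univ.erase (⊤ : Subgroup B), indFun C (artinFun C) := by
    funext x
    have h2 := artin_sum x
    rw [← Finset.add_sum_erase _ _ (Finset.mem_univ (⊤ : Subgroup B))] at h2
    have h3 : indFun (⊤ : Subgroup B) (artinFun (⊤ : Subgroup B)) x = artinFun B x := by
      have h4 : artinFun (⊤ : Subgroup B) = fun y : (⊤ : Subgroup B) => artinFun B y := by
        funext y
        unfold artinFun
        rw [Subgroup.orderOf_coe, Subgroup.card_top]
      rw [h4, indFun_top_eq _ hcl]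
    rw [h3] at h2
    rw [Pi.sub_apply, Finset.sum_apply]
    rw [← h2]; ring
  rw [h1]
  apply H5.isGeneralized_sub
  · have h4 : (fun _ : B => (Nat.card B : ℂ)) = (Nat.card B) • (fun _ : B => (1 : ℂ)) := by funext x; simp
    rw [h4]
    exact H5.IsCharacter.isGeneralized (IsChar.nsmul _ isCharacter_one)
  · have : ∀ s : Finset (Subgroup B), (∀ C ∈ s, C ≠ ⊤) → IsGeneralizedCharacter B (∑ C ∈ s, indFun C (artinFun C)) := by
      intro s
      induction s using Finset.induction_on with
      | empty => intro _; rw [Finset.sum_empty]; exact ⟨0, 0, isCharacter_zero, isCharacter_zero, by simp⟩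
      | insert a s ha ih2 =>
        intro hs
        rw [Finset.sum_insert ha]
        apply H5.isGeneralized_add
        · apply H5.isGeneralized_indFun
          apply ih (Nat.card a) _ a rfl
          rw [← hn]
          have h5 := a.card_mul_index
          have h6 : 1 < a.index := by
            have h7 : a.index ≠ 1 := fun h => hs a (Finset.mem_insert_self _ _) (Subgroup.index_eq_one.1 h)
            have h8 := a.index_ne_zero_of_finite
            omega
          have h9 : 0 < Nat.card a := Nat.card_pos
          nlinarith
        · exact ih2 (fun C hC => hs C (Finset.mem_insert_of_mem hC))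
    exact this _ (fun C hC => Finset.ne_of_mem_erase hC)

theorem artin_mem {G : Type u} [Group G] [Fintype G] :
    (fun _ : G => (Nat.card G : ℂ)) ∈ indClosure (fun A : Subgroup G => IsCyclic A) := by
  classical
  have h1 : (fun _ : G => (Nat.card G : ℂ)) = ∑ B : Subgroup G, indFun B (artinFun B) := by
    funext x; rw [Finset.sum_apply, artin_sum]
  rw [h1]
  apply AddSubgroup.sum_mem
  intro B _
  by_cases hB : IsCyclic B
  · obtain ⟨a, b, ha, hb, hab⟩ := artinFun_gen _ B rfl
    rw [hab, indFun_sub]
    exact AddSubgroup.sub_mem _ (AddSubgroup.subset_closure ⟨B, hB, a, ha, rfl⟩)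
      (AddSubgroup.subset_closure ⟨B, hB, b, hb, rfl⟩)
  · have h2 : artinFun B = 0 := by
      funext b
      unfold artinFun
      rw [if_neg]
      · rfl
      · intro h
        exact hB (isCyclic_of_orderOf_eq_card b h)
    rw [h2, indFun_zero]; exact AddSubgroup.zero_mem _

end Cfsg.Agent.H4
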