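import Mathlib
import Cfsg.Agent.S0235
import Cfsg.Agent.S0236

namespace Cfsg.Agent.H4
open Subgroup
universe u
variable {G : Type u} [Group G]

/-- extended centralizer -/
def Cs (x : G) : Subgroup G where
  carrier := {g | g * x * g⁻¹ = x ∨ g * x * g⁻¹ = x⁻¹}
  one_mem' := by left; group
  mul_mem' := by
    rintro a b ha hb
    have e : a * b * x * (a * b)⁻¹ = a * (b * x * b⁻¹) * a⁻¹ := by group
    have e2 : a * x⁻¹ * a⁻¹ = (a * x * a⁻¹)⁻¹ := by group
    show a * b * x * (a * b)⁻¹ = x ∨ a * b * x * (a * b)⁻¹ = x⁻¹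
    rw [e]
    rcases ha with ha | ha <;> rcases hb with hb | hb
    · rw [hb, ha]; left; rfl
    · rw [hb, e2, ha]; right; rfl
    · rw [hb, ha]; right; rfl
    · rw [hb, e2, ha]; left; group
  inv_mem' := by
    rintro a ha
    show a⁻¹ * x * a⁻¹⁻¹ = x ∨ a⁻¹ * x * a⁻¹⁻¹ = x⁻¹
    rcases ha with ha | ha
    · left
      have : a⁻¹ * (a * x * a⁻¹) * a⁻¹⁻¹ = x := by group
      rw [ha] at this; exact this
    · right
      have : a⁻¹ * (a * x * a⁻¹) * a⁻¹⁻¹ = x := by group
      rw [ha] at this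
      rw [eq_inv_iff_mul_eq_one]
      have h2 : a⁻¹ * x * a⁻¹⁻¹ = (a⁻¹ * x⁻¹ * a⁻¹⁻¹)⁻¹ := by group
      rw [h2, this]; group

variable [Fintype G]
open Classical

theorem card_inv_set {x t₀ : G} (ht₀ : t₀ * x * t₀⁻¹ = x⁻¹) :
    (Finset.univ.filter (fun t : G => t * x * t⁻¹ = x⁻¹)).card = (Finset.univ.filter (fun t : G => t * x * t⁻¹ = x)).card := by
  symm
  apply Finset.card_bij (fun t _ => t₀ * t)
  · intro t ht
    rw [Finset.mem_filter] at ht ⊢
    refine ⟨Finset.mem_univ _, ?_⟩
    have e : t₀ * t * x * (t₀ * t)⁻¹ = t₀ * (t * x * t⁻¹) * t₀⁻¹ := by group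
    rw [e, ht.2, ht₀]
  · intro a _ b _ h
    exact mul_left_cancel h
  · intro b hb
    rw [Finset.mem_filter] at hb
    refine ⟨t₀⁻¹ * b, ?_, by group⟩
    rw [Finset.mem_filter]
    refine ⟨Finset.mem_univ _, ?_⟩
    have e : t₀⁻¹ * b * x * (t₀⁻¹ * b)⁻¹ = t₀⁻¹ * (b * x * b⁻¹) * t₀ := by group
    rw [e, hb.2, ← ht₀]; group

theorem card_Cs_eq {x t₀ : G} (hx : x ≠ x⁻¹) (ht₀ : t₀ * x * t₀⁻¹ = x⁻¹) :
    Nat.card (Cs x) = 2 * (Finset.univ.filter (fun t : G => t * x * t⁻¹ = x⁻¹)).card := by
  have h1 : Nat.card (Cs x) = (Finset.univ.filter (fun t : G => t * x * t⁻¹ = x) ∪ Finset.univ.filter (fun t : G => t * x * t⁻¹ = x⁻¹)).card := by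
    rw [← Finset.filter_or, ← Fintype.card_subtype, ← Nat.card_eq_fintype_card]
    exact Nat.card_congr (Equiv.subtypeEquivRight fun g => Iff.rfl)
  rw [h1, Finset.card_union_of_disjoint, card_inv_set ht₀]
  · ring
  · rw [Finset.disjoint_left]
    intro t ht ht'
    exact hx ((Finset.mem_filter.1 ht).2.symm.trans (Finset.mem_filter.1 ht').2)

/-- number of pairs of involutions with product `x` -/
noncomputable def beta (x : G) : ℕ := (Finset.univ.filter (fun p : G × G => (orderOf p.1 = 2 ∧ orderOf p.2 = 2) ∧ p.1 * p.2 = x)).card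

theorem sum_beta : ∑ x : G, beta x = (Finset.univ.filter (fun t : G => orderOf t = 2)).card ^ 2 := by
  unfold beta
  have h1 : (Finset.univ.filter (fun t : G => orderOf t = 2)).card ^ 2 = (Finset.univ.filter (fun p : G × G => orderOf p.1 = 2 ∧ orderOf p.2 = 2)).card := by
    rw [sq, ← Finset.card_product]
    congr 1
    ext p
    simp
  rw [h1, Finset.card_eq_sum_card_fiberwise (f := fun p : G × G => p.1 * p.2) (t := Finset.univ) (fun _ _ => Finset.mem_univ _)]
  refine Finset.sum_congr rfl fun x _ => ?_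
  rw [Finset.filter_filter]

theorem beta_one : beta (1 : G) = (Finset.univ.filter (fun t : G => orderOf t = 2)).card := by
  unfold beta
  symm
  apply Finset.card_bij (fun t _ => (t, t))
  · intro t ht
    rw [Finset.mem_filter] at ht ⊢
    refine ⟨Finset.mem_univ _, ⟨ht.2, ht.2⟩, ?_⟩
    show t * t = 1
    rw [← sq, ← ht.2, pow_orderOf_eq_one]
  · intro a _ b _ h
    exact (Prod.ext_iff.1 h).1
  · rintro ⟨a, b⟩ hb
    rw [Finset.mem_filter] at hb
    obtain ⟨-, ⟨ha, hb⟩, hab⟩ := hb
    have ha' : a * a = 1 := by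
      have := pow_orderOf_eq_one a
      rw [ha, sq] at this; exact this
    have : a = b := by
      have h1 : a * b = a * a := by rw [ha']; exact hab
      exact (mul_left_cancel h1).symm
    subst this
    exact ⟨a, Finset.mem_filter.2 ⟨Finset.mem_univ _, ha⟩, rfl⟩

theorem beta_eq (x : G) : beta x = Nat.card {p : G × G // orderOf p.1 = 2 ∧ orderOf p.2 = 2 ∧ p.1 * p.2 = x} := by
  unfold beta
  rw [Nat.card_eq_fintype_card, Fintype.card_subtype]
  simp only [and_assoc]

theorem beta_le {x : G} (hx : x ^ 2 ≠ 1) : 2 * beta x ≤ if (∃ t : G, orderOf t = 2 ∧ t * x * t⁻¹ = x⁻¹) then Nat.card (Cs x) else 0 := by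
  have hx' : x ≠ x⁻¹ := by
    intro h; apply hx
    rw [sq]; nth_rewrite 2 [h]; exact mul_inv_cancel x
  have h1 := S0235.result x hx
  rw [← beta_eq] at h1
  split_ifs with h
  · obtain ⟨t, ht, ht'⟩ := h
    rw [card_Cs_eq hx' ht', h1, Nat.card_eq_fintype_card, Fintype.card_subtype]
    apply Nat.mul_le_mul_left
    apply Finset.card_le_card
    intro s hs
    rw [Finset.mem_filter] at hs ⊢
    exact ⟨hs.1, hs.2.2⟩
  · rw [h1]
    haveI : IsEmpty {t : G // orderOf t = 2 ∧ t * x * t⁻¹ = x⁻¹} := ⟨fun t => h ⟨t.1, t.2⟩⟩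
    rw [Nat.card_of_isEmpty]

theorem beta_invol {x : G} (hx : orderOf x = 2) : beta x + 2 ≤ Nat.card (Cs x) := by
  have h1 := S0236.result x hx
  rw [← beta_eq] at h1
  have hxi : x⁻¹ = x := by
    rw [inv_eq_iff_mul_eq_one, ← sq, ← hx, pow_orderOf_eq_one]
  have h2 : Nat.card {t : G // orderOf t = 2 ∧ Commute t x} + 1 ≤ Nat.card (Cs x) := by
    have h3 : Nat.card (Cs x) = (Finset.univ.filter (fun t : G => t * x * t⁻¹ = x ∨ t * x * t⁻¹ = x⁻¹)).card := by
      rw [← Fintype.card_subtype, ← Nat.card_eq_fintype_card]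
      exact Nat.card_congr (Equiv.subtypeEquivRight fun g => Iff.rfl)
    rw [h3, Nat.card_eq_fintype_card, Fintype.card_subtype]
    have h4 : insert 1 (Finset.univ.filter (fun t : G => orderOf t = 2 ∧ Commute t x)) ⊆
        Finset.univ.filter (fun t : G => t * x * t⁻¹ = x ∨ t * x * t⁻¹ = x⁻¹) := by
      intro t ht
      rw [Finset.mem_insert] at ht
      rw [Finset.mem_filter]
      refine ⟨Finset.mem_univ _, Or.inl ?_⟩
      rcases ht with rfl | ht
      · group
      · have := (Finset.mem_filter.1 ht).2.2.eq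
        rw [this]; group
    have h5 := Finset.card_le_card h4
    rw [Finset.card_insert_of_notMem] at h5
    · exact h5
    · intro hc
      have := (Finset.mem_filter.1 hc).2.1
      rw [orderOf_one] at this; omega
  omega

theorem bf_main (heven : Even (Nat.card G)) (hZ : ∀ x : G, orderOf x = 2 → x ∉ center G) :
    ∃ H : Subgroup G, H ≠ ⊤ ∧ (H.index = 2 ∨
      2 * H.index * (Nat.card {t : G // orderOf t = 2}) ^ 2 < Nat.card G * (Nat.card G + Nat.card {t : G // orderOf t = 2})) := by
  haveI : Fact (Nat.Prime 2) := ⟨Nat.prime_two⟩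
  obtain ⟨z, hz⟩ := exists_prime_orderOf_dvd_card' 2 heven.two_dvd
  set R : Finset G := Finset.univ.filter (fun x => x ≠ 1 ∧ ∃ t : G, orderOf t = 2 ∧ t * x * t⁻¹ = x⁻¹) with hR
  have hinvR : ∀ x : G, orderOf x = 2 → x ∈ R := by
    intro x hx
    rw [hR, Finset.mem_filter]
    refine ⟨Finset.mem_univ _, ?_, x, hx, ?_⟩
    · rintro rfl; rw [orderOf_one] at hx; omega
    · have hxi : x⁻¹ = x := by
        rw [inv_eq_iff_mul_eq_one, ← sq, ← hx, pow_orderOf_eq_one]
      rw [hxi]
      have : x * x = 1 := by rw [← sq, ← hx, pow_orderOf_eq_one]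
      rw [this, one_mul]
  obtain ⟨x₀, hx₀, hmax⟩ := Finset.exists_max_image R (fun x => Nat.card (Cs x)) ⟨z, hinvR z hz⟩
  obtain ⟨-, hx₀1, t₀, ht₀, ht₀'⟩ := Finset.mem_filter.1 hx₀
  by_cases htop : Cs x₀ = ⊤
  · -- index two
    by_cases hx2 : x₀ ^ 2 = 1
    · exfalso
      have ho : orderOf x₀ = 2 := orderOf_eq_prime hx2 hx₀1
      apply hZ x₀ ho
      rw [mem_center_iff]
      intro g
      have hxi : x₀⁻¹ = x₀ := by
        rw [inv_eq_iff_mul_eq_one, ← sq, hx2]
      have hg : g ∈ Cs x₀ := by rw [htop]; exact mem_top g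
      have : g * x₀ * g⁻¹ = x₀ := by
        rcases hg with h | h
        · exact h
        · rw [h, hxi]
      exact mul_inv_eq_iff_eq_mul.1 this
    · have hx' : x₀ ≠ x₀⁻¹ := by
        intro h; apply hx2
        rw [sq]; nth_rewrite 2 [h]; exact mul_inv_cancel x₀
      have h1 := card_Cs_eq hx' ht₀'
      rw [htop, card_top, card_inv_set ht₀'] at h1
      have h2 : Nat.card (centralizer ({x₀} : Set G)) = (Finset.univ.filter (fun t : G => t * x₀ * t⁻¹ = x₀)).card := by
        rw [← Fintype.card_subtype, ← Nat.card_eq_fintype_card]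
        refine Nat.card_congr (Equiv.subtypeEquivRight fun g => ?_)
        rw [mem_centralizer_singleton_iff]
        exact mul_inv_eq_iff_eq_mul.symm
      have h3 := card_mul_index (centralizer ({x₀} : Set G))
      rw [h1, ← h2, mul_comm 2] at h3
      have h4 : (centralizer ({x₀} : Set G)).index = 2 := Nat.eq_of_mul_eq_mul_left Nat.card_pos h3
      refine ⟨centralizer ({x₀} : Set G), ?_, Or.inl h4⟩
      intro h5
      rw [h5, index_top] at h4
      omega
  · refine ⟨Cs x₀, htop, Or.inr ?_⟩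
    have hr : Nat.card {t : G // orderOf t = 2} = (Finset.univ.filter (fun t : G => orderOf t = 2)).card := by
      rw [Nat.card_eq_fintype_card, Fintype.card_subtype]
    rw [hr]
    set r := (Finset.univ.filter (fun t : G => orderOf t = 2)).card with hrdef
    set n := Nat.card G with hn
    set h := Nat.card (Cs x₀) with hh
    have hmn : h * (Cs x₀).index = n := card_mul_index _
    -- pointwise bounds
    have hb : ∀ x : G, 2 * beta x ≤ (if x = 1 then 2 * r else 0) + ((if orderOf x = 2 then 2 * (h - 2) else 0) +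
        (if x ≠ 1 ∧ orderOf x ≠ 2 then h else 0)) := by
      intro x
      by_cases hx1 : x = 1
      · rw [if_pos hx1, hx1, beta_one, ← hrdef]; omega
      · rw [if_neg hx1]
        by_cases hx2 : orderOf x = 2
        · rw [if_pos hx2, if_neg (by tauto)]
          have h1 := beta_invol hx2
          have h2 := hmax x (hinvR x hx2)
          omega
        · rw [if_neg hx2, if_pos ⟨hx1, hx2⟩]
          have hxs : x ^ 2 ≠ 1 := fun h => hx2 (orderOf_eq_prime h hx1)
          have h1 := beta_le hxs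
          split_ifs at h1 with hc
          · have h2 := hmax x (Finset.mem_filter.2 ⟨Finset.mem_univ _, hx1, hc⟩)
            omega
          · omega
    have hsum := Finset.sum_le_sum (fun x (_ : x ∈ (Finset.univ : Finset G)) => hb x)
    rw [← Finset.mul_sum, sum_beta, ← hrdef, Finset.sum_add_distrib, Finset.sum_add_distrib] at hsum
    have e1 : ∑ x : G, (if x = 1 then 2 * r else 0) = 2 * r := by
      rw [Finset.sum_ite_eq' Finset.univ (1 : G)]; simp
    have e2 : ∑ x : G, (if orderOf x = 2 then 2 * (h - 2) else 0) = r * (2 * (h - 2)) := by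
      rw [← Finset.sum_filter, Finset.sum_const, smul_eq_mul]
    have e3 : ∑ x : G, (if x ≠ 1 ∧ orderOf x ≠ 2 then h else 0) = (n - r - 1) * h := by
      rw [← Finset.sum_filter, Finset.sum_const, smul_eq_mul]
      congr 1
      have h1 : Finset.univ.filter (fun x : G => x ≠ 1 ∧ orderOf x ≠ 2) = (Finset.univ \ Finset.univ.filter (fun t : G => orderOf t = 2)).erase 1 := by
        ext x
        simp only [Finset.mem_filter, Finset.mem_univ, true_and, Finset.mem_erase, Finset.mem_sdiff]
      rw [h1, Finset.card_erase_of_mem, Finset.card_sdiff_of_subset (Finset.subset_univ _), Finset.card_univ, ← Nat.card_eq_fintype_card]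
      simp
    rw [e1, e2, e3] at hsum
    have hr1 : r + 1 ≤ n := by
      rw [hn, Nat.card_eq_fintype_card, ← Finset.card_univ]
      have : (1 : G) ∉ Finset.univ.filter (fun t : G => orderOf t = 2) := by simp
      rw [hrdef, ← Finset.card_insert_of_notMem this]
      exact Finset.card_le_card (Finset.subset_univ _)
    have hh2 : 2 ≤ h := by
      have h1 := beta_invol hz
      have h2 := hmax z (hinvR z hz)
      omega
    -- arithmetic
    obtain ⟨a, ha⟩ := Nat.exists_eq_add_of_le hh2
    obtain ⟨b, hb'⟩ := Nat.exists_eq_add_of_le hr1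
    have h3 : h - 2 = a := by omega
    have h4 : n - r - 1 = b := by omega
    rw [h3, h4] at hsum
    have hidx : 0 < (Cs x₀).index := Nat.pos_of_ne_zero index_ne_zero_of_finite
    have h5 : (Cs x₀).index * (2 * r ^ 2) ≤ (Cs x₀).index * (2 * r + (r * (2 * a) + b * h)) := Nat.mul_le_mul_left _ hsum
    have h6 : (Cs x₀).index * (b * h) = b * n := by rw [← hmn]; ring
    have h7 : (Cs x₀).index * (r * (2 * a)) + (Cs x₀).index * (4 * r) = 2 * r * n := by
      rw [← hmn, ha]; ring
    have hnpos : 0 < n := Nat.card_pos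
    nlinarith

end Cfsg.Agent.H4
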