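import Cfsg.Agent.H4.BFCount
import Cfsg.Agent.S0230
import Cfsg.Agent.L0.Core
import Cfsg.Agent.H5.Char3

namespace Cfsg.Agent.H4
open Subgroup
universe u

theorem bf_cube : ∀ (n : ℕ) (G : Type u) [Group G] [Finite G], Nat.card G = n → Even (Nat.card G) → 2 < Nat.card G →
    ∃ H : Subgroup G, H ≠ ⊤ ∧ Nat.card G < (Nat.card H) ^ 3 := by
  intro n
  induction n using Nat.strong_induction_on with
  | _ n ih =>
  intro G _ _ hn heven hgt
  classical
  haveI := Fintype.ofFinite G
  haveI : Fact (Nat.Prime 2) := ⟨Nat.prime_two⟩
  obtain ⟨z, hz⟩ := exists_prime_orderOf_dvd_card' 2 heven.two_dvd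
  by_cases hcen : ∃ x : G, orderOf x = 2 ∧ x ∈ center G
  · obtain ⟨x, hx, hxc⟩ := hcen
    haveI hN : (zpowers x).Normal := by
      constructor
      intro y hy g
      obtain ⟨k, rfl⟩ := mem_zpowers_iff.1 hy
      have : g * x ^ k * g⁻¹ = x ^ k := by
        have h1 := mem_center_iff.1 (zpow_mem hxc k) g
        rw [h1]; group
      rw [this]; exact hy
    have hcN : Nat.card (zpowers x) = 2 := by rw [Nat.card_zpowers, hx]
    have hcard := card_eq_card_quotient_mul_card_subgroup (zpowers x)
    rw [hcN] at hcard
    by_cases hev : Even (Nat.card (G ⧸ zpowers x))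
    · by_cases h2 : 2 < Nat.card (G ⧸ zpowers x)
      · obtain ⟨H, hH, hlt⟩ := ih (Nat.card (G ⧸ zpowers x)) (by omega) (G ⧸ zpowers x) rfl hev h2
        refine ⟨H.comap (QuotientGroup.mk' (zpowers x)), ?_, ?_⟩
        · intro h
          apply hH
          rw [eq_top_iff]
          intro q _
          obtain ⟨g, rfl⟩ := QuotientGroup.mk'_surjective _ q
          have : g ∈ H.comap (QuotientGroup.mk' (zpowers x)) := by rw [h]; exact mem_top g
          exact this
        · have h3 : Nat.card (H.comap (QuotientGroup.mk' (zpowers x))) = Nat.card H * 2 := by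
            rw [L0.card_comap_mk', hcN, mul_comm]
          rw [h3, hcard]
          have : 0 < Nat.card H := Nat.card_pos
          nlinarith [pow_pos this 3]
      · -- |G| = 4
        have h3 : Nat.card (G ⧸ zpowers x) = 2 := by
          have h4 : 0 < Nat.card (G ⧸ zpowers x) := Nat.card_pos
          obtain ⟨k, hk⟩ := hev
          omega
        rw [h3] at hcard
        refine ⟨zpowers x, ?_, ?_⟩
        · intro h
          rw [h, card_top] at hcN
          omega
        · rw [hcN, hcard]; norm_num
    · -- odd quotient: complement
      have hcop : Nat.Coprime (Nat.card (zpowers x)) (zpowers x).index := by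
        rw [hcN, index_eq_card]
        exact (Nat.coprime_two_left).2 (Nat.not_even_iff_odd.1 hev)
      obtain ⟨H, hH⟩ := exists_right_complement'_of_coprime hcop
      have h3 := hH.card_mul
      rw [hcN] at h3
      refine ⟨H, ?_, ?_⟩
      · intro h
        rw [h, card_top] at h3
        omega
      · have h4 : 2 ≤ Nat.card H := by omega
        rw [← h3]
        nlinarith [pow_le_pow_left₀ (by norm_num) h4 2]
  · push Not at hcen
    -- no central involutions
    by_cases hone : ∀ s t : G, orderOf s = 2 → orderOf t = 2 → IsConj s t
    · obtain ⟨H, hH, hor⟩ := bf_main heven (fun x hx => hcen x hx)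
      have hidx := card_mul_index H
      rcases hor with h2 | h2
      · refine ⟨H, hH, ?_⟩
        rw [h2] at hidx
        have h4 : 2 ≤ Nat.card H := by omega
        rw [← hidx]
        nlinarith [pow_le_pow_left₀ (by norm_num) h4 2]
      · have hr : Nat.card {t : G // orderOf t = 2} = (centralizer ({z} : Set G)).index := by
          rw [← H5.card_isConj]
          refine Nat.card_congr (Equiv.subtypeEquivRight fun t => ⟨fun ht => hone z t hz ht, fun ht => ?_⟩)
          obtain ⟨c, hc⟩ := isConj_iff.1 ht
          have h9 : SemiconjBy c z (c * z * c⁻¹) := by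
            show c * z = c * z * c⁻¹ * c
            group
          rw [← hc, ← h9.orderOf_eq, hz]
        have hzc : centralizer ({z} : Set G) ≠ ⊤ := by
          intro h
          apply hcen z hz
          rw [mem_center_iff]
          intro g
          have : g ∈ centralizer ({z} : Set G) := by rw [h]; exact mem_top g
          exact mem_centralizer_singleton_iff.1 this
        have hcc := card_mul_index (centralizer ({z} : Set G))
        rw [hr] at h2
        set c := Nat.card (centralizer ({z} : Set G)) with hcdef
        set r := (centralizer ({z} : Set G)).index with hrdef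
        set h := Nat.card H with hhdef
        set m := H.index with hmdef
        have hc2 : 2 ≤ c := by
          have : z ∈ centralizer ({z} : Set G) := by rw [mem_centralizer_singleton_iff]
          have h3 := orderOf_dvd_natCard (⟨z, this⟩ : centralizer ({z} : Set G))
          rw [← orderOf_coe, hz] at h3
          exact Nat.le_of_dvd Nat.card_pos h3
        have hrpos : 0 < r := Nat.pos_of_ne_zero index_ne_zero_of_finite
        -- 2 m r² < n (n + r), n = c r
        rw [← hcc] at h2
        have h3 : 2 * m < c * (c + 1) := by
          have h4 : r * r * (2 * m) < r * r * (c * (c + 1)) := by nlinarith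
          exact Nat.lt_of_mul_lt_mul_left h4
        have h5 : m < c ^ 2 := by nlinarith
        have hhpos : 0 < h := Nat.card_pos
        have h6 : Nat.card G < h * c ^ 2 := by
          rw [← hidx]
          exact Nat.mul_lt_mul_of_pos_left h5 hhpos
        rcases le_total h c with h7 | h7
        · refine ⟨_, hzc, lt_of_lt_of_le h6 ?_⟩
          rw [← hcdef]
          calc h * c ^ 2 ≤ c * c ^ 2 := Nat.mul_le_mul_right _ h7
            _ = c ^ 3 := by ring
        · refine ⟨H, hH, lt_of_lt_of_le h6 ?_⟩
          rw [← hhdef]
          calc h * c ^ 2 ≤ h * h ^ 2 := Nat.mul_le_mul_left _ (Nat.pow_le_pow_left h7 2)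
            _ = h ^ 3 := by ring
    · push Not at hone
      obtain ⟨s, t, hs, ht, hst⟩ := hone
      -- choose the involution with maximal centralizer
      obtain ⟨v, hv, hvmax⟩ := Finset.exists_max_image (Finset.univ.filter (fun u : G => orderOf u = 2))
        (fun u => Nat.card (centralizer ({u} : Set G))) ⟨s, by simp [hs]⟩
      have hv2 : orderOf v = 2 := (Finset.mem_filter.1 hv).2
      have hmaxv : ∀ u : G, orderOf u = 2 → Nat.card (centralizer ({u} : Set G)) ≤ Nat.card (centralizer ({v} : Set G)) :=
        fun u hu => hvmax u (Finset.mem_filter.2 ⟨Finset.mem_univ _, hu⟩)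
      obtain ⟨w, hw2, hwv⟩ : ∃ w : G, orderOf w = 2 ∧ ¬ IsConj w v := by
        by_cases h1 : IsConj s v
        · refine ⟨t, ht, fun h2 => hst (h1.trans h2.symm)⟩
        · exact ⟨s, hs, h1⟩
      have h3 := S0230.result w v hw2 hv2 hwv hmaxv
      refine ⟨_, ?_, h3⟩
      intro h
      apply hcen v hv2
      rw [mem_center_iff]
      intro g
      have : g ∈ centralizer ({v} : Set G) := by rw [h]; exact mem_top g
      exact mem_centralizer_singleton_iff.1 this

end Cfsg.Agent.H4
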