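import Cfsg.Agent.L0.Core
import Cfsg.Agent.H6.Comm
import Mathlib

set_option linter.all false
set_option autoImplicit false

namespace Cfsg.Agent.H4
open Cfsg
open scoped commutatorElement
universe u
variable {G : Type u} [Group G]

def Chief (U V : Subgroup G) : Prop := U.Normal ∧ V.Normal ∧ V < U ∧ ∀ W : Subgroup G, W.Normal → V ≤ W → W ≤ U → W = V ∨ W = U

theorem nilp_cent_chief {F : Subgroup G} (hF : F.Normal) (hnil : Group.IsNilpotent F) {U V : Subgroup G} (h : Chief U V) : ⁅U, F⁆ ≤ V := by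
  obtain ⟨hU, hV, hVU, hch⟩ := h
  have h1 : ⁅U, F⁆ ≤ U := Subgroup.commutator_le_left U F
  rcases hch (⁅U, F⁆ ⊔ V) inferInstance le_sup_right (sup_le h1 hVU.le) with h2 | h2
  · rw [← h2]; exact le_sup_left
  · exfalso
    have h3 : ∀ k, U ≤ F.lowerCentralSeries k ⊔ V := by
      intro k
      induction k with
      | zero =>
        conv_lhs => rw [← h2]
        exact sup_le_sup_right (Subgroup.commutator_le_right U F) V
      | succ k ih =>
        have hn : (F.lowerCentralSeries (k + 1)).Normal := by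
          clear ih
          induction k with
          | zero => rw [Subgroup.lowerCentralSeries_succ, Subgroup.lowerCentralSeries_zero]; infer_instance
          | succ k ih => haveI := ih; rw [Subgroup.lowerCentralSeries_succ]; infer_instance
        conv_lhs => rw [← h2]
        refine sup_le ?_ le_sup_right
        refine (Subgroup.commutator_mono ih le_rfl).trans ?_
        rw [Subgroup.sup_eq_closure]
        refine H6.comm_closure_le ?_ ?_
        · intro x _
          rw [SetLike.mem_coe, Subgroup.normalizer_eq_top]; exact Subgroup.mem_top x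
        · rintro x (hx | hx) q hq
          · exact Subgroup.mem_sup_left (Subgroup.commutator_mem_commutator hx hq)
          · refine Subgroup.mem_sup_right ?_
            exact Subgroup.commutator_le_left V F (Subgroup.commutator_mem_commutator hx hq)
    obtain ⟨n, hn⟩ := (Subgroup.isNilpotent_iff_lowerCentralSeries F).mp hnil
    have h4 := h3 n
    rw [hn, bot_sup_eq] at h4
    exact hVU.not_ge h4

theorem nilp_of_chief [Finite G] {F D : Subgroup G} (hD : D.Normal) (hDF : ⁅D, D⁆ ≤ F)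
    (h : ∀ U V : Subgroup G, Chief U V → U ≤ F → ⁅U, D⁆ ≤ V) : Group.IsNilpotent D := by
  classical
  have hn : ∀ k, (D.lowerCentralSeries k).Normal := by
    intro k
    induction k with
    | zero => exact hD
    | succ k ih => haveI := ih; rw [Subgroup.lowerCentralSeries_succ]; infer_instance
  obtain ⟨_, ⟨k, rfl⟩, hk⟩ := Set.exists_min_image (Set.range fun k => D.lowerCentralSeries k) (fun L => Nat.card L) (Set.toFinite _) ⟨_, 0, rfl⟩
  set L := D.lowerCentralSeries k with hL
  have hL1 : D.lowerCentralSeries (k + 1) = L :=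
    Subgroup.eq_of_le_of_card_ge (D.lowerCentralSeries_antitone (Nat.le_succ k)) (hk _ ⟨k + 1, rfl⟩)
  by_cases hb : L = ⊥
  · exact (Subgroup.isNilpotent_iff_lowerCentralSeries D).mpr ⟨k, hb⟩
  exfalso
  have hLF : L ≤ F := by
    rw [← hL1]
    refine le_trans (D.lowerCentralSeries_antitone (show 1 ≤ k + 1 by omega)) ?_
    rw [Subgroup.lowerCentralSeries_succ, Subgroup.lowerCentralSeries_zero]
    exact hDF
  obtain ⟨V, ⟨hVn, hVL⟩, hVmax⟩ := Set.exists_max_image {V : Subgroup G | V.Normal ∧ V < L} (fun V => Nat.card V) (Set.toFinite _)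
    ⟨⊥, inferInstance, bot_lt_iff_ne_bot.mpr hb⟩
  have hch : Chief L V := by
    refine ⟨hn k, hVn, hVL, fun W hW hVW hWL => ?_⟩
    by_cases h1 : W = L
    · exact Or.inr h1
    · left
      exact (Subgroup.eq_of_le_of_card_ge hVW (hVmax W ⟨hW, lt_of_le_of_ne hWL h1⟩)).symm
  have h1 := h L V hch hLF
  rw [← Subgroup.lowerCentralSeries_succ, hL1] at h1
  exact hVL.not_ge h1

def dser (C : Subgroup G) : ℕ → Subgroup G
  | 0 => C
  | k + 1 => ⁅dser C k, dser C k⁆

theorem chief_main [Finite G] (hG : Group.IsSolvable G) (N : Subgroup G) [hN : N.Normal] (g : G) (hgN : g ∈ N)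
    (h : ∀ U V : Subgroup G, Chief U V → U ≤ (fittingSubgroup ↥N).map N.subtype → ∀ u ∈ U, u * g * u⁻¹ * g⁻¹ ∈ V) :
    g ∈ (fittingSubgroup ↥N).map N.subtype := by
  classical
  set F := (fittingSubgroup ↥N).map N.subtype with hF
  have hFn : F.Normal := L0.normal_map_subtype_of_characteristic _
  have hFmax : ∀ D : Subgroup G, D.Normal → D ≤ N → Group.IsNilpotent D → D ≤ F := by
    intro D hD hDN hnil
    have h1 : (D.subgroupOf N).Normal := inferInstance
    have h2 : Group.IsNilpotent (D.subgroupOf N) :=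
      Group.nilpotent_of_mulEquiv (Subgroup.subgroupOfEquivOfLe hDN).symm
    have h3 := L0.le_fittingSubgroup h2
    intro x hx
    exact ⟨⟨x, hDN hx⟩, h3 (Subgroup.mem_subgroupOf.mpr hx), rfl⟩
  let C : Subgroup G :=
    { carrier := {g | g ∈ N ∧ ∀ U V : Subgroup G, Chief U V → U ≤ F → ∀ u ∈ U, u * g * u⁻¹ * g⁻¹ ∈ V}
      one_mem' := ⟨N.one_mem, fun U V hUV _ u _ => by simp⟩
      mul_mem' := by
        rintro a b ⟨ha, ha'⟩ ⟨hb, hb'⟩
        refine ⟨N.mul_mem ha hb, fun U V hUV hUF u hu => ?_⟩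
        rw [show u * (a * b) * u⁻¹ * (a * b)⁻¹ = (u * a * u⁻¹ * a⁻¹) * (a * (u * b * u⁻¹ * b⁻¹) * a⁻¹) by group]
        exact V.mul_mem (ha' U V hUV hUF u hu) (hUV.2.1.conj_mem _ (hb' U V hUV hUF u hu) a)
      inv_mem' := by
        rintro a ⟨ha, ha'⟩
        refine ⟨N.inv_mem ha, fun U V hUV hUF u hu => ?_⟩
        rw [show u * a⁻¹ * u⁻¹ * a⁻¹⁻¹ = a⁻¹ * (u * a * u⁻¹ * a⁻¹)⁻¹ * a⁻¹⁻¹ by group]
        exact hUV.2.1.conj_mem _ (V.inv_mem (ha' U V hUV hUF u hu)) _ }
  have hCn : C.Normal := by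
    refine ⟨?_⟩
    rintro a ⟨ha, ha'⟩ x
    refine ⟨hN.conj_mem a ha x, fun U V hUV hUF u hu => ?_⟩
    rw [show u * (x * a * x⁻¹) * u⁻¹ * (x * a * x⁻¹)⁻¹ = x * ((x⁻¹ * u * x⁻¹⁻¹) * a * (x⁻¹ * u * x⁻¹⁻¹)⁻¹ * a⁻¹) * x⁻¹ by group]
    exact hUV.2.1.conj_mem _ (ha' U V hUV hUF _ (hUV.1.conj_mem u hu x⁻¹)) x
  have hCN : C ≤ N := fun x hx => hx.1
  have hCF : C ≤ F := by
    -- derived series of `C` inside `G`
    obtain ⟨E, hE⟩ : ∃ E, E = dser C := ⟨_, rfl⟩
    have hE0 : E 0 = C := by rw [hE]; rfl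
    have hEs : ∀ k, E (k + 1) = ⁅E k, E k⁆ := fun k => by rw [hE]; rfl
    have hEn : ∀ k, (E k).Normal := by
      intro k
      induction k with
      | zero => rw [hE0]; exact hCn
      | succ k ih => haveI := ih; rw [hEs]; exact Subgroup.commutator_normal (E k) (E k)
    have hEC : ∀ k, E k ≤ C := by
      intro k
      induction k with
      | zero => exact hE0.le
      | succ k ih => haveI := hEn k; rw [hEs]; exact (Subgroup.commutator_le_left _ _).trans ih
    have hEd : ∀ k, E k ≤ derivedSeries G k := by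
      intro k
      induction k with
      | zero => exact le_top
      | succ k ih => rw [hEs, derivedSeries_succ]; exact Subgroup.commutator_mono ih ih
    obtain ⟨n, hn⟩ := hG.solvable
    have hEn' : E n ≤ F := by
      have := hEd n
      rw [hn, le_bot_iff] at this
      rw [this]; exact bot_le
    have hstep : ∀ k, E (k + 1) ≤ F → E k ≤ F := by
      intro k hk
      haveI := hEn k
      apply hFmax (E k) (hEn k) ((hEC k).trans hCN)
      apply nilp_of_chief (F := F) (hEn k) (by rw [← hEs]; exact hk)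
      intro U V hUV hUF
      rw [Subgroup.commutator_le]
      intro u hu x hx
      exact (hEC k hx).2 U V hUV hUF u hu
    have hdown : ∀ j, j ≤ n → E (n - j) ≤ F := by
      intro j
      induction j with
      | zero => intro _; exact hEn'
      | succ j ih =>
        intro hj
        apply hstep
        rw [show n - (j + 1) + 1 = n - j by omega]
        exact ih (by omega)
    have := hdown n le_rfl
    rwa [Nat.sub_self, hE0] at this
  exact hCF ⟨hgN, h⟩

theorem chief_fit_iff [Finite G] (hG : Group.IsSolvable G) (N : Subgroup G) [hN : N.Normal] (g : G) :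
    (g ∈ (fittingSubgroup ↥N).map N.subtype ↔ g ∈ N ∧ ∀ U V : Subgroup G, Chief U V → ∀ u ∈ U, u * g * u⁻¹ * g⁻¹ ∈ V) ∧
    (g ∈ (fittingSubgroup ↥N).map N.subtype ↔ g ∈ N ∧ ∀ U V : Subgroup G, Chief U V → U ≤ (fittingSubgroup ↥N).map N.subtype → ∀ u ∈ U, u * g * u⁻¹ * g⁻¹ ∈ V) := by
  have hFn : ((fittingSubgroup ↥N).map N.subtype).Normal := L0.normal_map_subtype_of_characteristic _
  have hFnil : Group.IsNilpotent ((fittingSubgroup ↥N).map N.subtype) := by
    haveI := L0.fittingSubgroup_isNilpotent N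
    exact Group.nilpotent_of_mulEquiv ((fittingSubgroup ↥N).equivMapOfInjective N.subtype N.subtype_injective)
  have hfwd : g ∈ (fittingSubgroup ↥N).map N.subtype → g ∈ N ∧ ∀ U V : Subgroup G, Chief U V → ∀ u ∈ U, u * g * u⁻¹ * g⁻¹ ∈ V := by
    intro hg
    refine ⟨Subgroup.map_subtype_le _ hg, fun U V hUV u hu => ?_⟩
    exact nilp_cent_chief hFn hFnil hUV (Subgroup.commutator_mem_commutator hu hg)
  refine ⟨⟨hfwd, fun h => ?_⟩, ⟨fun hg => ⟨(hfwd hg).1, fun U V hUV _ => (hfwd hg).2 U V hUV⟩, fun h => ?_⟩⟩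
  · exact chief_main hG N g h.1 (fun U V hUV _ => h.2 U V hUV)
  · exact chief_main hG N g h.1 h.2

end Cfsg.Agent.H4
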