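import Cfsg.Agent.H5.K0
import Cfsg.Agent.L0.Core

set_option linter.all false
set_option autoImplicit false

/-! Nilpotent class sums in characteristic p. -/

namespace Cfsg.Agent.H4

open Module

theorem exists_fixed_vec_aux {p : ℕ} [hp : Fact p.Prime] {Q : Type*} [Group Q] [Finite Q] (hQ : IsPGroup p Q)
    {V : Type*} [AddCommGroup V] [Module (ZMod p) V] (act : Q →* AddMonoid.End V) (hV : ∀ v : V, p • v = 0)
    (U : AddSubgroup V) (hU : ∀ q, ∀ x ∈ U, act q x ∈ U) (v : V) (hvU : v ∈ U) (hv : v ≠ 0) :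
    ∃ u ∈ U, u ≠ 0 ∧ ∀ q, act q u = u := by
  classical
  let S : Submodule (ZMod p) V := Submodule.span (ZMod p) (Set.range fun q : Q => act q v)
  haveI : Module.Finite (ZMod p) ↥S := FiniteDimensional.span_of_finite (ZMod p) (Set.finite_range (fun q : Q => act q v))
  haveI : Finite S := Module.finite_of_finite (ZMod p)
  have hsm : ∀ (c : ZMod p) (q : Q) (x : V), act q (c • x) = c • act q x := by
    intro c q x
    exact ZMod.map_smul (act q) c x
  have hSst : ∀ q : Q, ∀ x ∈ S, act q x ∈ S := by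
    intro q x hx
    induction hx using Submodule.span_induction with
    | mem x hx =>
      obtain ⟨r, rfl⟩ := hx
      apply Submodule.subset_span
      refine ⟨q * r, ?_⟩
      show act (q * r) v = act q (act r v)
      rw [map_mul]; rfl
    | zero => rw [map_zero]; exact S.zero_mem
    | add x y _ _ hx hy => rw [map_add]; exact S.add_mem hx hy
    | smul c x _ hx => rw [hsm]; exact S.smul_mem c hx
  have hSU : S ≤ AddSubgroup.toZModSubmodule p U := by
    rw [Submodule.span_le]
    rintro _ ⟨q, rfl⟩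
    exact hU q v hvU
  letI : MulAction Q S :=
    { smul := fun q s => ⟨act q s, hSst q s s.2⟩
      one_smul := fun s => Subtype.ext (by show act 1 (s : V) = s; rw [map_one]; rfl)
      mul_smul := fun q r s => Subtype.ext (by show act (q * r) (s : V) = act q (act r s); rw [map_mul]; rfl) }
  have hvS : v ∈ S := Submodule.subset_span ⟨1, by show act 1 v = v; rw [map_one]; rfl⟩
  have hdvd : p ∣ Nat.card S := by
    have h1 : addOrderOf (⟨v, hvS⟩ : S) = p := by
      apply addOrderOf_eq_prime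
      · apply Subtype.ext
        exact hV v
      · intro h
        exact hv (congrArg Subtype.val h)
    have h2 := addOrderOf_dvd_natCard (⟨v, hvS⟩ : S)
    rwa [h1] at h2
  have h0 : (0 : S) ∈ MulAction.fixedPoints Q S := by
    intro q
    apply Subtype.ext
    show act q 0 = 0
    exact map_zero _
  obtain ⟨b, hb, hb0⟩ := hQ.exists_fixed_point_of_prime_dvd_card_of_fixed_point S hdvd h0
  refine ⟨b, hSU b.2, fun h => hb0 (Subtype.ext h.symm), fun q => ?_⟩
  exact congrArg Subtype.val (hb q)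

theorem exists_fixed_vec {p : ℕ} [hp : Fact p.Prime] {Q : Type*} [Group Q] [Finite Q] (hQ : IsPGroup p Q)
    {V : Type*} [AddCommGroup V] (act : Q →* AddMonoid.End V) (hV : ∀ v : V, p • v = 0)
    (U : AddSubgroup V) (hU : ∀ q, ∀ x ∈ U, act q x ∈ U) (v : V) (hvU : v ∈ U) (hv : v ≠ 0) :
    ∃ u ∈ U, u ≠ 0 ∧ ∀ q, act q u = u :=
  @exists_fixed_vec_aux p hp Q _ _ hQ V _ (AddCommGroup.zmodModule hV) act hV U hU v hvU hv

theorem class_sum_nilpotent {G : Type*} [Group G] [Finite G] (p : ℕ) [hp : Fact p.Prime] (F : Type*) [Field F] [CharP F p] (g : G)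
    (hg : ∀ x : G, IsConj g x → x ∉ Subgroup.centralizer (pCore p G : Set G)) :
    IsNilpotent (∑ᶠ x ∈ ConjClasses.carrier (ConjClasses.mk g), MonoidAlgebra.single x (1 : F) : MonoidAlgebra F G) := by
  classical
  haveI := Fintype.ofFinite G
  let Ω := {x : G // x ∈ (ConjClasses.mk g).carrier}
  obtain ⟨K, hKdef⟩ : ∃ K : MonoidAlgebra F G, K = ∑ x : Ω, MonoidAlgebra.single (x : G) (1 : F) := ⟨_, rfl⟩
  have hK : (∑ᶠ x ∈ ConjClasses.carrier (ConjClasses.mk g), MonoidAlgebra.single x (1 : F) : MonoidAlgebra F G) = K := by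
    rw [hKdef, ← finsum_set_coe_eq_finsum_mem, finsum_eq_sum_of_fintype]
  rw [hK]
  have hΩ : ∀ x : G, x ∈ (ConjClasses.mk g).carrier ↔ IsConj g x := by
    intro x
    rw [ConjClasses.mem_carrier_iff_mk_eq, ConjClasses.mk_eq_mk_iff_isConj]
    exact ⟨fun h => h.symm, fun h => h.symm⟩
  have hconj : ∀ h x : G, x ∈ (ConjClasses.mk g).carrier → h * x * h⁻¹ ∈ (ConjClasses.mk g).carrier := by
    intro h x hx
    rw [hΩ] at hx ⊢
    exact hx.trans (isConj_iff.2 ⟨h, rfl⟩)
  -- central
  have hcen : ∀ h : G, MonoidAlgebra.single h (1 : F) * K = K * MonoidAlgebra.single h (1 : F) := by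
    intro h
    rw [hKdef, Finset.mul_sum, Finset.sum_mul]
    let e : Ω ≃ Ω :=
      { toFun := fun x => ⟨h * x * h⁻¹, hconj h x x.2⟩
        invFun := fun x => ⟨h⁻¹ * x * h⁻¹⁻¹, hconj h⁻¹ x x.2⟩
        left_inv := fun x => Subtype.ext (by show h⁻¹ * (h * (x : G) * h⁻¹) * h⁻¹⁻¹ = x; group)
        right_inv := fun x => Subtype.ext (by show h * (h⁻¹ * (x : G) * h⁻¹⁻¹) * h⁻¹ = x; group) }
    refine Fintype.sum_equiv e _ _ (fun x => ?_)
    rw [MonoidAlgebra.single_mul_single, MonoidAlgebra.single_mul_single]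
    congr 1
    show h * (x : G) = h * (x : G) * h⁻¹ * h
    group
  -- action of Q
  obtain ⟨Q, hQdef⟩ : ∃ Q : Subgroup G, Q = pCore p G := ⟨_, rfl⟩
  have hQn : Q.Normal := by rw [hQdef]; infer_instance
  have hQp : IsPGroup p Q := by rw [hQdef]; exact L0.pCore_isPGroup p G
  letI : MulAction Q Ω :=
    { smul := fun q x => ⟨(q : G) * x * (q : G)⁻¹, hconj q x x.2⟩
      one_smul := fun x => Subtype.ext (by show ((1 : Q) : G) * x * ((1 : Q) : G)⁻¹ = x; simp)
      mul_smul := fun q r x => Subtype.ext (by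
        show ((q * r : Q) : G) * x * ((q * r : Q) : G)⁻¹ = (q : G) * ((r : G) * x * (r : G)⁻¹) * (q : G)⁻¹
        rw [Subgroup.coe_mul]; group) }
  have hnofix : ∀ x : Ω, x ∉ MulAction.fixedPoints Q Ω := by
    intro x hx
    apply hg x ((hΩ x).1 x.2)
    rw [Subgroup.mem_centralizer_iff]
    intro q hq
    rw [← hQdef] at hq
    have h1 : (q : G) * x * q⁻¹ = x := congrArg Subtype.val (hx ⟨q, hq⟩)
    calc q * (x : G) = q * x * q⁻¹ * q := by group
      _ = x * q := by rw [h1]
  have hkill : ∀ u : MonoidAlgebra F G, (∀ q : Q, MonoidAlgebra.single (q : G) (1 : F) * u = u) → K * u = 0 := by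
    intro u hu
    rw [hKdef, Finset.sum_mul]
    have h1 := H5.ksum_fixedPoints (k := F) (p := p) hQp (Ω := Ω) (fun x : Ω => MonoidAlgebra.single (x : G) (1 : F) * u) (by
      intro q x
      show MonoidAlgebra.single ((q : G) * x * (q : G)⁻¹) (1 : F) * u = MonoidAlgebra.single (x : G) (1 : F) * u
      have e1 : (q : G) * x * (q : G)⁻¹ = x * ((x : G)⁻¹ * q * x * (q : G)⁻¹) := by group
      have hmem : (x : G)⁻¹ * q * x * (q : G)⁻¹ ∈ Q := by
        refine Q.mul_mem ?_ (Q.inv_mem q.2)
        have := hQn.conj_mem q q.2 (x : G)⁻¹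
        rwa [inv_inv] at this
      rw [e1]
      have e2 : (MonoidAlgebra.single ((x : G) * ((x : G)⁻¹ * q * x * (q : G)⁻¹)) (1 : F) : MonoidAlgebra F G) =
          MonoidAlgebra.single (x : G) (1 : F) * MonoidAlgebra.single ((x : G)⁻¹ * q * x * (q : G)⁻¹) (1 : F) := by
        rw [MonoidAlgebra.single_mul_single, mul_one]
      rw [e2, mul_assoc, hu ⟨_, hmem⟩])
    rw [h1]
    apply Finset.sum_eq_zero
    intro x _
    rw [if_neg (hnofix x)]
  -- Fitting
  haveI : Module.Finite F (MonoidAlgebra F G) := inferInstance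
  let T : MonoidAlgebra F G →ₗ[F] MonoidAlgebra F G := LinearMap.mulLeft F K
  have hTn : ∀ n a, (T ^ n) a = K ^ n * a := by
    intro n
    induction n with
    | zero => intro a; rw [pow_zero, pow_zero, one_mul]; rfl
    | succ n ih =>
      intro a
      rw [pow_succ', pow_succ', mul_assoc, ← ih]; rfl
  obtain ⟨n, hn⟩ := IsArtinian.monotone_stabilizes T.iterateRange
  have hstab : LinearMap.range (T ^ n) = LinearMap.range (T ^ (n + 1)) := hn (n + 1) (Nat.le_succ n)
  by_cases hbot : LinearMap.range (T ^ n) = ⊥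
  · refine ⟨n, ?_⟩
    have h1 : (T ^ n) 1 ∈ LinearMap.range (T ^ n) := ⟨1, rfl⟩
    rw [hbot, Submodule.mem_bot, hTn, mul_one] at h1
    exact h1
  · exfalso
    obtain ⟨v, hvU, hv⟩ := (Submodule.ne_bot_iff _).1 hbot
    let act : Q →* AddMonoid.End (MonoidAlgebra F G) :=
      { toFun := fun q => AddMonoidHom.mulLeft (MonoidAlgebra.single (q : G) (1 : F))
        map_one' := by
          ext1 a
          show MonoidAlgebra.single ((1 : Q) : G) (1 : F) * a = a
          rw [Subgroup.coe_one, ← MonoidAlgebra.one_def, one_mul]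
        map_mul' := by
          intro q r
          ext1 a
          show MonoidAlgebra.single ((q * r : Q) : G) (1 : F) * a = MonoidAlgebra.single (q : G) (1 : F) * (MonoidAlgebra.single (r : G) (1 : F) * a)
          rw [← mul_assoc, MonoidAlgebra.single_mul_single, mul_one, Subgroup.coe_mul] }
    have hpV : ∀ v : MonoidAlgebra F G, p • v = 0 := by
      intro v
      rw [← Nat.cast_smul_eq_nsmul F, CharP.cast_eq_zero, zero_smul]
    have hKn : ∀ (m : ℕ) (h : G), MonoidAlgebra.single h (1 : F) * K ^ m = K ^ m * MonoidAlgebra.single h (1 : F) := by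
      intro m h
      have : Commute (MonoidAlgebra.single h (1 : F)) K := hcen h
      exact (this.pow_right m).eq
    obtain ⟨u, huU, hu0, hu⟩ := exists_fixed_vec hQp act hpV (LinearMap.range (T ^ n)).toAddSubgroup (by
      rintro q _ ⟨a, rfl⟩
      refine ⟨MonoidAlgebra.single (q : G) (1 : F) * a, ?_⟩
      show (T ^ n) (MonoidAlgebra.single (q : G) (1 : F) * a) = MonoidAlgebra.single (q : G) (1 : F) * ((T ^ n) a)
      rw [hTn, hTn, ← mul_assoc, ← mul_assoc, hKn]) v hvU hv
    have hKu := hkill u hu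
    have hUT : ∀ x ∈ LinearMap.range (T ^ n), T x ∈ LinearMap.range (T ^ n) := by
      rintro _ ⟨a, rfl⟩
      rw [hstab]
      refine ⟨a, ?_⟩
      rw [pow_succ']; rfl
    have hsurj : Function.Surjective (T.restrict hUT) := by
      rintro ⟨y, hy⟩
      rw [hstab] at hy
      obtain ⟨a, rfl⟩ := hy
      refine ⟨⟨(T ^ n) a, ⟨a, rfl⟩⟩, Subtype.ext ?_⟩
      show T ((T ^ n) a) = (T ^ (n + 1)) a
      rw [pow_succ']; rfl
    have hinj := LinearMap.injective_iff_surjective.2 hsurj
    apply hu0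
    have h2 : (⟨u, huU⟩ : LinearMap.range (T ^ n)) = 0 := by
      apply hinj
      rw [map_zero]
      apply Subtype.ext
      exact hKu
    exact congrArg Subtype.val h2

end Cfsg.Agent.H4
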