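import Cfsg.Agent.H4.Cyc1

set_option linter.all false
set_option autoImplicit false

/-! Self-normalizing cyclic subgroups `W₁ × W₂`. -/

namespace Cfsg.Agent.H4

open Module
open scoped ComplexConjugate Pointwise

universe u v w

section
variable {G : Type u} [Group G] {W₁ W₂ : Subgroup G}

theorem snc_comm (hW : IsSelfNormalizingCyclic W₁ W₂) (a b : ↥(W₁ ⊔ W₂)) : a * b = b * a := by
  have := hW.2.2.2.2.1
  exact mul_comm_of_isCyclic a b where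
  mul_comm_of_isCyclic {α : Type u} [Group α] [IsCyclic α] (a b : α) : a * b = b * a :=
    (IsCyclic.commGroup (α := α)).mul_comm a b

/-- the TI set -/
def vset (W₁ W₂ : Subgroup G) : Set G := {g | g ∈ W₁ ⊔ W₂ ∧ g ∉ W₁ ∧ g ∉ W₂}

theorem snc_nonempty (hW : IsSelfNormalizingCyclic W₁ W₂) : (vset W₁ W₂).Nonempty := by
  obtain ⟨a, ha, ha1⟩ := (Subgroup.ne_bot_iff_exists_ne_one.mp hW.1 |>.imp fun x hx => hx) |> fun ⟨x, hx⟩ => (⟨x.1, x.2, fun h => hx (Subtype.ext h)⟩ : ∃ a : G, a ∈ W₁ ∧ a ≠ 1)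
  obtain ⟨b, hb, hb1⟩ := (Subgroup.ne_bot_iff_exists_ne_one.mp hW.2.1 |>.imp fun x hx => hx) |> fun ⟨x, hx⟩ => (⟨x.1, x.2, fun h => hx (Subtype.ext h)⟩ : ∃ a : G, a ∈ W₂ ∧ a ≠ 1)
  refine ⟨a * b, Subgroup.mul_mem _ (Subgroup.mem_sup_left ha) (Subgroup.mem_sup_right hb), ?_, ?_⟩
  · intro h
    apply hb1
    have h1 : b ∈ W₁ := by
      have := W₁.mul_mem (W₁.inv_mem ha) h
      rwa [inv_mul_cancel_left] at this
    have h2 : b ∈ W₁ ⊓ W₂ := ⟨h1, hb⟩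
    rw [hW.2.2.1, Subgroup.mem_bot] at h2
    exact h2
  · intro h
    apply ha1
    have h1 : a ∈ W₂ := by
      have := W₂.mul_mem h (W₂.inv_mem hb)
      rwa [mul_inv_cancel_right] at this
    have h2 : a ∈ W₁ ⊓ W₂ := ⟨ha, h1⟩
    rw [hW.2.2.1, Subgroup.mem_bot] at h2
    exact h2

theorem snc_norm (hW : IsSelfNormalizingCyclic W₁ W₂) (X : Set G) (hX : X ⊆ vset W₁ W₂) (hne : X.Nonempty) :
    Subgroup.normalizer X = W₁ ⊔ W₂ := by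
  apply hW.2.2.2.2.2 X _ hne
  intro x hx
  obtain ⟨h1, h2, h3⟩ := hX hx
  exact ⟨h1, by rintro (h | h); exact h2 h; exact h3 h⟩

theorem snc_cent (hW : IsSelfNormalizingCyclic W₁ W₂) {t : G} (ht : t ∈ vset W₁ W₂) (g : G) :
    g ∈ W₁ ⊔ W₂ ↔ g * t = t * g := by
  rw [← snc_norm hW {t} (by simpa using ht) ⟨t, rfl⟩, Subgroup.mem_set_normalizer_iff]
  constructor
  · intro h
    have := (h t).mp rfl
    exact mul_inv_eq_iff_eq_mul.mp this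
  · intro h z
    rw [Set.mem_singleton_iff, Set.mem_singleton_iff]
    constructor
    · rintro rfl; rw [h, mul_inv_cancel_right]
    · intro h1
      have h2 : z = g⁻¹ * (g * z * g⁻¹) * g := by group
      rw [h2, h1, mul_assoc, ← h]; group

theorem snc_TI [Finite G] (hW : IsSelfNormalizingCyclic W₁ W₂) {t g : G} (ht : t ∈ vset W₁ W₂) (hgt : g * t * g⁻¹ ∈ vset W₁ W₂) :
    g ∈ W₁ ⊔ W₂ := by
  -- g normalizes W
  have h1 : ∀ z : G, z ∈ W₁ ⊔ W₂ ↔ g * z * g⁻¹ ∈ W₁ ⊔ W₂ := by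
    intro z
    rw [snc_cent hW ht, snc_cent hW hgt]
    constructor
    · intro h
      calc g * z * g⁻¹ * (g * t * g⁻¹) = g * (z * t) * g⁻¹ := by group
        _ = g * (t * z) * g⁻¹ := by rw [h]
        _ = _ := by group
    · intro h
      have h2 : g * (z * t) * g⁻¹ = g * (t * z) * g⁻¹ := by
        calc g * (z * t) * g⁻¹ = g * z * g⁻¹ * (g * t * g⁻¹) := by group
          _ = g * t * g⁻¹ * (g * z * g⁻¹) := h
          _ = _ := by group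
      exact mul_left_cancel (mul_right_cancel h2)
  have hcyc := hW.2.2.2.2.1
  -- hence normalizes every subgroup of W
  have h2 : ∀ K : Subgroup G, K ≤ W₁ ⊔ W₂ → ∀ z ∈ K, g * z * g⁻¹ ∈ K := by
    intro K hK z hz
    have h3 : Nat.card (K.map (MulAut.conj g).toMonoidHom) = Nat.card K :=
      Nat.card_congr (K.equivMapOfInjective _ (MulAut.conj g).injective).symm.toEquiv
    have h4 : (K.map (MulAut.conj g).toMonoidHom) ≤ W₁ ⊔ W₂ := by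
      rintro _ ⟨w, hw, rfl⟩
      exact (h1 w).mp (hK hw)
    have h5 : (K.map (MulAut.conj g).toMonoidHom).subgroupOf (W₁ ⊔ W₂) = K.subgroupOf (W₁ ⊔ W₂) := by
      have := hW.2.2.2.2.1
      apply eq_of_card_eq_of_cyclic
      rw [Nat.card_congr (Subgroup.subgroupOfEquivOfLe h4).toEquiv, Nat.card_congr (Subgroup.subgroupOfEquivOfLe hK).toEquiv, h3]
    have h6 : g * z * g⁻¹ ∈ K.map (MulAut.conj g).toMonoidHom := ⟨z, hz, rfl⟩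
    have h7 : (⟨g * z * g⁻¹, h4 h6⟩ : ↥(W₁ ⊔ W₂)) ∈ K.subgroupOf (W₁ ⊔ W₂) := by
      rw [← h5, Subgroup.mem_subgroupOf]; exact h6
    exact h7
  have h3 : ∀ K : Subgroup G, K ≤ W₁ ⊔ W₂ → ∀ z, z ∈ K ↔ g * z * g⁻¹ ∈ K := by
    intro K hK z
    refine ⟨h2 K hK z, fun hz => ?_⟩
    have h4 : K.map (MulAut.conj g).toMonoidHom = K := by
      apply Subgroup.eq_of_le_of_card_ge
      · rintro _ ⟨w, hw, rfl⟩; exact h2 K hK w hw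
      · rw [Nat.card_congr (K.equivMapOfInjective _ (MulAut.conj g).injective).symm.toEquiv]
    rw [← h4] at hz
    obtain ⟨w, hw, hwz⟩ := hz
    have h5 : g * w * g⁻¹ = g * z * g⁻¹ := hwz
    have h6 : w = z := mul_left_cancel (mul_right_cancel h5)
    rw [← h6]; exact hw
  rw [← snc_norm hW (vset W₁ W₂) (le_refl _) (snc_nonempty hW), Subgroup.mem_set_normalizer_iff]
  intro z
  show (z ∈ W₁ ⊔ W₂ ∧ z ∉ W₁ ∧ z ∉ W₂) ↔ (g * z * g⁻¹ ∈ W₁ ⊔ W₂ ∧ g * z * g⁻¹ ∉ W₁ ∧ g * z * g⁻¹ ∉ W₂)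
  rw [← h1 z, ← h3 W₁ le_sup_left z, ← h3 W₂ le_sup_right z] where
  eq_of_card_eq_of_cyclic {α : Type u} [Group α] [Finite α] [IsCyclic α] {H K : Subgroup α} (h : Nat.card H = Nat.card K) : H = K := by
    haveI : IsCyclic H := inferInstance
    haveI : IsCyclic K := inferInstance
    obtain ⟨⟨a, ha⟩, haH⟩ := IsCyclic.exists_generator (α := H)
    obtain ⟨⟨b, hb⟩, hbK⟩ := IsCyclic.exists_generator (α := K)
    have h1 : H = Subgroup.zpowers a := by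
      apply le_antisymm
      · intro x hx
        obtain ⟨k, hk⟩ := haH ⟨x, hx⟩
        exact ⟨k, congrArg Subtype.val hk⟩
      · rw [Subgroup.zpowers_le]; exact ha
    have h2 : K = Subgroup.zpowers b := by
      apply le_antisymm
      · intro x hx
        obtain ⟨k, hk⟩ := hbK ⟨x, hx⟩
        exact ⟨k, congrArg Subtype.val hk⟩
      · rw [Subgroup.zpowers_le]; exact hb
    rw [h1, h2, Nat.card_zpowers, Nat.card_zpowers] at h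
    rw [h1, h2]
    exact zpowers_eq_of_orderOf_eq h

theorem snc_ind_apply [Fintype G] (hW : IsSelfNormalizingCyclic W₁ W₂) (f : ↥(W₁ ⊔ W₂) → ℂ)
    (hf : ∀ w : ↥(W₁ ⊔ W₂), (w : G) ∉ vset W₁ W₂ → f w = 0) (w : ↥(W₁ ⊔ W₂)) (hw : (w : G) ∈ vset W₁ W₂) :
    indFun (W₁ ⊔ W₂) f w = f w := by
  apply indFun_eq_of_ti
  · intro x y
    congr 1
    rw [snc_comm hW y x, mul_inv_cancel_right]
  · intro x hx hne
    have h1 : x⁻¹ * (w : G) * x ∈ vset W₁ W₂ := by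
      by_contra hcon
      exact hne (hf _ hcon)
    have h2 : x⁻¹ * (w : G) * x⁻¹⁻¹ ∈ vset W₁ W₂ := by rw [inv_inv]; exact h1
    have h3 := snc_TI hW hw h2
    have := Subgroup.inv_mem _ h3
    rwa [inv_inv] at this

theorem snc_isometry [Fintype G] (hW : IsSelfNormalizingCyclic W₁ W₂) [Fintype ↥(W₁ ⊔ W₂)] (f f' : ↥(W₁ ⊔ W₂) → ℂ)
    (hf : ∀ w : ↥(W₁ ⊔ W₂), (w : G) ∉ vset W₁ W₂ → f w = 0) (hf' : ∀ w : ↥(W₁ ⊔ W₂), (w : G) ∉ vset W₁ W₂ → f' w = 0) :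
    classInner (indFun (W₁ ⊔ W₂) f) (indFun (W₁ ⊔ W₂) f') = classInner f f' := by
  rw [frobenius_reciprocity _ _ _ (indFun_isClassFunction _ _)]
  unfold classInner
  congr 1
  apply Finset.sum_congr rfl; intro w _
  by_cases hw : (w : G) ∈ vset W₁ W₂
  · show f w * conj (indFun (W₁ ⊔ W₂) f' w) = _
    rw [snc_ind_apply hW f' hf' w hw]
  · rw [hf w hw, zero_mul, zero_mul]

theorem card_snc [Finite G] (hdisj : W₁ ⊓ W₂ = ⊥) (hcomm : ∀ a ∈ W₁, ∀ b ∈ W₂, a * b = b * a) :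
    Nat.card ↥(W₁ ⊔ W₂) = Nat.card W₁ * Nat.card W₂ := by
  apply L0.card_sup_of_normalizes _ hdisj
  rw [Subgroup.le_normalizer_iff]
  intro b hb a ha
  rw [← hcomm a ha b hb, mul_inv_cancel_right]; exact ha

theorem index_snc [Finite G] (hdisj : W₁ ⊓ W₂ = ⊥) (hcomm : ∀ a ∈ W₁, ∀ b ∈ W₂, a * b = b * a) :
    (W₁.subgroupOf (W₁ ⊔ W₂)).index = Nat.card W₂ ∧ (W₂.subgroupOf (W₁ ⊔ W₂)).index = Nat.card W₁ := by
  have h0 := card_snc hdisj hcomm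
  constructor
  · have h1 := (W₁.subgroupOf (W₁ ⊔ W₂)).card_mul_index
    rw [Nat.card_congr (Subgroup.subgroupOfEquivOfLe (le_sup_left : W₁ ≤ W₁ ⊔ W₂)).toEquiv, h0] at h1
    exact Nat.eq_of_mul_eq_mul_left Nat.card_pos h1
  · have h1 := (W₂.subgroupOf (W₁ ⊔ W₂)).card_mul_index
    rw [Nat.card_congr (Subgroup.subgroupOfEquivOfLe (le_sup_right : W₂ ≤ W₁ ⊔ W₂)).toEquiv, h0, mul_comm (Nat.card W₁)] at h1
    exact Nat.eq_of_mul_eq_mul_left Nat.card_pos h1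

/-- the basic functions -/
def alphaFun (φ ψ : ↥(W₁ ⊔ W₂) →* ℂˣ) : ↥(W₁ ⊔ W₂) → ℂ := fun w => 1 - (φ w : ℂ) - (ψ w : ℂ) + (φ w : ℂ) * (ψ w : ℂ)

theorem alpha_vanish (φ ψ : ↥(W₁ ⊔ W₂) →* ℂˣ) (hφ : ∀ w : ↥(W₁ ⊔ W₂), (w : G) ∈ W₂ → φ w = 1)
    (hψ : ∀ w : ↥(W₁ ⊔ W₂), (w : G) ∈ W₁ → ψ w = 1) (w : ↥(W₁ ⊔ W₂)) (hw : (w : G) ∉ vset W₁ W₂) : alphaFun φ ψ w = 0 := by
  have h : (w : G) ∈ W₁ ∨ (w : G) ∈ W₂ := by
    by_contra hcon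
    push Not at hcon
    exact hw ⟨w.2, hcon.1, hcon.2⟩
  unfold alphaFun
  rcases h with h | h
  · rw [hψ w h, Units.val_one]; ring
  · rw [hφ w h, Units.val_one]; ring

open Classical in
noncomputable def dual₁ [Finite G] (W₁ W₂ : Subgroup G) : Finset (↥(W₁ ⊔ W₂) →* ℂˣ) :=
  letI := Fintype.ofFinite (↥(W₁ ⊔ W₂) →* ℂˣ)
  Finset.univ.filter (fun φ => ∀ k ∈ W₂.subgroupOf (W₁ ⊔ W₂), φ k = 1)

open Classical in
noncomputable def dual₂ [Finite G] (W₁ W₂ : Subgroup G) : Finset (↥(W₁ ⊔ W₂) →* ℂˣ) :=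
  letI := Fintype.ofFinite (↥(W₁ ⊔ W₂) →* ℂˣ)
  Finset.univ.filter (fun φ => ∀ k ∈ W₁.subgroupOf (W₁ ⊔ W₂), φ k = 1)

theorem mem_dual₁ [Finite G] {φ : ↥(W₁ ⊔ W₂) →* ℂˣ} : φ ∈ dual₁ W₁ W₂ ↔ ∀ w : ↥(W₁ ⊔ W₂), (w : G) ∈ W₂ → φ w = 1 := by
  classical
  letI := Fintype.ofFinite (↥(W₁ ⊔ W₂) →* ℂˣ)
  unfold dual₁
  simp only [Finset.mem_filter, Subgroup.mem_subgroupOf, Finset.mem_univ, true_and]

theorem mem_dual₂ [Finite G] {φ : ↥(W₁ ⊔ W₂) →* ℂˣ} : φ ∈ dual₂ W₁ W₂ ↔ ∀ w : ↥(W₁ ⊔ W₂), (w : G) ∈ W₁ → φ w = 1 := by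
  classical
  letI := Fintype.ofFinite (↥(W₁ ⊔ W₂) →* ℂˣ)
  unfold dual₂
  simp only [Finset.mem_filter, Subgroup.mem_subgroupOf, Finset.mem_univ, true_and]

open Classical in
theorem dual₁_sum [Finite G] (hc : ∀ a b : ↥(W₁ ⊔ W₂), a * b = b * a) (w : ↥(W₁ ⊔ W₂)) :
    ∑ φ ∈ dual₁ W₁ W₂, (φ w : ℂ) = if (w : G) ∈ W₂ then ((W₂.subgroupOf (W₁ ⊔ W₂)).index : ℂ) else 0 := by
  letI := Fintype.ofFinite (↥(W₁ ⊔ W₂) →* ℂˣ)
  exact hom_sum hc (W₂.subgroupOf (W₁ ⊔ W₂)) w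

open Classical in
theorem dual₂_sum [Finite G] (hc : ∀ a b : ↥(W₁ ⊔ W₂), a * b = b * a) (w : ↥(W₁ ⊔ W₂)) :
    ∑ φ ∈ dual₂ W₁ W₂, (φ w : ℂ) = if (w : G) ∈ W₁ then ((W₁.subgroupOf (W₁ ⊔ W₂)).index : ℂ) else 0 := by
  letI := Fintype.ofFinite (↥(W₁ ⊔ W₂) →* ℂˣ)
  exact hom_sum hc (W₁.subgroupOf (W₁ ⊔ W₂)) w

/-- recovery of the values on the TI set -/
theorem alpha_expand [Fintype G] (hdisj : W₁ ⊓ W₂ = ⊥) (hcomm : ∀ a ∈ W₁, ∀ b ∈ W₂, a * b = b * a)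
    (hc : ∀ a b : ↥(W₁ ⊔ W₂), a * b = b * a) [Fintype ↥(W₁ ⊔ W₂)] (θ : ↥(W₁ ⊔ W₂) → ℂ) (v : ↥(W₁ ⊔ W₂))
    (hv : (v : G) ∈ vset W₁ W₂) :
    ∑ φ ∈ dual₁ W₁ W₂, ∑ ψ ∈ dual₂ W₁ W₂, (φ v : ℂ) * (ψ v : ℂ) * classInner θ (alphaFun φ ψ) = θ v := by
  classical
  obtain ⟨hi1, hi2⟩ := index_snc hdisj hcomm
  have hcard := card_snc hdisj hcomm
  have h1 : ∀ w : ↥(W₁ ⊔ W₂), ∑ φ ∈ dual₁ W₁ W₂, ∑ ψ ∈ dual₂ W₁ W₂, (φ v : ℂ) * (ψ v : ℂ) * conj (alphaFun φ ψ w) =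
      if w = v then (Nat.card ↥(W₁ ⊔ W₂) : ℂ) else 0 := by
    intro w
    have h2 : ∀ φ ψ : ↥(W₁ ⊔ W₂) →* ℂˣ, (φ v : ℂ) * (ψ v : ℂ) * conj (alphaFun φ ψ w) =
        ((φ v : ℂ) - (φ (v * w⁻¹) : ℂ)) * ((ψ v : ℂ) - (ψ (v * w⁻¹) : ℂ)) := by
      intro φ ψ
      unfold alphaFun
      rw [map_add, map_sub, map_sub, map_one, map_mul, hom_conj, hom_conj, map_mul, map_mul, map_inv, map_inv,
        Units.val_mul, Units.val_mul, Units.val_inv_eq_inv_val, Units.val_inv_eq_inv_val]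
      ring
    simp_rw [h2, ← Finset.mul_sum, ← Finset.sum_mul, Finset.sum_sub_distrib, dual₁_sum hc, dual₂_sum hc]
    rw [if_neg hv.2.2, if_neg hv.2.1]
    by_cases hwv : w = v
    · rw [if_pos hwv]
      subst hwv
      have h3 : ((w * w⁻¹ : ↥(W₁ ⊔ W₂)) : G) = 1 := by rw [mul_inv_cancel]; rfl
      rw [h3, if_pos W₂.one_mem, if_pos W₁.one_mem, hi1, hi2, hcard]
      push_cast; ring
    · rw [if_neg hwv]
      by_cases h3 : ((v * w⁻¹ : ↥(W₁ ⊔ W₂)) : G) ∈ W₂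
      · have h4 : ((v * w⁻¹ : ↥(W₁ ⊔ W₂)) : G) ∉ W₁ := by
          intro h4
          have h5 : ((v * w⁻¹ : ↥(W₁ ⊔ W₂)) : G) ∈ W₁ ⊓ W₂ := ⟨h4, h3⟩
          rw [hdisj, Subgroup.mem_bot] at h5
          have h6 : v * w⁻¹ = 1 := Subtype.ext h5
          exact hwv (mul_inv_eq_one.mp h6).symm
        rw [if_neg h4]; ring
      · rw [if_neg h3]; ring
  have h2 : ∑ φ ∈ dual₁ W₁ W₂, ∑ ψ ∈ dual₂ W₁ W₂, (φ v : ℂ) * (ψ v : ℂ) * classInner θ (alphaFun φ ψ) =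
      (Nat.card ↥(W₁ ⊔ W₂) : ℂ)⁻¹ * ∑ w : ↥(W₁ ⊔ W₂), θ w * ∑ φ ∈ dual₁ W₁ W₂, ∑ ψ ∈ dual₂ W₁ W₂, (φ v : ℂ) * (ψ v : ℂ) * conj (alphaFun φ ψ w) := by
    unfold classInner
    calc ∑ φ ∈ dual₁ W₁ W₂, ∑ ψ ∈ dual₂ W₁ W₂, (φ v : ℂ) * (ψ v : ℂ) * ((Nat.card ↥(W₁ ⊔ W₂) : ℂ)⁻¹ * ∑ w : ↥(W₁ ⊔ W₂), θ w * conj (alphaFun φ ψ w))
        = ∑ φ ∈ dual₁ W₁ W₂, ∑ ψ ∈ dual₂ W₁ W₂, ∑ w : ↥(W₁ ⊔ W₂), (Nat.card ↥(W₁ ⊔ W₂) : ℂ)⁻¹ * (θ w * ((φ v : ℂ) * (ψ v : ℂ) * conj (alphaFun φ ψ w))) := by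
          apply Finset.sum_congr rfl; intro φ _
          apply Finset.sum_congr rfl; intro ψ _
          rw [Finset.mul_sum, Finset.mul_sum]
          apply Finset.sum_congr rfl; intro w _
          ring
      _ = ∑ φ ∈ dual₁ W₁ W₂, ∑ w : ↥(W₁ ⊔ W₂), ∑ ψ ∈ dual₂ W₁ W₂, (Nat.card ↥(W₁ ⊔ W₂) : ℂ)⁻¹ * (θ w * ((φ v : ℂ) * (ψ v : ℂ) * conj (alphaFun φ ψ w))) := by
          apply Finset.sum_congr rfl; intro φ _
          rw [Finset.sum_comm]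
      _ = ∑ w : ↥(W₁ ⊔ W₂), ∑ φ ∈ dual₁ W₁ W₂, ∑ ψ ∈ dual₂ W₁ W₂, (Nat.card ↥(W₁ ⊔ W₂) : ℂ)⁻¹ * (θ w * ((φ v : ℂ) * (ψ v : ℂ) * conj (alphaFun φ ψ w))) := by
          rw [Finset.sum_comm]
      _ = _ := by
          rw [Finset.mul_sum]
          apply Finset.sum_congr rfl; intro w _
          rw [Finset.mul_sum, Finset.mul_sum]
          apply Finset.sum_congr rfl; intro φ _
          rw [Finset.mul_sum, Finset.mul_sum]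
  rw [h2]
  simp_rw [h1]
  rw [Finset.sum_eq_single v]
  · rw [if_pos rfl]
    have := card_ne_zero' ↥(W₁ ⊔ W₂)
    field_simp
  · intro w _ hw
    rw [if_neg hw, mul_zero]
  · intro h; exact absurd (Finset.mem_univ _) h

end

end Cfsg.Agent.H4
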