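import Cfsg.Agent.H4.Cyc2

set_option linter.all false
set_option autoImplicit false

namespace Cfsg.Agent.H4

open Module
open scoped ComplexConjugate Pointwise

universe u v w

section
variable {G : Type u} [Group G] {W₁ W₂ : Subgroup G}

theorem sup_decomp (hcomm : ∀ a ∈ W₁, ∀ b ∈ W₂, a * b = b * a) (w : ↥(W₁ ⊔ W₂)) :
    ∃ a b : ↥(W₁ ⊔ W₂), (a : G) ∈ W₁ ∧ (b : G) ∈ W₂ ∧ w = a * b := by
  have hn : W₂ ≤ Subgroup.normalizer (W₁ : Set G) := by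
    rw [Subgroup.le_normalizer_iff]
    intro b hb a ha
    rw [← hcomm a ha b hb, mul_inv_cancel_right]; exact ha
  obtain ⟨a, ha, b, hb, h⟩ := (L0.mem_sup_of_normalizes hn).mp w.2
  exact ⟨⟨a, Subgroup.mem_sup_left ha⟩, ⟨b, Subgroup.mem_sup_right hb⟩, ha, hb, Subtype.ext h.symm⟩

theorem hom_ext_sup (hcomm : ∀ a ∈ W₁, ∀ b ∈ W₂, a * b = b * a) {φ φ' : ↥(W₁ ⊔ W₂) →* ℂˣ}
    (h1 : ∀ w : ↥(W₁ ⊔ W₂), (w : G) ∈ W₁ → φ w = φ' w) (h2 : ∀ w : ↥(W₁ ⊔ W₂), (w : G) ∈ W₂ → φ w = φ' w) : φ = φ' := by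
  ext w
  obtain ⟨a, b, ha, hb, rfl⟩ := sup_decomp hcomm w
  rw [map_mul, map_mul, h1 a ha, h2 b hb]

theorem dual_mul_inj (hcomm : ∀ a ∈ W₁, ∀ b ∈ W₂, a * b = b * a) {φ φ' ψ ψ' : ↥(W₁ ⊔ W₂) →* ℂˣ}
    (hφ : ∀ w : ↥(W₁ ⊔ W₂), (w : G) ∈ W₂ → φ w = 1) (hφ' : ∀ w : ↥(W₁ ⊔ W₂), (w : G) ∈ W₂ → φ' w = 1)
    (hψ : ∀ w : ↥(W₁ ⊔ W₂), (w : G) ∈ W₁ → ψ w = 1) (hψ' : ∀ w : ↥(W₁ ⊔ W₂), (w : G) ∈ W₁ → ψ' w = 1)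
    (h : ∀ w, φ w * ψ w = φ' w * ψ' w) : φ = φ' ∧ ψ = ψ' := by
  constructor
  · apply hom_ext_sup hcomm
    · intro w hw
      have := h w
      rwa [hψ w hw, hψ' w hw, mul_one, mul_one] at this
    · intro w hw; rw [hφ w hw, hφ' w hw]
  · apply hom_ext_sup hcomm
    · intro w hw; rw [hψ w hw, hψ' w hw]
    · intro w hw
      have := h w
      rwa [hφ w hw, hφ' w hw, one_mul, one_mul] at this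

def hprod (φ ψ : ↥(W₁ ⊔ W₂) →* ℂˣ) : ↥(W₁ ⊔ W₂) → ℂ := fun w => (φ w : ℂ) * (ψ w : ℂ)

open Classical in
theorem hprod_inner [Finite G] [Fintype ↥(W₁ ⊔ W₂)] (hcomm : ∀ a ∈ W₁, ∀ b ∈ W₂, a * b = b * a) {φ φ' ψ ψ' : ↥(W₁ ⊔ W₂) →* ℂˣ}
    (hφ : ∀ w : ↥(W₁ ⊔ W₂), (w : G) ∈ W₂ → φ w = 1) (hφ' : ∀ w : ↥(W₁ ⊔ W₂), (w : G) ∈ W₂ → φ' w = 1)
    (hψ : ∀ w : ↥(W₁ ⊔ W₂), (w : G) ∈ W₁ → ψ w = 1) (hψ' : ∀ w : ↥(W₁ ⊔ W₂), (w : G) ∈ W₁ → ψ' w = 1) :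
    classInner (hprod φ ψ) (hprod φ' ψ') = (if φ = φ' then 1 else 0) * (if ψ = ψ' then 1 else 0) := by
  have h1 : hprod φ ψ = fun w => ((φ * ψ) w : ℂ) := by funext w; rw [MonoidHom.mul_apply, Units.val_mul]; rfl
  have h2 : hprod φ' ψ' = fun w => ((φ' * ψ') w : ℂ) := by funext w; rw [MonoidHom.mul_apply, Units.val_mul]; rfl
  rw [h1, h2, hom_inner]
  by_cases h : φ * ψ = φ' * ψ'
  · rw [if_pos h]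
    have h3 : ∀ w, φ w * ψ w = φ' w * ψ' w := fun w => by
      rw [← MonoidHom.mul_apply, h, MonoidHom.mul_apply]
    obtain ⟨rfl, rfl⟩ := dual_mul_inj hcomm hφ hφ' hψ hψ' h3
    simp
  · rw [if_neg h]
    by_cases h3 : φ = φ'
    · subst h3
      rw [if_neg (fun h4 : ψ = ψ' => h (by rw [h4])), mul_zero]
    · rw [if_neg h3, zero_mul]

theorem alphaFun_eq (φ ψ : ↥(W₁ ⊔ W₂) →* ℂˣ) :
    alphaFun φ ψ = hprod 1 1 - hprod φ 1 - hprod 1 ψ + hprod φ ψ := by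
  funext w
  simp [alphaFun, hprod]

theorem one_dual (w : ↥(W₁ ⊔ W₂)) : (1 : ↥(W₁ ⊔ W₂) →* ℂˣ) w = 1 := rfl

open Classical in
theorem alpha_inner [Finite G] [Fintype ↥(W₁ ⊔ W₂)] (hcomm : ∀ a ∈ W₁, ∀ b ∈ W₂, a * b = b * a) {φ φ' ψ ψ' : ↥(W₁ ⊔ W₂) →* ℂˣ}
    (hφ : ∀ w : ↥(W₁ ⊔ W₂), (w : G) ∈ W₂ → φ w = 1) (hφ' : ∀ w : ↥(W₁ ⊔ W₂), (w : G) ∈ W₂ → φ' w = 1)
    (hψ : ∀ w : ↥(W₁ ⊔ W₂), (w : G) ∈ W₁ → ψ w = 1) (hψ' : ∀ w : ↥(W₁ ⊔ W₂), (w : G) ∈ W₁ → ψ' w = 1)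
    (hφ1 : φ ≠ 1) (hφ1' : φ' ≠ 1) (hψ1 : ψ ≠ 1) (hψ1' : ψ' ≠ 1) :
    classInner (alphaFun φ ψ) (alphaFun φ' ψ') = 1 + (if φ = φ' then 1 else 0) + (if ψ = ψ' then 1 else 0) + (if φ = φ' then 1 else 0) * (if ψ = ψ' then 1 else 0) := by
  have h1a : ∀ w : ↥(W₁ ⊔ W₂), (w : G) ∈ W₂ → (1 : ↥(W₁ ⊔ W₂) →* ℂˣ) w = 1 := fun w _ => rfl
  have h1b : ∀ w : ↥(W₁ ⊔ W₂), (w : G) ∈ W₁ → (1 : ↥(W₁ ⊔ W₂) →* ℂˣ) w = 1 := fun w _ => rfl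
  rw [alphaFun_eq, alphaFun_eq]
  simp only [H5.classInner_add_left, H5.classInner_add_right, H5.classInner_sub_left, H5.classInner_sub_right]
  rw [hprod_inner hcomm h1a h1a h1b h1b, hprod_inner hcomm hφ h1a h1b h1b, hprod_inner hcomm h1a h1a hψ h1b, hprod_inner hcomm hφ h1a hψ h1b,
    hprod_inner hcomm h1a hφ' h1b h1b, hprod_inner hcomm hφ hφ' h1b h1b, hprod_inner hcomm h1a hφ' hψ h1b, hprod_inner hcomm hφ hφ' hψ h1b,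
    hprod_inner hcomm h1a h1a h1b hψ', hprod_inner hcomm hφ h1a h1b hψ', hprod_inner hcomm h1a h1a hψ hψ', hprod_inner hcomm hφ h1a hψ hψ',
    hprod_inner hcomm h1a hφ' h1b hψ', hprod_inner hcomm hφ hφ' h1b hψ', hprod_inner hcomm h1a hφ' hψ hψ', hprod_inner hcomm hφ hφ' hψ hψ']
  rw [if_pos (rfl : (1 : ↥(W₁ ⊔ W₂) →* ℂˣ) = 1), if_neg hφ1, if_neg hψ1, if_neg (Ne.symm hφ1'), if_neg (Ne.symm hψ1')]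
  ring

open Classical in
theorem alpha_inner_one [Finite G] [Fintype ↥(W₁ ⊔ W₂)] (hcomm : ∀ a ∈ W₁, ∀ b ∈ W₂, a * b = b * a) {φ ψ : ↥(W₁ ⊔ W₂) →* ℂˣ}
    (hφ : ∀ w : ↥(W₁ ⊔ W₂), (w : G) ∈ W₂ → φ w = 1)
    (hψ : ∀ w : ↥(W₁ ⊔ W₂), (w : G) ∈ W₁ → ψ w = 1)
    (hφ1 : φ ≠ 1) (hψ1 : ψ ≠ 1) :
    classInner (alphaFun φ ψ) (fun _ => 1) = 1 := by
  have h1a : ∀ w : ↥(W₁ ⊔ W₂), (w : G) ∈ W₂ → (1 : ↥(W₁ ⊔ W₂) →* ℂˣ) w = 1 := fun w _ => rfl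
  have h1b : ∀ w : ↥(W₁ ⊔ W₂), (w : G) ∈ W₁ → (1 : ↥(W₁ ⊔ W₂) →* ℂˣ) w = 1 := fun w _ => rfl
  have h2 : (fun _ => (1 : ℂ)) = (hprod 1 1 : ↥(W₁ ⊔ W₂) → ℂ) := by funext w; simp [hprod]
  rw [alphaFun_eq, h2]
  simp only [H5.classInner_add_left, H5.classInner_sub_left]
  rw [hprod_inner hcomm h1a h1a h1b h1b, hprod_inner hcomm hφ h1a h1b h1b, hprod_inner hcomm h1a h1a hψ h1b, hprod_inner hcomm hφ h1a hψ h1b]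
  rw [if_pos (rfl : (1 : ↥(W₁ ⊔ W₂) →* ℂˣ) = 1), if_neg hφ1, if_neg hψ1]
  ring

theorem snc_reciprocity [Fintype G] [Fintype ↥(W₁ ⊔ W₂)] (θ : G → ℂ) (hθ : IsClassFunction G θ) (φ ψ : ↥(W₁ ⊔ W₂) →* ℂˣ) :
    classInner θ (indFun (W₁ ⊔ W₂) (alphaFun φ ψ)) = classInner (fun w : ↥(W₁ ⊔ W₂) => θ w) (alphaFun φ ψ) :=
  frobenius_reciprocity' _ _ _ hθ

theorem alphaFun_one_left (ψ : ↥(W₁ ⊔ W₂) →* ℂˣ) : alphaFun 1 ψ = 0 := by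
  funext w; simp [alphaFun]

theorem alphaFun_one_right (φ : ↥(W₁ ⊔ W₂) →* ℂˣ) : alphaFun φ 1 = 0 := by
  funext w; simp [alphaFun]

theorem tiFamily_inner [Fintype G] {χ : (↥(W₁ ⊔ W₂) →* ℂˣ) → (G → ℂ)} (hχ : IsCyclicTIFamily W₁ W₂ χ)
    (θ : G → ℂ) (φ ψ : ↥(W₁ ⊔ W₂) →* ℂˣ)
    (hφ : ∀ w : ↥(W₁ ⊔ W₂), (w : G) ∈ W₂ → φ w = 1) (hψ : ∀ w : ↥(W₁ ⊔ W₂), (w : G) ∈ W₁ → ψ w = 1) :
    classInner θ (indFun (W₁ ⊔ W₂) (alphaFun φ ψ)) =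
      classInner θ (χ 1) - classInner θ (χ φ) - classInner θ (χ ψ) + classInner θ (χ (φ * ψ)) := by
  by_cases hφ1 : φ = 1
  · subst hφ1
    rw [alphaFun_one_left, indFun_zero, H5.classInner_zero_right]
    have : (1 : ↥(W₁ ⊔ W₂) →* ℂˣ) * ψ = ψ := by ext w; rw [MonoidHom.mul_apply]; simp
    rw [this]; ring
  by_cases hψ1 : ψ = 1
  · subst hψ1
    rw [alphaFun_one_right, indFun_zero, H5.classInner_zero_right]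
    have : φ * (1 : ↥(W₁ ⊔ W₂) →* ℂˣ) = φ := by ext w; rw [MonoidHom.mul_apply]; simp
    rw [this]; ring
  have h1 := hχ.induced_eq φ ψ hφ1 hψ1 hφ hψ
  have h2 : indFun (W₁ ⊔ W₂) (alphaFun φ ψ) = χ 1 - χ φ - χ ψ + χ (φ * ψ) := by
    refine Eq.trans h1 ?_
    rw [hχ.map_one]; rfl
  rw [h2, H5.classInner_add_right, H5.classInner_sub_right, H5.classInner_sub_right]

/-- additivity of the inner products with a class function vanishing on the TI set -/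
theorem tiFamily_additive [Fintype G] {χ : (↥(W₁ ⊔ W₂) →* ℂˣ) → (G → ℂ)} (hχ : IsCyclicTIFamily W₁ W₂ χ)
    (θ : G → ℂ) (hθ : IsClassFunction G θ) (hθV : ∀ w : ↥(W₁ ⊔ W₂), (w : G) ∉ W₁ → (w : G) ∉ W₂ → θ w = 0) (φ ψ : ↥(W₁ ⊔ W₂) →* ℂˣ)
    (hφ : ∀ w : ↥(W₁ ⊔ W₂), (w : G) ∈ W₂ → φ w = 1) (hψ : ∀ w : ↥(W₁ ⊔ W₂), (w : G) ∈ W₁ → ψ w = 1) :
    classInner θ (χ (φ * ψ)) = classInner θ (χ φ) + classInner θ (χ ψ) - classInner θ (χ 1) := by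
  classical
  letI : Fintype ↥(W₁ ⊔ W₂) := Fintype.ofFinite _
  have h1 := tiFamily_inner hχ θ φ ψ hφ hψ
  rw [snc_reciprocity θ hθ] at h1
  have h2 : classInner (fun w : ↥(W₁ ⊔ W₂) => θ w) (alphaFun φ ψ) = 0 := by
    unfold classInner
    rw [Finset.sum_eq_zero, mul_zero]
    intro w _
    by_cases hw : (w : G) ∈ vset W₁ W₂
    · show θ w * _ = 0
      rw [hθV w hw.2.1 hw.2.2, zero_mul]
    · rw [alpha_vanish φ ψ hφ hψ w hw, map_zero, mul_zero]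
  rw [h2] at h1
  linear_combination -h1

end

end Cfsg.Agent.H4
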