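import Cfsg.Prelude.Def_Characters
import Cfsg.Prelude.Def_Blocks
import Cfsg.Prelude.Def_CharExt
import Cfsg.Agent.H4.ExtLin
import Mathlib

set_option linter.all false
set_option autoImplicit false

/-! Extension for cyclic quotients. -/

namespace Cfsg.Agent.H4

open Module
open scoped ComplexConjugate

universe u v w

section
variable {G : Type u} [Group G] {N : Subgroup G} (hN : N.Normal) {V : Type v} [AddCommGroup V] [Module ℂ V]
  [FiniteDimensional ℂ V] (τ : Representation ℂ N V) (k : ℕ)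

theorem ext_nu (hτ : τ.IsIrreducible) : ∃ ν : (extG hN τ k).ker →* ℂˣ, ∀ x : (extG hN τ k).ker,
    extRep hN τ k x = (ν x : ℂ) • (1 : V →ₗ[ℂ] V) := by
  have hnt := ((isIrreducible_iff τ).1 hτ).1
  choose c hc using fun x : (extG hN τ k).ker => ext_scalar hN τ k hτ x x.2
  have huniq : ∀ a b : ℂˣ, (a : ℂ) • (1 : V →ₗ[ℂ] V) = (b : ℂ) • (1 : V →ₗ[ℂ] V) → a = b := by
    intro a b h
    obtain ⟨v, hv⟩ := exists_ne (0 : V)
    exact Units.ext (smul_left_injective ℂ hv (LinearMap.congr_fun h v))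
  refine ⟨{ toFun := c, map_one' := ?_, map_mul' := ?_ }, hc⟩
  · apply huniq
    rw [← hc 1]
    show extRep hN τ k 1 = _
    rw [map_one, Units.val_one, one_smul]
  · intro x y
    apply huniq
    rw [← hc]
    show extRep hN τ k (x * y) = _
    rw [map_mul, hc, hc, smul_mul_smul_comm, one_mul, Units.val_mul]

theorem one_mem_extPow_of_cyclic [Finite G] (hk : ∀ n : N, (LinearMap.det (τ n)) ^ k = 1) (hτ : τ.IsIrreducible) (hk0 : k ≠ 0)
    (hsurj : Function.Surjective (extG hN τ k)) (hcyc : IsCyclic (G ⧸ N)) : (1 : ℤ) ∈ extPow hN τ k hk := by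
  classical
  have hfin := ext_finite hN τ k hτ hk0
  obtain ⟨ν, hν⟩ := ext_nu hN τ k hτ
  let M : Subgroup (extGrp hN τ k) := (extEmb hN τ k hk).range
  have hMn : M.Normal := by
    refine ⟨?_⟩
    rintro _ ⟨n, rfl⟩ x
    rw [extEmb_conj]
    exact ⟨_, rfl⟩
  let B := extGrp hN τ k ⧸ M
  let q : extGrp hN τ k →* B := QuotientGroup.mk' M
  -- kernel elements are central
  have hcen : ∀ z : (extG hN τ k).ker, ∀ x : extGrp hN τ k, z * x = x * z := by
    intro z x
    have hz : extG hN τ k z = 1 := z.2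
    apply ext_eq
    · rw [map_mul, map_mul, hz]; simp
    · rw [map_mul, map_mul, hν, smul_mul_assoc, one_mul, mul_smul_comm, mul_one]
  obtain ⟨g0, hg0⟩ := hcyc.exists_generator
  obtain ⟨g, rfl⟩ := QuotientGroup.mk_surjective g0
  obtain ⟨s, hs⟩ := hsurj g
  have hdec : ∀ x : extGrp hN τ k, ∃ (i : ℤ) (z : (extG hN τ k).ker), q x = q (s ^ i * z) := by
    intro x
    obtain ⟨i, hi⟩ := Subgroup.mem_zpowers_iff.1 (hg0 (QuotientGroup.mk (extG hN τ k x)))
    have hi' : (g ^ i)⁻¹ * (extG hN τ k x) ∈ N := by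
      rw [← QuotientGroup.eq, ← hi]; rfl
    let n : N := ⟨_, hi'⟩
    have hz : extG hN τ k ((s ^ i)⁻¹ * x * (extEmb hN τ k hk n)⁻¹) = 1 := by
      rw [map_mul, map_mul, map_inv, map_inv, map_zpow, hs, extG_extEmb]
      exact mul_inv_cancel _
    refine ⟨i, ⟨_, hz⟩, ?_⟩
    have h1 : s ^ i * ((s ^ i)⁻¹ * x * (extEmb hN τ k hk n)⁻¹) = x * (extEmb hN τ k hk n)⁻¹ := by group
    show q x = q (s ^ i * ((s ^ i)⁻¹ * x * (extEmb hN τ k hk n)⁻¹))
    rw [h1, map_mul, map_inv]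
    have h2 : q (extEmb hN τ k hk n) = 1 := (QuotientGroup.eq_one_iff _).2 ⟨n, rfl⟩
    rw [h2, inv_one, mul_one]
  have hcomm : ∀ a b : B, a * b = b * a := by
    intro a b
    obtain ⟨x, rfl⟩ := QuotientGroup.mk_surjective a
    obtain ⟨y, rfl⟩ := QuotientGroup.mk_surjective b
    obtain ⟨i, z, hz⟩ := hdec x
    obtain ⟨j, w, hw⟩ := hdec y
    show q x * q y = q y * q x
    rw [hz, hw, ← map_mul, ← map_mul]
    congr 1
    calc s ^ i * z * (s ^ j * w) = s ^ i * (z * s ^ j) * w := by group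
      _ = s ^ i * (s ^ j * z) * w := by rw [hcen z]
      _ = s ^ j * s ^ i * (z * w) := by
          rw [← mul_assoc, ← zpow_add, add_comm, zpow_add]; group
      _ = s ^ j * s ^ i * (w * z) := by rw [hcen z]
      _ = s ^ j * (s ^ i * w) * z := by group
      _ = s ^ j * (w * s ^ i) * z := by rw [hcen w]
      _ = _ := by group
  letI : CommGroup B := { (inferInstance : Group B) with mul_comm := hcomm }
  have hfinB : Finite B := inferInstance
  let f : (extG hN τ k).ker →* B := q.comp (extG hN τ k).ker.subtype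
  have hf : Function.Injective f := by
    rw [injective_iff_map_eq_one]
    intro z hz
    obtain ⟨n, hn⟩ := (QuotientGroup.eq_one_iff _).1 hz
    have h1 : extG hN τ k z = 1 := z.2
    have hn' : extEmb hN τ k hk n = (z : extGrp hN τ k) := hn
    rw [← hn', extG_extEmb] at h1
    have h2 : n = 1 := Subtype.ext h1
    apply Subtype.ext
    rw [← hn', h2, map_one]; rfl
  let e := MonoidHom.ofInjective hf
  obtain ⟨κB, hκB⟩ := MonoidHom.domRestrict_surjective (M := ℂ) f.range (ν.comp e.symm.toMonoidHom)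
  refine ⟨κB.comp q, fun n => ?_, fun x hx c hc => ?_⟩
  · have h2 : q (extEmb hN τ k hk n) = 1 := (QuotientGroup.eq_one_iff _).2 ⟨n, rfl⟩
    rw [MonoidHom.comp_apply, h2, map_one]
  · rw [zpow_one, MonoidHom.comp_apply]
    have h3 := DFunLike.congr_fun hκB (e ⟨x, hx⟩)
    have h4 : κB (q x) = ν ⟨x, hx⟩ := by
      have h5 : κB (q x) = ν (e.symm (e ⟨x, hx⟩)) := h3
      rw [h5, MulEquiv.symm_apply_apply]
    rw [h4]
    have hnt := ((isIrreducible_iff τ).1 hτ).1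
    obtain ⟨v, hv⟩ := exists_ne (0 : V)
    have h6 : (ν ⟨x, hx⟩ : ℂ) • (1 : V →ₗ[ℂ] V) = (c : ℂ) • (1 : V →ₗ[ℂ] V) := by rw [← hν ⟨x, hx⟩]; exact hc
    exact Units.ext (smul_left_injective ℂ hv (LinearMap.congr_fun h6 v))

end

variable {G : Type u} [Group G] {N : Subgroup G}

theorem extends_of_one_mem' [Finite G] (hN : N.Normal) (ϑ : N → ℂ) (hϑ : IsIrrCharacter N ϑ)
    (hinv : ∀ (g : G) (n : N), ϑ (conjAut hN g n) = ϑ n)
    (h : ∀ (d : ℕ) (τ : Representation ℂ N (Fin d → ℂ)) (hτ : τ.IsIrreducible) (hτϑ : τ.character = ϑ)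
      (hsurj : Function.Surjective (extG hN τ (Nat.card N))),
      (1 : ℤ) ∈ extPow hN τ (Nat.card N) (det_pow_card τ)) :
    ∃ χ : G → ℂ, IsIrrCharacter G χ ∧ ∀ n : N, χ n = ϑ n := by
  obtain ⟨d, τ, hτ, hτϑ⟩ := hϑ
  have hk0 : Nat.card N ≠ 0 := Nat.card_pos.ne'
  have hinv' : ∀ (g : G) (n : N), τ.character (conjAut hN g n) = τ.character n := by
    intro g n; rw [hτϑ]; exact hinv g n
  have hsurj := extG_surjective hN τ (Nat.card N) hτ hk0 hinv'
  obtain ⟨ρ, hρ⟩ := extends_of_one_mem hN τ _ (det_pow_card τ) hτ hk0 hinv' (h d τ hτ hτϑ hsurj)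
  refine ⟨ρ.character, isIrrCharacter_of_rep ρ ?_, fun n => ?_⟩
  · rw [isIrreducible_iff] at hτ ⊢
    refine ⟨hτ.1, fun U hU => hτ.2 U (fun n v hv => ?_)⟩
    rw [← hρ]; exact hU n v hv
  · rw [← hτϑ, Representation.character, hρ]; rfl

theorem extends_cyclic [Finite G] (hN : N.Normal) (hcyc : IsCyclic (G ⧸ N)) (ϑ : N → ℂ) (hϑ : IsIrrCharacter N ϑ)
    (hinv : ∀ (g : G) (n : N), ϑ (conjAut hN g n) = ϑ n) :
    ∃ χ : G → ℂ, IsIrrCharacter G χ ∧ ∀ n : N, χ n = ϑ n :=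
  extends_of_one_mem' hN ϑ hϑ hinv (fun d τ hτ _ hsurj =>
    one_mem_extPow_of_cyclic hN τ _ (det_pow_card τ) hτ Nat.card_pos.ne' hsurj hcyc)

end Cfsg.Agent.H4
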