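import Cfsg.Agent.H4.Sib4
import Cfsg.Agent.H2.Fpf
import Cfsg.Agent.H3.FH

set_option linter.all false
set_option autoImplicit false

/-! Feit's coherence theorem for Frobenius-type groups. -/

namespace Cfsg.Agent.H4

open Module
open scoped ComplexConjugate Pointwise commutatorElement

universe u v w

section grp
variable {L : Type u} [Group L] [Finite L] {K : Subgroup L}

/-- a non-abelian Frobenius kernel has odd index. -/
theorem odd_of_nonab (hK : K.Normal) (hC : ∀ k ∈ K, k ≠ 1 → Subgroup.centralizer ({k} : Set L) ≤ K)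
    (hnab : ⁅K, K⁆ ≠ ⊥) : Odd K.index := by
  rw [← Nat.not_even_iff_odd]
  intro heven
  obtain ⟨hdvd, hcop⟩ := cop_of_cent hK hC
  apply hnab
  have h2 : 2 ∣ Nat.card L := (even_iff_two_dvd.mp heven).trans K.index_dvd_card
  haveI : Fact (Nat.Prime 2) := ⟨Nat.prime_two⟩
  obtain ⟨t, ht⟩ := exists_prime_orderOf_dvd_card' (G := L) 2 h2
  have ht2 : t * t = 1 := by rw [← pow_two, ← ht, pow_orderOf_eq_one]
  have htK : t ∉ K := by
    intro h
    have h3 : 2 ∣ Nat.card K := by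
      rw [← ht]; exact Subgroup.orderOf_dvd_natCard K h
    have h4 := Nat.dvd_gcd h3 (even_iff_two_dvd.mp heven)
    rw [hcop] at h4
    exact absurd (Nat.dvd_one.mp h4) (by norm_num)
  have hti : t⁻¹ = t := inv_eq_of_mul_eq_one_right ht2
  let σ : K →* K := (conjAut hK t).toMonoidHom
  have hσ : ∀ g : K, ((σ g : K) : L) = t * g * t⁻¹ := fun g => conjAut_coe hK t g
  have hf : H2.Fpf σ := by
    intro g hg
    by_contra hg1
    have h5 := congrArg Subtype.val hg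
    rw [hσ, mul_inv_eq_iff_eq_mul] at h5
    apply htK
    apply hC g g.2 (fun h => hg1 (Subtype.ext h))
    rw [Subgroup.mem_centralizer_singleton_iff]; exact h5
  have hsq : ∀ g, σ (σ g) = g := by
    intro g
    apply Subtype.ext
    rw [hσ, hσ, hti]
    calc t * (t * g * t) * t = (t * t) * g * (t * t) := by group
      _ = g := by rw [ht2]; simp
  rw [eq_bot_iff, Subgroup.commutator_le]
  intro x hx y hy
  rw [Subgroup.mem_bot, commutatorElement_def]
  have := congrArg Subtype.val (hf.comm_of_sq hsq ⟨x, hx⟩ ⟨y, hy⟩)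
  have h6 : x * y = y * x := this
  rw [h6]; group

theorem frob_cong' {H₁ N : Subgroup L} (hH₁ : H₁.Normal) (hN : N.Normal) (hNK : N ≤ K) (hle : H₁ ≤ K)
    (hfrob : ∀ k ∈ K, k ∉ H₁ → ∀ x : L, x * k * x⁻¹ * k⁻¹ ∈ H₁ → x ∈ K) : K.index ∣ H₁.relIndex N - 1 := by
  haveI := hH₁
  rw [← card_map_mk]
  apply cong_of_centralizer _ (Subgroup.Normal.map hN _ (QuotientGroup.mk'_surjective _))
  rintro _ ⟨n, hn, rfl⟩ hn1
  have hn1' : n ∉ H₁ := by
    intro h
    apply hn1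
    rw [QuotientGroup.mk'_apply, QuotientGroup.eq_one_iff]; exact h
  rw [← Subgroup.index_comap_of_surjective _ (QuotientGroup.mk'_surjective H₁)]
  apply Subgroup.index_dvd_of_le
  intro x hx
  rw [Subgroup.mem_comap, Subgroup.mem_centralizer_singleton_iff] at hx
  apply hfrob n (hNK hn) hn1' x
  rw [← map_mul, ← map_mul, QuotientGroup.mk'_apply, QuotientGroup.mk'_apply, eq_comm, QuotientGroup.eq] at hx
  have := hH₁.conj_mem _ hx (n * x)
  convert this using 1; group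

theorem frob_ge {H₁ N : Subgroup L} (hH₁ : H₁.Normal) (hN : N.Normal) (hNK : N ≤ K) (hle : H₁ ≤ K)
    (hfrob : ∀ k ∈ K, k ∉ H₁ → ∀ x : L, x * k * x⁻¹ * k⁻¹ ∈ H₁ → x ∈ K) (hne : ¬ N ≤ H₁) : K.index + 1 ≤ H₁.relIndex N := by
  have h1 := frob_cong' hH₁ hN hNK hle hfrob
  have h2 : H₁.relIndex N ≠ 1 := fun h => hne (Subgroup.relIndex_eq_one.mp h)
  have h3 : H₁.relIndex N ≠ 0 := relIndex_ne_zero_fin _ _
  have := Nat.le_of_dvd (by omega) h1
  omega

/-- descending through chief factors that are central in `K`. -/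
theorem chief_descent (Pr : Subgroup L → Prop) (M H₁ H : Subgroup L) (hM : M.Normal) (hH₁ : H₁.Normal) (hH : H.Normal)
    (hMH₁ : M ≤ H₁) (hH₁H : H₁ ≤ H) (hnil : ∃ n, H.lowerCentralSeries n ≤ M)
    (step : ∀ A B : Subgroup L, A.Normal → B.Normal → B < A → M ≤ B → A ≤ H₁ → ⁅A, H⁆ ≤ B → Pr A → Pr B) : Pr H₁ → Pr M := by
  obtain ⟨n, hn⟩ := hnil
  have key : ∀ (m : ℕ) (A : Subgroup L), A.Normal → M ≤ A → A ≤ H₁ → Pr A → Nat.card A ≤ m → Pr M := by
    intro m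
    induction m with
    | zero => intro A _ _ _ _ h; exact absurd h (by have := Nat.card_pos (α := A); omega)
    | succ m ih =>
      intro A hA hMA hAH₁ hPA hcard
      by_cases hMA' : A = M
      · rw [← hMA']; exact hPA
      have hMltA : M < A := lt_of_le_of_ne hMA (Ne.symm hMA')
      have hfin : {B : Subgroup L | B.Normal ∧ M ≤ B ∧ B < A}.Finite := Set.toFinite _
      obtain ⟨B, hBmax⟩ := hfin.exists_maximal ⟨M, hM, le_refl _, hMltA⟩
      obtain ⟨hB, hMB, hBA⟩ := hBmax.prop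
      have hcomm : ⁅A, H⁆ ≤ B := by
        have hX : (⁅A, H⁆ ⊔ B).Normal := by
          haveI := hA; haveI := hH; haveI := hB
          infer_instance
        have hXA : ⁅A, H⁆ ⊔ B ≤ A := by
          haveI := hA
          exact sup_le (Subgroup.commutator_le_left A H) hBA.le
        rcases eq_or_lt_of_le hXA with h | h
        · exact absurd (le_of_le_commutator_sup hB (hn.trans hMB) (hAH₁.trans hH₁H) h.ge) (not_le_of_gt hBA)
        · have := hBmax.le_of_ge (show (⁅A, H⁆ ⊔ B) ∈ {B : Subgroup L | B.Normal ∧ M ≤ B ∧ B < A} from ⟨hX, hMB.trans le_sup_right, h⟩) le_sup_right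
          exact le_sup_left.trans this
      refine ih B hB hMB (hBA.le.trans hAH₁) (step A B hA hB hBA hMB hAH₁ hcomm hPA) ?_
      have := card_lt_of_lt_fin hBA
      omega
  intro hP
  exact key _ H₁ hH₁ hMH₁ (le_refl _) hP (le_refl _)

end grp

section coh
variable {L : Type u} [Group L] [Fintype L] {G : Type v} [Group G] [Fintype G] {τ : (L → ℂ) → (G → ℂ)}

theorem coherent_chain_irr (X : Finset (L → ℂ)) (hirr : ∀ φ ∈ X, IsIrrCharacter L φ) (d : (L → ℂ) → ℕ) (hd : ∀ φ ∈ X, φ 1 = (d φ : ℂ))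
    (hτ : IsLinearIsometryOn (zspanOn (↑X : Set (L → ℂ)) {1}ᶜ) τ)
    (hτ1 : ∀ α ∈ zspanOn (↑X : Set (L → ℂ)) {1}ᶜ, τ α 1 = 0) (S₀ : Finset (L → ℂ)) (hS₀ : S₀ ⊆ X)
    (hcoh : IsCoherent (↑S₀ : Set (L → ℂ)) {1}ᶜ τ)
    (hineq : ∀ χ ∈ X, ∃ ψ ∈ S₀, d ψ ∣ d χ ∧ 2 * d ψ * d χ < ∑ ξ ∈ S₀, d ξ ^ 2) :
    IsCoherent (↑X : Set (L → ℂ)) {1}ᶜ τ := by
  classical
  have hτsub : ∀ {S : Finset (L → ℂ)}, S ⊆ X → IsLinearIsometryOn (zspanOn (↑S : Set (L → ℂ)) {1}ᶜ) τ := by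
    intro S hS
    exact ((isoOn_zsub hτ).mono (fun α hα => zspanOn_mono (by exact_mod_cast hS) hα)).to_zsub
  have hτ1sub : ∀ {S : Finset (L → ℂ)}, S ⊆ X → ∀ α ∈ zspanOn (↑S : Set (L → ℂ)) {1}ᶜ, τ α 1 = 0 := by
    intro S hS α hα
    exact hτ1 α (zspanOn_mono (by exact_mod_cast hS) hα)
  have key : ∀ (m : ℕ) (S₁ : Finset (L → ℂ)), S₀ ⊆ S₁ → S₁ ⊆ X → IsCoherent (↑S₁ : Set (L → ℂ)) {1}ᶜ τ → (X \ S₁).card ≤ m →
      IsCoherent (↑X : Set (L → ℂ)) {1}ᶜ τ := by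
    intro m
    induction m with
    | zero =>
      intro S₁ _ h1 hc hm
      have h2 : X ⊆ S₁ := Finset.sdiff_eq_empty_iff_subset.mp (Finset.card_eq_zero.mp (Nat.le_zero.mp hm))
      rw [Finset.Subset.antisymm h2 h1]; exact hc
    | succ m ih =>
      intro S₁ h0 h1 hc hm
      by_cases hsub : X ⊆ S₁
      · rw [Finset.Subset.antisymm hsub h1]; exact hc
      obtain ⟨χ, hχX, hχS⟩ := Finset.not_subset.mp hsub
      obtain ⟨ψ, hψ, hdvd, hlt⟩ := hineq χ hχX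
      have hins : insert χ S₁ ⊆ X := Finset.insert_subset hχX h1
      have hstep := coherent_step_irr S₁ χ (fun ξ hξ => hirr ξ (h1 hξ)) (hirr χ hχX) hχS d (fun ξ hξ => hd ξ (hins hξ)) τ
        (hτsub hins) (hτ1sub hins) hc ψ (h0 hψ) hdvd (lt_of_lt_of_le hlt (Finset.sum_le_sum_of_subset h0))
      refine ih (insert χ S₁) (h0.trans (Finset.subset_insert _ _)) hins hstep ?_
      have h5 : (X \ insert χ S₁) ⊆ (X \ S₁).erase χ := by
        intro φ hφ
        simp only [Finset.mem_sdiff, Finset.mem_insert, not_or, Finset.mem_erase] at hφ ⊢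
        exact ⟨hφ.2.1, hφ.1, hφ.2.2⟩
      have h6 := Finset.card_le_card h5
      rw [Finset.card_erase_of_mem (Finset.mem_sdiff.mpr ⟨hχX, hχS⟩)] at h6
      omega
  exact key _ S₀ (le_refl _) hS₀ hcoh (le_refl _)

variable {K : Subgroup L}

/-- irreducible version of (6.2). -/
theorem feit_62 (hK : K.Normal) (hC : ∀ k ∈ K, k ≠ 1 → Subgroup.centralizer ({k} : Set L) ≤ K) (hsolv : Group.IsSolvable K)
    (hτ : IsLinearIsometryOn (zspanOn (inducedIrrAbove K ⊥) {1}ᶜ) τ) (hτ1 : ∀ α ∈ zspanOn (inducedIrrAbove K ⊥) {1}ᶜ, τ α 1 = 0)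
    (A B : Subgroup L) (hA : A.Normal) (hB : B.Normal) (hBA : B ≤ A) (hAK : A < K) (hcoh : IsCoherent (inducedIrrAbove K A) {1}ᶜ τ)
    (hdeg : ∀ θ : K → ℂ, IsIrrCharacter K θ → (∀ a : K, (a : L) ∈ B → θ a = θ 1) → ∀ b : ℕ, θ 1 = b → 2 * K.index * b + 1 < A.relIndex K) :
    IsCoherent (inducedIrrAbove K B) {1}ᶜ τ := by
  classical
  have hirrS : ∀ χ ∈ inducedIrrAbove K ⊥, IsIrrCharacter L χ := by
    rintro χ ⟨θ, h1, h2, _, rfl⟩
    exact induced_irr_of_cent hK hC θ h1 h2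
  have hfin : (inducedIrrAbove K ⊥).Finite := finite_irr_set _ hirrS
  have hfA : (inducedIrrAbove K A).Finite := hfin.subset (above_sub A)
  have hfB : (inducedIrrAbove K B).Finite := hfin.subset (above_sub B)
  set FA := hfA.toFinset with hFA
  set FB := hfB.toFinset with hFB
  have eA : (FA : Set (L → ℂ)) = inducedIrrAbove K A := hfA.coe_toFinset
  have eB : (FB : Set (L → ℂ)) = inducedIrrAbove K B := hfB.coe_toFinset
  have mA : ∀ φ, φ ∈ FA ↔ φ ∈ inducedIrrAbove K A := fun φ => hfA.mem_toFinset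
  have mB : ∀ φ, φ ∈ FB ↔ φ ∈ inducedIrrAbove K B := fun φ => hfB.mem_toFinset
  have hdex : ∀ φ : L → ℂ, ∃ d : ℕ, φ ∈ inducedIrrAbove K ⊥ → φ 1 = (d : ℂ) := by
    intro φ
    by_cases h : φ ∈ inducedIrrAbove K ⊥
    · obtain ⟨d, hd⟩ := IsChar.exists_degree (IsIrr.isCharacter (hirrS φ h))
      exact ⟨d, fun _ => hd⟩
    · exact ⟨0, fun h' => absurd h' h⟩
  choose d hd using hdex
  obtain ⟨θ₁, a1, a2, a3, a4⟩ := exists_linear_above hsolv (hA.subgroupOf K) hAK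
  have hχ₁ : indFun K θ₁ ∈ inducedIrrAbove K A := ⟨θ₁, a1, a2, a3, rfl⟩
  have hd₁ : d (indFun K θ₁) = K.index := by
    have h1 := hd _ (above_sub A hχ₁)
    rw [indFun_one, a4, mul_one] at h1
    exact_mod_cast h1.symm
  have he : 0 < K.index := Nat.pos_of_ne_zero Subgroup.index_ne_zero_of_finite
  have hA1 : 1 ≤ A.relIndex K := Nat.one_le_iff_ne_zero.mpr (relIndex_ne_zero_fin _ _)
  have hsumA : ∑ φ ∈ FA, d φ ^ 2 = K.index * (A.relIndex K - 1) := by
    have h1 := above_sum hK hA FA eA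
    have h2 : ∑ φ ∈ FA, (φ 1) ^ 2 / classInner φ φ = ((∑ φ ∈ FA, d φ ^ 2 : ℕ) : ℂ) := by
      push_cast
      apply Finset.sum_congr rfl; intro φ hφ
      rw [ii_self (hirrS φ (above_sub A ((mA φ).mp hφ))), hd φ (above_sub A ((mA φ).mp hφ))]; simp
    rw [h2] at h1
    have h3 : ((A.relIndex K - 1 : ℕ) : ℂ) = (A.relIndex K : ℂ) - 1 := by push_cast [hA1]; rfl
    rw [← h3] at h1
    exact_mod_cast h1
  have hBS : (FB : Set (L → ℂ)) ⊆ inducedIrrAbove K ⊥ := by rw [eB]; exact above_sub B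
  rw [← eB]
  apply coherent_chain_irr FB (fun φ hφ => hirrS φ (hBS hφ)) d (fun φ hφ => hd φ (hBS hφ))
    ((isoOn_zsub hτ).mono (fun α hα => zspanOn_mono hBS hα)).to_zsub (fun α hα => hτ1 α (zspanOn_mono hBS hα)) FA
    (by intro φ hφ; exact (mB φ).mpr (above_anti hBA ((mA φ).mp hφ))) (by rw [eA]; exact hcoh)
  intro χ hχ
  obtain ⟨θ, b1, b2, b3, rfl⟩ := (mB χ).mp hχ
  obtain ⟨b, hb, hb1⟩ := IsIrr.exists_degree b1
  have hdχ : d (indFun K θ) = K.index * b := by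
    have h1 := hd _ (above_sub B ((mB _).mp hχ))
    rw [indFun_one, hb1] at h1
    exact_mod_cast h1.symm
  refine ⟨indFun K θ₁, (mA _).mpr hχ₁, ?_, ?_⟩
  · rw [hd₁, hdχ]; exact dvd_mul_right _ _
  · rw [hd₁, hdχ, hsumA]
    have h1 := hdeg θ b1 b3 b hb1
    have h2 : 2 * K.index * b < A.relIndex K - 1 := by omega
    calc 2 * K.index * (K.index * b) = K.index * (2 * K.index * b) := by ring
      _ < K.index * (A.relIndex K - 1) := Nat.mul_lt_mul_of_pos_left h2 he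

/-- the abelian quotient case. -/
theorem feit_equal (hK : K.Normal) (hC : ∀ k ∈ K, k ≠ 1 → Subgroup.centralizer ({k} : Set L) ≤ K)
    (hτ : IsLinearIsometryOn (zspanOn (inducedIrrAbove K ⊥) {1}ᶜ) τ) (hτ1 : ∀ α ∈ zspanOn (inducedIrrAbove K ⊥) {1}ᶜ, τ α 1 = 0)
    (A : Subgroup L) (hA : A.Normal) (hab : ∀ x ∈ K, ∀ y ∈ K, x * y * x⁻¹ * y⁻¹ ∈ A)
    (hne : ∃ a ∈ inducedIrrAbove K A, ∃ b ∈ inducedIrrAbove K A, a ≠ b) : IsCoherent (inducedIrrAbove K A) {1}ᶜ τ := by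
  classical
  have hirrS : ∀ χ ∈ inducedIrrAbove K ⊥, IsIrrCharacter L χ := by
    rintro χ ⟨θ, h1, h2, _, rfl⟩
    exact induced_irr_of_cent hK hC θ h1 h2
  have hfin : (inducedIrrAbove K ⊥).Finite := finite_irr_set _ hirrS
  have hfA : (inducedIrrAbove K A).Finite := hfin.subset (above_sub A)
  set FA := hfA.toFinset with hFA
  have eA : (FA : Set (L → ℂ)) = inducedIrrAbove K A := hfA.coe_toFinset
  have mA : ∀ φ, φ ∈ FA ↔ φ ∈ inducedIrrAbove K A := fun φ => hfA.mem_toFinset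
  have hlin : ∀ φ ∈ inducedIrrAbove K A, φ 1 = K.index := by
    rintro φ ⟨θ, h1, h2, h3, rfl⟩
    obtain ⟨lam, hl⟩ := linear_of_comm_ker h1 (fun x y => h3 _ (by
      have := hab x x.2 y y.2
      simpa using this))
    rw [indFun_one, hl]
    simp
  have hAS : (FA : Set (L → ℂ)) ⊆ inducedIrrAbove K ⊥ := by rw [eA]; exact above_sub A
  rw [← eA]
  apply coherent_equal_irr FA (fun φ hφ => hirrS φ (hAS hφ))
    (fun φ hφ ψ hψ => by rw [hlin φ ((mA φ).mp hφ), hlin ψ ((mA ψ).mp hψ)]) ?_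
    ((isoOn_zsub hτ).mono (fun α hα => zspanOn_mono hAS hα)).to_zsub (fun α hα => hτ1 α (zspanOn_mono hAS hα))
  obtain ⟨a, ha, b, hb, hab'⟩ := hne
  have : ({a, b} : Finset (L → ℂ)) ⊆ FA := by
    intro φ hφ
    simp only [Finset.mem_insert, Finset.mem_singleton] at hφ
    rcases hφ with rfl | rfl
    · exact (mA _).mpr ha
    · exact (mA _).mpr hb
  calc 2 = ({a, b} : Finset (L → ℂ)).card := (Finset.card_pair hab').symm
    _ ≤ _ := Finset.card_le_card this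

end coh

end Cfsg.Agent.H4
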