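import Cfsg.Agent.H4.Feit1
import Cfsg.Agent.H1.Basic

set_option linter.all false
set_option autoImplicit false

/-! Feit's coherence theorem for nilpotent Frobenius kernels. -/

namespace Cfsg.Agent.H4

open Module
open scoped ComplexConjugate Pointwise commutatorElement

universe u v w

section coh
variable {L : Type u} [Group L] [Fintype L] {G : Type v} [Group G] [Fintype G] {τ : (L → ℂ) → (G → ℂ)}
variable {K : Subgroup L}

theorem above_card (hK : K.Normal) (hC : ∀ k ∈ K, k ≠ 1 → Subgroup.centralizer ({k} : Set L) ≤ K) {A : Subgroup L} (hA : A.Normal)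
    (hab : ∀ x ∈ K, ∀ y ∈ K, x * y * x⁻¹ * y⁻¹ ∈ A) (FA : Finset (L → ℂ)) (eA : (FA : Set (L → ℂ)) = inducedIrrAbove K A) :
    K.index * FA.card = A.relIndex K - 1 := by
  classical
  have hirrS : ∀ χ ∈ inducedIrrAbove K ⊥, IsIrrCharacter L χ := by
    rintro χ ⟨θ, h1, h2, _, rfl⟩
    exact induced_irr_of_cent hK hC θ h1 h2
  have mA : ∀ φ, φ ∈ FA ↔ φ ∈ inducedIrrAbove K A := fun φ => by rw [← eA]; rfl
  have hlin : ∀ φ ∈ inducedIrrAbove K A, φ 1 = K.index := by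
    rintro φ ⟨θ, h1, h2, h3, rfl⟩
    obtain ⟨lam, hl⟩ := linear_of_comm_ker h1 (fun x y => h3 _ (by
      have := hab x x.2 y y.2
      simpa using this))
    rw [indFun_one, hl]
    simp
  have h1 := above_sum hK hA FA eA
  have h2 : ∑ φ ∈ FA, (φ 1) ^ 2 / classInner φ φ = (K.index : ℂ) * (K.index * FA.card) := by
    rw [Finset.sum_congr rfl (g := fun _ => (K.index : ℂ) ^ 2), Finset.sum_const, nsmul_eq_mul]
    · ring
    · intro φ hφ
      rw [ii_self (hirrS φ (above_sub A ((mA φ).mp hφ))), hlin φ ((mA φ).mp hφ)]; simp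
  have he : (K.index : ℂ) ≠ 0 := by exact_mod_cast Subgroup.index_ne_zero_of_finite (H := K)
  rw [h2] at h1
  have h3 := mul_left_cancel₀ he h1
  have hA1 : 1 ≤ A.relIndex K := Nat.one_le_iff_ne_zero.mpr (relIndex_ne_zero_fin _ _)
  have h4 : ((A.relIndex K - 1 : ℕ) : ℂ) = (A.relIndex K : ℂ) - 1 := by push_cast [hA1]; rfl
  rw [← h4] at h3
  exact_mod_cast h3

theorem above_two (hK : K.Normal) (hC : ∀ k ∈ K, k ≠ 1 → Subgroup.centralizer ({k} : Set L) ≤ K) {A : Subgroup L} (hA : A.Normal)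
    (hab : ∀ x ∈ K, ∀ y ∈ K, x * y * x⁻¹ * y⁻¹ ∈ A) (hlt : K.index + 1 < A.relIndex K) :
    ∃ a ∈ inducedIrrAbove K A, ∃ b ∈ inducedIrrAbove K A, a ≠ b := by
  classical
  have hirrS : ∀ χ ∈ inducedIrrAbove K ⊥, IsIrrCharacter L χ := by
    rintro χ ⟨θ, h1, h2, _, rfl⟩
    exact induced_irr_of_cent hK hC θ h1 h2
  have hfA : (inducedIrrAbove K A).Finite := (finite_irr_set _ hirrS).subset (above_sub A)
  have h1 := above_card hK hC hA hab hfA.toFinset hfA.coe_toFinset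
  have h2 : 1 < hfA.toFinset.card := by
    by_contra hcon
    have h3 : K.index * hfA.toFinset.card ≤ K.index * 1 := Nat.mul_le_mul_left _ (by omega)
    omega
  obtain ⟨a, ha, b, hb, hab'⟩ := Finset.one_lt_card.mp h2
  exact ⟨a, hfA.mem_toFinset.mp ha, b, hfA.mem_toFinset.mp hb, hab'⟩

theorem comm_lt_of_nil {L : Type u} [Group L] [Finite L] {K : Subgroup L} (hnil : Group.IsNilpotent K) (hK1 : K ≠ ⊥) : ⁅K, K⁆ < K := by
  haveI : Nontrivial K := (Subgroup.nontrivial_iff_ne_bot K).mpr hK1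
  haveI : Group.IsNilpotent K := hnil
  have hmapc : (commutator K).map K.subtype = ⁅K, K⁆ := by
    rw [commutator_def, Subgroup.map_commutator, ← MonoidHom.range_eq_map, Subgroup.range_subtype]
  refine lt_of_le_of_ne (Subgroup.commutator_le_self K) ?_
  intro h
  have h1 : commutator K < ⊤ := IsSolvable.commutator_lt_top_of_nontrivial _
  apply h1.ne
  apply Subgroup.map_injective K.subtype_injective
  rw [hmapc, h, ← MonoidHom.range_eq_map, Subgroup.range_subtype]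

theorem lcs_bot_of_nil {L : Type u} [Group L] {K : Subgroup L} (hnil : Group.IsNilpotent K) : ∃ n, K.lowerCentralSeries n = ⊥ :=
  (Subgroup.isNilpotent_iff_lowerCentralSeries K).mp hnil

/-- degree bound for characters of `K/B` when `[D,K] ≤ B`. -/
theorem deg_le_central {D B : Subgroup L} (hDK : D ≤ K) (hcent : ⁅D, K⁆ ≤ B) {θ : K → ℂ} (hθ : IsIrrCharacter K θ)
    (hB : ∀ a : K, (a : L) ∈ B → θ a = θ 1) (b : ℕ) (hb : θ 1 = b) : b ^ 2 ≤ D.relIndex K := by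
  haveI : Fintype K := Fintype.ofFinite K
  have h := degree_bound hθ (⊤ : Subgroup K) (D.subgroupOf K) le_top (by
    intro x hx y _
    apply hB
    have := hcent (Subgroup.commutator_mem_commutator (Subgroup.mem_subgroupOf.mp hx) y.2)
    rw [commutatorElement_def] at this
    exact this) b hb
  rw [Subgroup.index_top, one_pow, one_mul, Subgroup.relIndex_top_right] at h
  exact h

theorem feit_63 (hK : K.Normal) (hC : ∀ k ∈ K, k ≠ 1 → Subgroup.centralizer ({k} : Set L) ≤ K) (hnil : Group.IsNilpotent K) (hK1 : K ≠ ⊥)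
    (hτ : IsLinearIsometryOn (zspanOn (inducedIrrAbove K ⊥) {1}ᶜ) τ) (hτ1 : ∀ α ∈ zspanOn (inducedIrrAbove K ⊥) {1}ᶜ, τ α 1 = 0)
    (hbig : 4 * K.index ^ 2 + 1 < (⁅K, K⁆).relIndex K) : IsCoherent (inducedIrrAbove K ⊥) {1}ᶜ τ := by
  haveI := hK
  haveI : Group.IsNilpotent K := hnil
  have hsolv : Group.IsSolvable K := inferInstance
  have he : 1 ≤ K.index := Nat.one_le_iff_ne_zero.mpr Subgroup.index_ne_zero_of_finite
  have hKK := comm_lt_of_nil hnil hK1
  have hab : ∀ x ∈ K, ∀ y ∈ K, x * y * x⁻¹ * y⁻¹ ∈ ⁅K, K⁆ := fun x hx y hy => Subgroup.commutator_mem_commutator hx hy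
  obtain ⟨n, hn⟩ := lcs_bot_of_nil hnil
  refine chief_descent (fun A => IsCoherent (inducedIrrAbove K A) {1}ᶜ τ) ⊥ ⁅K, K⁆ K inferInstance inferInstance hK bot_le hKK.le ⟨n, hn.le⟩ ?_
    (feit_equal hK hC hτ hτ1 _ inferInstance hab (above_two hK hC inferInstance hab (by nlinarith)))
  intro A B hA hB hBA _ hAK' hcent hcoh
  have hAK : A < K := lt_of_le_of_lt hAK' hKK
  refine feit_62 hK hC hsolv hτ hτ1 A B hA hB hBA.le hAK hcoh ?_
  intro θ hθ hθB b hb
  have h1 := deg_le_central hAK.le hcent hθ hθB b hb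
  have h2 : 4 * K.index ^ 2 + 2 ≤ A.relIndex K := by
    have h3 : (⁅K, K⁆).relIndex K ∣ A.relIndex K := Subgroup.relIndex_dvd_of_le_left K hAK'
    have := Nat.le_of_dvd (Nat.pos_of_ne_zero (relIndex_ne_zero_fin _ _)) h3
    omega
  generalize A.relIndex K = h at h1 h2 ⊢
  generalize K.index = e at h2 he ⊢
  by_contra hcon
  push Not at hcon
  obtain ⟨u, rfl⟩ : ∃ u, h = u + 1 := ⟨h - 1, by omega⟩
  have h3 : u ≤ 2 * e * b := by omega
  have h4 : u ^ 2 ≤ (2 * e * b) ^ 2 := Nat.pow_le_pow_left h3 2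
  have h5 : (2 * e * b) ^ 2 = 4 * e ^ 2 * b ^ 2 := by ring
  have h6 : 4 * e ^ 2 * b ^ 2 ≤ 4 * e ^ 2 * (u + 1) := Nat.mul_le_mul_left _ h1
  have h7 : 4 * e ^ 2 * (u + 1) ≤ (u - 1) * (u + 1) := Nat.mul_le_mul_right _ (by omega)
  have h8 : (u - 1) * (u + 1) + 1 = u ^ 2 := by
    obtain ⟨v, rfl⟩ : ∃ v, u = v + 1 := ⟨u - 1, by omega⟩
    simp; ring
  omega

/-- the mixed descent. -/
theorem feit_mixed_step (hK : K.Normal) (hC : ∀ k ∈ K, k ≠ 1 → Subgroup.centralizer ({k} : Set L) ≤ K) (hnil : Group.IsNilpotent K)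
    (hτ : IsLinearIsometryOn (zspanOn (inducedIrrAbove K ⊥) {1}ᶜ) τ) (hτ1 : ∀ α ∈ zspanOn (inducedIrrAbove K ⊥) {1}ᶜ, τ α 1 = 0)
    (he3 : 3 ≤ K.index) (M H₁ E : Subgroup L) (hM : M.Normal) (hH₁ : H₁.Normal) (hE : E.Normal) (hMH₁ : M ≤ H₁) (hH₁K : H₁ ≤ K)
    (hEK : E ≤ K) (hcE : ⁅E, K⁆ ≤ M) (h1 : ¬ E ≤ H₁) (h2 : ¬ K ≤ H₁ ⊔ E) (hcoh : IsCoherent (inducedIrrAbove K H₁) {1}ᶜ τ) :
    IsCoherent (inducedIrrAbove K M) {1}ᶜ τ := by
  haveI := hK
  haveI : Group.IsNilpotent K := hnil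
  have hsolv : Group.IsSolvable K := inferInstance
  obtain ⟨n, hn⟩ := lcs_bot_of_nil hnil
  obtain ⟨_, hcop⟩ := cop_of_cent hK hC
  refine chief_descent (fun A => IsCoherent (inducedIrrAbove K A) {1}ᶜ τ) M H₁ K hM hH₁ hK hMH₁ hH₁K ⟨n, hn.le.trans bot_le⟩ ?_ hcoh
  intro A B hA hB hBA hMB hAH₁ hcent hcohA
  haveI := hA
  haveI := hE
  have hAEK : A ⊔ E ≤ K := sup_le (hAH₁.trans hH₁K) hEK
  have hAK : A < K := by
    refine lt_of_le_of_ne (hAH₁.trans hH₁K) ?_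
    rintro rfl
    exact h1 (hEK.trans hAH₁)
  refine feit_62 hK hC hsolv hτ hτ1 A B hA hB hBA.le hAK hcohA ?_
  intro θ hθ hθB b hb
  have hcD : ⁅A ⊔ E, K⁆ ≤ B := by
    rw [Subgroup.commutator_le]
    intro g hg k hk
    obtain ⟨a, ha, e, he, rfl⟩ := Subgroup.mem_sup_of_normal_right.mp hg
    have e1 : ⁅a * e, k⁆ = (a * ⁅e, k⁆ * a⁻¹) * ⁅a, k⁆ := by
      rw [commutatorElement_def, commutatorElement_def, commutatorElement_def]; group
    rw [e1]
    exact B.mul_mem (hB.conj_mem _ (hMB (hcE (Subgroup.commutator_mem_commutator he hk))) a)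
      (hcent (Subgroup.commutator_mem_commutator ha hk))
  have hb1 := deg_le_central hAEK hcD hθ hθB b hb
  have hf : K.index + 1 ≤ A.relIndex (A ⊔ E) :=
    frob_ge hA inferInstance hAEK hAK.le (frob_quot hcop hC hK hA hAK.le) (fun h => h1 ((le_sup_right.trans h).trans hAH₁))
  have hh : K.index + 1 ≤ (A ⊔ E).relIndex K :=
    frob_ge inferInstance hK (le_refl _) hAEK (frob_quot hcop hC hK inferInstance hAEK) (fun h => h2 (h.trans (sup_le_sup_right hAH₁ E)))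
  rw [← Subgroup.relIndex_mul_relIndex A (A ⊔ E) K le_sup_left hAEK]
  generalize (A ⊔ E).relIndex K = h at hb1 hh ⊢
  generalize A.relIndex (A ⊔ E) = f at hf ⊢
  generalize K.index = e at hf hh he3 ⊢
  have h3 : (e + 1) * h ≤ f * h := Nat.mul_le_mul_right _ hf
  refine lt_of_lt_of_le ?_ h3
  rcases Nat.lt_or_ge b 2 with hb2 | hb2
  · have h4 : 2 * e * b ≤ 2 * e := by
      calc 2 * e * b ≤ 2 * e * 1 := Nat.mul_le_mul_left _ (by omega)
        _ = 2 * e := by ring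
    have h5 : (e + 1) * (e + 1) ≤ (e + 1) * h := Nat.mul_le_mul_left _ hh
    nlinarith
  · have h5 : (e + 1) * b ^ 2 ≤ (e + 1) * h := Nat.mul_le_mul_left _ hb1
    have h6 : 2 * ((e + 1) * b) ≤ (e + 1) * b ^ 2 := by
      calc 2 * ((e + 1) * b) ≤ b * ((e + 1) * b) := Nat.mul_le_mul_right _ hb2
        _ = (e + 1) * b ^ 2 := by ring
    nlinarith

end coh

end Cfsg.Agent.H4
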