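import Cfsg.Agent.H4.FrobSchur
import Cfsg.Agent.H4.RepBasic

set_option linter.all false
set_option autoImplicit false

/-! Frobenius–Schur indicators of odd degree characters. -/

namespace Cfsg.Agent.H4

open Module
open scoped ComplexConjugate TensorProduct

universe u v w

section
variable {V : Type v} [AddCommGroup V] [Module ℂ V] [FiniteDimensional ℂ V]
variable {G : Type u} [Group G]

theorem fsInd_inv [Fintype G] (ρ : Representation ℂ G V) (h : ρ.IsIrreducible)
    (hreal : ρ.character = fun g => conj (ρ.character g)) :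
    ∃ w : V ⊗[ℂ] V, w ≠ 0 ∧ (∀ g, TensorProduct.map (ρ g) (ρ g) w = w) ∧
      TensorProduct.comm ℂ V V w = fsInd ρ.character • w := by
  classical
  have hinv : Invertible (Nat.card G : ℂ) := invertibleOfNonzero (card_ne_zero' G)
  have hinv' : Invertible (Fintype.card G : ℂ) := by rw [← Nat.card_eq_fintype_card]; exact hinv
  let σ : Representation ℂ G (V ⊗[ℂ] V) := ρ.tprod ρ
  let τ : (V ⊗[ℂ] V) →ₗ[ℂ] (V ⊗[ℂ] V) := (TensorProduct.comm ℂ V V).toLinearMap
  let P := σ.averageMap
  have hP := σ.isProj_averageMap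
  have hdim : classInner ρ.character (fun g => conj (ρ.character g)) = finrank ℂ σ.invariants := by
    rw [← Representation.card_inv_mul_sum_char_eq_finrank σ]
    unfold classInner
    congr 1
    apply Finset.sum_congr rfl; intro g _
    rw [Complex.conj_conj, Representation.char_tensor]; rfl
  have hind : fsInd ρ.character = LinearMap.trace ℂ (V ⊗[ℂ] V) (τ ∘ₗ P) := by
    have hPe : P = (Nat.card G : ℂ)⁻¹ • ∑ g : G, σ g := by
      apply LinearMap.ext; intro x
      simp only [P, Representation.averageMap, GroupAlgebra.average, map_smul, map_sum,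
        Representation.asAlgebraHom_of, LinearMap.smul_apply]
      rw [invOf_eq_inv, Nat.card_eq_fintype_card]
    rw [hPe, LinearMap.comp_smul, map_smul, smul_eq_mul]
    unfold fsInd
    congr 1
    show ∑ s : G, ρ.character (s * s) = LinearMap.trace ℂ (V ⊗[ℂ] V)
      ((τ : Module.End ℂ (V ⊗[ℂ] V)) * ∑ g : G, σ g)
    rw [Finset.mul_sum, map_sum]
    apply Finset.sum_congr rfl; intro g _
    show ρ.character (g * g) = LinearMap.trace ℂ (V ⊗[ℂ] V) (τ ∘ₗ TensorProduct.map (ρ g) (ρ g))
    rw [trace_comm_map, ← map_mul]; rfl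
  have hirr := isIrrCharacter_of_rep ρ h
  have h01 := inner_irr_eq hirr (IsIrr.conj hirr)
  rw [if_pos hreal] at h01
  rw [hdim] at h01
  have hfr : finrank ℂ σ.invariants = 1 := by exact_mod_cast h01
  have hτσ : ∀ g x, τ (σ g x) = σ g (τ x) := by
    intro g x
    induction x using TensorProduct.induction_on with
    | zero => simp
    | tmul a b => rfl
    | add a b ha hb => rw [map_add, map_add, map_add, map_add, ha, hb]
  obtain ⟨w, hw0, hw⟩ := finrank_eq_one_iff'.1 hfr
  have hτw : τ (w : V ⊗[ℂ] V) ∈ σ.invariants := by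
    intro g
    rw [← hτσ, w.2 g]
  obtain ⟨c, hc⟩ := hw ⟨τ w, hτw⟩
  have hc' : τ (w : V ⊗[ℂ] V) = c • (w : V ⊗[ℂ] V) := by
    have := congrArg Subtype.val hc
    exact this.symm
  have hw0' : (w : V ⊗[ℂ] V) ≠ 0 := fun e => hw0 (Subtype.ext e)
  have hcomp : τ ∘ₗ P = c • P := by
    apply LinearMap.ext; intro x
    have hx : P x ∈ σ.invariants := hP.map_mem x
    obtain ⟨d, hd⟩ := hw ⟨P x, hx⟩
    have hd' : P x = d • (w : V ⊗[ℂ] V) := (congrArg Subtype.val hd).symm
    show τ (P x) = c • P x
    rw [hd', map_smul, hc', smul_smul, smul_smul, mul_comm]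
  have htrP : LinearMap.trace ℂ (V ⊗[ℂ] V) P = 1 := by
    rw [hP.trace, hfr]; simp
  have hfin : fsInd ρ.character = c := by
    rw [hind, hcomp, map_smul, htrP, smul_eq_mul, mul_one]
  refine ⟨w, hw0', fun g => w.2 g, ?_⟩
  rw [hfin]; exact hc'

/-- `a ⊗ b ↦ (f ↦ f b • a)` -/
noncomputable def tphi : V ⊗[ℂ] V →ₗ[ℂ] (Dual ℂ V →ₗ[ℂ] V) :=
  TensorProduct.lift (LinearMap.mk₂ ℂ (fun a b =>
    { toFun := fun f : Dual ℂ V => f b • a
      map_add' := fun f f' => by rw [LinearMap.add_apply, add_smul]
      map_smul' := fun r f => by rw [LinearMap.smul_apply, smul_assoc]; rfl })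
    (fun a a' b => by ext f; exact smul_add _ _ _)
    (fun c a b => by ext f; exact smul_comm _ _ _)
    (fun a b b' => by ext f; show f (b + b') • a = f b • a + f b' • a; rw [map_add, add_smul])
    (fun c a b => by ext f; show f (c • b) • a = c • (f b • a); rw [map_smul, smul_assoc]))

theorem tphi_tmul (a b : V) (f : Dual ℂ V) : tphi (a ⊗ₜ b) f = f b • a := rfl

theorem tphi_map (A B : V →ₗ[ℂ] V) (x : V ⊗[ℂ] V) (f : Dual ℂ V) :
    tphi (TensorProduct.map A B x) f = A (tphi x (f ∘ₗ B)) := by
  induction x using TensorProduct.induction_on with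
  | zero => simp
  | tmul a b => rw [TensorProduct.map_tmul, tphi_tmul, tphi_tmul, map_smul]; rfl
  | add a b ha hb => rw [map_add, map_add, map_add, LinearMap.add_apply, LinearMap.add_apply, ha, hb, map_add]

theorem tphi_comm (x : V ⊗[ℂ] V) (f f' : Dual ℂ V) :
    f (tphi (TensorProduct.comm ℂ V V x) f') = f' (tphi x f) := by
  induction x using TensorProduct.induction_on with
  | zero => simp
  | tmul a b =>
    rw [TensorProduct.comm_tmul, tphi_tmul, tphi_tmul, map_smul, map_smul, smul_eq_mul, smul_eq_mul, mul_comm]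
  | add a b ha hb =>
    rw [map_add, map_add, map_add, LinearMap.add_apply, LinearMap.add_apply, map_add, map_add, ha, hb]

theorem tphi_eq_zero {x : V ⊗[ℂ] V} (h : ∀ f f' : Dual ℂ V, f' (tphi x f) = 0) : x = 0 := by
  classical
  let b := Module.finBasis ℂ V
  apply (b.tensorProduct b).repr.injective
  ext ⟨i, j⟩
  have key : ∀ y : V ⊗[ℂ] V, (b.tensorProduct b).repr y (i, j) = (b.coord i) (tphi y (b.coord j)) := by
    intro y
    induction y using TensorProduct.induction_on with
    | zero => simp
    | tmul a c =>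
      rw [Basis.tensorProduct_repr_tmul_apply, tphi_tmul, map_smul]
      simp [mul_comm]
    | add a c ha hc => rw [map_add, map_add, LinearMap.add_apply, Finsupp.add_apply, ha, hc, map_add]
  rw [key, h]; simp

theorem fs_odd [Fintype G] (ρ : Representation ℂ G V) (h : ρ.IsIrreducible)
    (hreal : ρ.character = fun g => conj (ρ.character g)) (hodd : Odd (finrank ℂ V))
    (hc : fsInd ρ.character = -1) : False := by
  classical
  obtain ⟨w, hw0, hwi, hwc⟩ := fsInd_inv ρ h hreal
  rw [hc] at hwc
  obtain ⟨_, hirr⟩ := (isIrreducible_iff ρ).1 h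
  let b := Module.finBasis ℂ V
  let M : Matrix (Fin (finrank ℂ V)) (Fin (finrank ℂ V)) ℂ := fun i j => (b.coord j) (tphi w (b.coord i))
  have hMt : M.transpose = -M := by
    ext i j
    show (b.coord i) (tphi w (b.coord j)) = - (b.coord j) (tphi w (b.coord i))
    have h1 := tphi_comm w (b.coord j) (b.coord i)
    rw [hwc] at h1
    rw [← h1]
    simp
  have hdet : M.det = 0 := by
    have h1 := congrArg Matrix.det hMt
    rw [Matrix.det_transpose, Matrix.det_neg, Fintype.card_fin, hodd.neg_one_pow] at h1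
    have h2 : (2 : ℂ) * M.det = 0 := by linear_combination h1
    rcases mul_eq_zero.1 h2 with h3 | h3
    · norm_num at h3
    · exact h3
  obtain ⟨x, hx0, hx⟩ := Matrix.exists_mulVec_eq_zero_iff.2 hdet
  -- range
  have hrange : LinearMap.range (tphi w) = ⊤ := by
    rcases hirr (LinearMap.range (tphi w)) (by
      rintro g _ ⟨f, rfl⟩
      refine ⟨f ∘ₗ ρ g⁻¹, ?_⟩
      have h1 := tphi_map (ρ g) (ρ g) w (f ∘ₗ ρ g⁻¹)
      rw [hwi g] at h1
      rw [h1, LinearMap.comp_assoc]
      have h2 : ρ g⁻¹ ∘ₗ ρ g = LinearMap.id := by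
        have := (map_mul ρ g⁻¹ g)
        rw [inv_mul_cancel, map_one] at this
        exact this.symm
      rw [h2, LinearMap.comp_id]) with h1 | h1
    · exfalso
      apply hw0
      apply tphi_eq_zero
      intro f f'
      have : tphi w f ∈ LinearMap.range (tphi w) := ⟨f, rfl⟩
      rw [h1, Submodule.mem_bot] at this
      rw [this, map_zero]
    · exact h1
  have hf0 : ∀ f : Dual ℂ V, (∑ j, x j • b.coord j) (tphi w f) = 0 := by
    have hbas : ∀ i, (∑ j, x j • b.coord j) (tphi w (b.coord i)) = 0 := by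
      intro i
      have h1 := congrFun hx i
      simp only [Matrix.mulVec, dotProduct, Pi.zero_apply] at h1
      rw [LinearMap.sum_apply, ← h1]
      apply Finset.sum_congr rfl
      intro j _
      rw [LinearMap.smul_apply, smul_eq_mul, mul_comm]
    intro f
    have hf : f = ∑ i, f (b i) • b.coord i := by
      apply b.ext
      intro k
      rw [LinearMap.sum_apply]
      simp [Finsupp.single_apply]
    rw [hf, map_sum, map_sum]
    apply Finset.sum_eq_zero
    intro i _
    rw [map_smul, map_smul, hbas, smul_zero]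
  have hF : (∑ j, x j • b.coord j) = 0 := by
    apply LinearMap.ext
    intro v
    have hv : v ∈ LinearMap.range (tphi w) := by rw [hrange]; trivial
    obtain ⟨f, rfl⟩ := hv
    rw [hf0 f]; rfl
  apply hx0
  funext k
  have h1 := LinearMap.congr_fun hF (b k)
  rw [LinearMap.sum_apply] at h1
  simpa [Finsupp.single_apply] using h1

end

theorem fs_odd_irr {G : Type*} [Group G] [Fintype G] (χ : G → ℂ) (hχ : IsIrrCharacter G χ) (hreal : ∀ g : G, (χ g).im = 0)
    (d : ℕ) (hd : χ 1 = d) (hodd : Odd d) : fsInd χ = 1 := by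
  rcases fsInd_irr ⟨χ, hχ⟩ with h | h | h
  · exfalso
    exact (fsInd_irr_ne_zero_iff ⟨χ, hχ⟩).2 hreal h
  · exact h
  · exfalso
    obtain ⟨n, ρ, hρ, rfl⟩ := hχ
    refine fs_odd ρ hρ ?_ ?_ h
    · funext s; exact (Complex.conj_eq_iff_im.2 (hreal s)).symm
    · rw [Representation.char_one] at hd
      have : finrank ℂ (Fin n → ℂ) = d := by exact_mod_cast hd
      rw [this]; exact hodd

end Cfsg.Agent.H4
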