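import Cfsg.Agent.H4.Glau15

set_option linter.all false
set_option autoImplicit false

/-! Invariant characters in the relative situation. -/

namespace Cfsg.Agent.H4

open Module
open scoped ComplexConjugate Pointwise

universe u v w

theorem irr_descend {H : Type u} {G : Type v} [Group H] [Group G] [Finite H] (f : H →* G) (hf : Function.Surjective f) {ψ : H → ℂ} (hψ : IsIrrCharacter H ψ)
    (hk : ∀ x ∈ f.ker, ψ x = ψ 1) : ∃ χ : G → ℂ, IsIrrCharacter G χ ∧ ∀ x, ψ x = χ (f x) := by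
  classical
  obtain ⟨n, ρ, hρ, rfl⟩ := hψ
  let ρu : H →* (Module.End ℂ (Fin n → ℂ))ˣ := MonoidHom.toHomUnits ρ
  have hρu : ∀ x, ((ρu x : (Module.End ℂ (Fin n → ℂ))ˣ) : Module.End ℂ (Fin n → ℂ)) = ρ x := fun x => rfl
  have hker : f.ker ≤ ρu.ker := by
    intro x hx
    rw [MonoidHom.mem_ker]
    apply Units.ext
    rw [hρu]
    exact (IsChar.eq_one_iff_rep ρ _).mp (hk x hx)
  let ρ₁ : G →* (Module.End ℂ (Fin n → ℂ))ˣ := f.liftOfSurjective hf ⟨ρu, hker⟩
  have hρ₁ : ∀ x, ρ₁ (f x) = ρu x := fun x => MonoidHom.liftOfRightInverse_comp_apply f _ _ ⟨ρu, hker⟩ x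
  let ρ' : Representation ℂ G (Fin n → ℂ) := (Units.coeHom (Module.End ℂ (Fin n → ℂ))).comp ρ₁
  have hρ' : ∀ x, ρ' (f x) = ρ x := by
    intro x
    show ((ρ₁ (f x) : (Module.End ℂ (Fin n → ℂ))ˣ) : Module.End ℂ (Fin n → ℂ)) = _
    rw [hρ₁]; rfl
  refine ⟨ρ'.character, ⟨n, ρ', ?_, rfl⟩, ?_⟩
  · rw [isIrreducible_iff] at hρ ⊢
    refine ⟨hρ.1, fun U hU => hρ.2 U (fun x v hv => ?_)⟩
    rw [← hρ' x]
    exact hU (f x) v hv
  · intro x
    show LinearMap.trace ℂ _ (ρ x) = LinearMap.trace ℂ _ (ρ' (f x))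
    rw [hρ']

/-- the product of an irreducible character with `M` in the kernel and an extension -/
theorem irr_mul_of_ker {G : Type u} [Group G] [Fintype G] {M : Subgroup G} (hM : M.Normal) {σ β : G → ℂ} (hσ : IsIrrCharacter G σ) (hσM : IsIrrCharacter M (fun m : M => σ m))
    (hβ : IsIrrCharacter G β) (hβM : ∀ m ∈ M, β m = β 1) : IsIrrCharacter G (fun x => β x * σ x) := by
  classical
  haveI : Fintype M := Fintype.ofFinite _
  have h1 : inertia hM (fun _ : M => (1 : ℂ)) = ⊤ := inertia_eq_top_of hM _ (fun _ _ => rfl)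
  have h2 : inertia hM (fun m : M => σ m) = ⊤ := inertia_eq_top_of hM _ (fun g n => by
    show σ _ = σ _
    rw [conjAut_coe]
    exact IsIrr.isClassFunction hσ n g)
  have h3 := gallagher_bij hM (fun _ : M => (1 : ℂ)) (fun m : M => σ m) H5.isIrrCharacter_trivial hσM h1 h2 (by
    have : (fun _ : M => (1 : ℂ)) * (fun m : M => σ m) = fun m : M => σ m := by funext m; simp
    rw [this]; exact hσM) σ hσ (fun _ => rfl)
  have h4 := h3.mapsTo (show β ∈ {β : G → ℂ | IsIrrCharacter G β ∧ classInner (indFun M (fun _ : M => (1 : ℂ))) β ≠ 0} from ⟨hβ, by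
    rw [frobenius_reciprocity M _ _ (IsIrr.isClassFunction hβ)]
    have h5 : (fun m : M => β m) = (charDegree β : ℂ) • (fun _ : M => (1 : ℂ)) := by
      funext m
      rw [Pi.smul_apply, smul_eq_mul, mul_one, ← charDeg_eq (IsIrr.isCharacter hβ)]
      exact hβM m m.2
    rw [h5, H5.classInner_smul_right, (H5.isIrrCharacter_iff_inner.mp (H5.isIrrCharacter_trivial (G := M))).2, mul_one]
    have h6 := IsIrr.degree_pos hβ
    simp only [map_natCast]
    exact_mod_cast h6.ne'⟩)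
  exact h4.1

section rel
variable {Γ : Type u} [Group Γ] [Fintype Γ]

theorem rel_up (G N : Subgroup Γ) [hG : G.Normal] [hN : N.Normal] [Fintype N] (hNG : N ≤ G) (hcop : (G.index).Coprime (N.relIndex G)) (hsolv : Group.IsSolvable (Γ ⧸ G))
    (θ : N → ℂ) (hθ : IsIrrCharacter N θ) (hinv : ∀ (x : Γ) (n : N), θ ⟨x * n * x⁻¹, hN.conj_mem n n.2 x⟩ = θ n) :
    ∃ χ : IrrCharacter G, classInner (rs hNG (χ : G → ℂ)) θ ≠ 0 ∧ ∀ (x : Γ) (g : G), (χ : G → ℂ) ⟨x * g * x⁻¹, hG.conj_mem g g.2 x⟩ = (χ : G → ℂ) g := by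
  classical
  haveI : Fintype G := Fintype.ofFinite _
  obtain ⟨d, τ, hτ, hτθ⟩ := hθ
  have hk := det_pow_card τ
  have hk0 : Nat.card N ≠ 0 := Nat.card_pos.ne'
  set k := Nat.card N with hkdef
  have hinv' : ∀ (g : Γ) (n : N), τ.character (conjAut hN g n) = τ.character n := by
    intro g n
    rw [hτθ]; exact hinv g n
  have hsurj := extG_surjective hN τ k hτ hk0 hinv'
  have hfin := ext_finite hN τ k hτ hk0
  haveI : Fintype (extGrp hN τ k) := Fintype.ofFinite _
  let E := extGrp hN τ k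
  let π : E →* Γ := extG hN τ k
  let σr := extRep hN τ k
  let ε : N →* E := extEmb hN τ k hk
  let M : Subgroup E := ε.range
  have hMn : M.Normal := by
    refine ⟨?_⟩
    rintro _ ⟨n, rfl⟩ x
    rw [extEmb_conj]
    exact ⟨_, rfl⟩
  have hπε : ∀ n : N, π (ε n) = n := fun n => rfl
  have hεinj : Function.Injective ε := by
    intro a b hab
    have := congrArg π hab
    exact Subtype.ext this
  let eM : N ≃* M := MonoidHom.ofInjective hεinj
  have hσ : σr.IsIrreducible := by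
    rw [isIrreducible_iff] at hτ ⊢
    refine ⟨hτ.1, fun U hU => hτ.2 U (fun n v hv => ?_)⟩
    have := hU (ε n) v hv
    exact this
  let σ : E → ℂ := σr.character
  have hσirr : IsIrrCharacter E σ := isIrrCharacter_of_rep σr hσ
  have hσε : ∀ n : N, σ (ε n) = θ n := by
    intro n
    rw [← hτθ]; rfl
  let Z : Subgroup E := π.ker
  have hZc : Z ≤ Subgroup.center E := by
    intro z hz
    rw [Subgroup.mem_center_iff]
    intro g
    obtain ⟨c, hc⟩ := ext_scalar hN τ k hτ z hz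
    apply ext_eq
    · rw [map_mul, map_mul, show extG hN τ k z = 1 from hz, one_mul, mul_one]
    · rw [map_mul, map_mul, hc, smul_mul_assoc, one_mul, mul_smul_comm, mul_one]
  obtain ⟨lam, hlam⟩ := central_lin hZc hσirr
  haveI := hMn
  haveI : Fintype (E ⧸ M) := Fintype.ofFinite _
  let Q := E ⧸ M
  let q : E →* Q := QuotientGroup.mk' M
  have hq : Function.Surjective q := QuotientGroup.mk'_surjective M
  have hqker : q.ker = M := QuotientGroup.ker_mk' M
  set Gh : Subgroup E := G.comap π with hGh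
  have hGhn : Gh.Normal := hG.comap π
  have hMGh : M ≤ Gh := by
    rintro _ ⟨n, rfl⟩
    rw [hGh, Subgroup.mem_comap, hπε]
    exact hNG n.2
  have hZGh : Z ≤ Gh := by
    intro z hz
    rw [hGh, Subgroup.mem_comap, MonoidHom.mem_ker.mp hz]
    exact G.one_mem
  set A : Subgroup Q := Gh.map q with hA
  haveI hAn : A.Normal := hGhn.map q hq
  set ZQ : Subgroup Q := Z.map q with hZQ
  have hZA : ZQ ≤ A := Subgroup.map_mono hZGh
  have hZQc : ZQ ≤ Subgroup.center Q := by
    rintro _ ⟨z, hz, rfl⟩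
    rw [Subgroup.mem_center_iff]
    intro x
    obtain ⟨y, rfl⟩ := hq x
    rw [← map_mul, ← map_mul, Subgroup.mem_center_iff.mp (hZc hz) y]
  have hAcomap : A.comap q = Gh := by
    rw [hA, Subgroup.comap_map_eq, hqker]
    exact sup_of_le_left hMGh
  have hAidx : A.index = G.index := by
    rw [← Subgroup.index_comap_of_surjective A hq, hAcomap, hGh, Subgroup.index_comap_of_surjective G hsurj]
  have hZrel : ZQ.relIndex A = N.relIndex G := by
    have h1 : ZQ.comap q = N.comap π := by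
      rw [hZQ, Subgroup.comap_map_eq, hqker, sup_comm]
      have h2 : N = M.map π := by
        ext x
        constructor
        · intro hx
          exact ⟨ε ⟨x, hx⟩, ⟨⟨x, hx⟩, rfl⟩, rfl⟩
        · rintro ⟨_, ⟨n, rfl⟩, rfl⟩
          exact n.2
      conv_rhs => rw [h2, Subgroup.comap_map_eq]
    calc ZQ.relIndex A = (ZQ.comap q).relIndex Gh := (Subgroup.relIndex_comap ZQ q Gh).symm
      _ = (N.comap π).relIndex Gh := by rw [h1]
      _ = N.relIndex (Gh.map π) := Subgroup.relIndex_comap N π Gh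
      _ = N.relIndex G := by rw [hGh, Subgroup.map_comap_eq_self_of_surjective hsurj]
  have hsolvQ : Group.IsSolvable (Q ⧸ A) := by
    haveI := hsolv
    let f1 : E →* Q ⧸ A := (QuotientGroup.mk' A).comp q
    let f2 : E →* Γ ⧸ G := (QuotientGroup.mk' G).comp π
    have hf1 : Function.Surjective f1 := (QuotientGroup.mk'_surjective A).comp hq
    have hf2 : Function.Surjective f2 := (QuotientGroup.mk'_surjective G).comp hsurj
    have hk12 : f2.ker ≤ f1.ker := by
      intro x hx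
      have h1 : π x ∈ G := (QuotientGroup.eq_one_iff (π x)).mp hx
      have h2 : q x ∈ A := ⟨x, h1, rfl⟩
      exact (QuotientGroup.eq_one_iff (q x)).mpr h2
    let g : Γ ⧸ G →* Q ⧸ A := f2.liftOfSurjective hf2 ⟨f1, hk12⟩
    have hg : ∀ x, g (f2 x) = f1 x := fun x => MonoidHom.liftOfRightInverse_comp_apply f2 _ _ ⟨f1, hk12⟩ x
    refine Group.isSolvable_of_surjective (f := g) ?_
    intro y
    obtain ⟨x, rfl⟩ := hf1 y
    exact ⟨f2 x, hg x⟩
  -- the linear character of ZQ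
  have hZM : ∀ z ∈ Z, z ∈ M → z = 1 := by
    rintro z hz ⟨n, rfl⟩
    have h1 : π (ε n) = 1 := hz
    rw [hπε] at h1
    have : n = 1 := Subtype.ext h1
    rw [this, map_one]
  let fZ : Z →* ZQ := q.subgroupMap Z
  have hfZ : Function.Surjective fZ := q.subgroupMap_surjective Z
  have hfZk : fZ.ker ≤ (lam⁻¹ : Z →* ℂˣ).ker := by
    intro z hz
    have h1 : q z = 1 := congrArg Subtype.val (MonoidHom.mem_ker.mp hz)
    have h2 : (z : E) ∈ M := by rw [← hqker]; exact h1
    have h3 : z = 1 := Subtype.ext (hZM z z.2 h2)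
    rw [h3]; exact Subgroup.one_mem _
  let lamQ : ZQ →* ℂˣ := fZ.liftOfSurjective hfZ ⟨lam⁻¹, hfZk⟩
  have hlamQ : ∀ z : Z, lamQ (fZ z) = (lam z)⁻¹ := fun z => MonoidHom.liftOfRightInverse_comp_apply fZ _ _ ⟨lam⁻¹, hfZk⟩ z
  obtain ⟨β, hβZ, hβinv⟩ := central_up A ZQ hZA hZQc (by rw [hAidx, hZrel]; exact hcop) hsolvQ lamQ
  -- pull back to Gh
  let fA : Gh →* A := q.subgroupMap Gh
  have hfA : Function.Surjective fA := q.subgroupMap_surjective Gh
  have hβh : IsIrrCharacter Gh (fun x => (β : A → ℂ) (fA x)) := IsIrr.comp_surjective fA hfA β.2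
  haveI : Fintype Gh := Fintype.ofFinite _
  have hM' : (M.subgroupOf Gh).Normal := hMn.subgroupOf Gh
  have hσM : IsIrrCharacter (M.subgroupOf Gh) (fun x => σ x) := by
    have h1 : IsIrrCharacter M (fun x : M => σ x) := by
      rw [← IsIrr.comp_equiv_iff eM]
      exact ⟨d, τ, hτ, rfl⟩
    exact toSub_irr hMGh h1
  have hσG : IsIrrCharacter Gh (fun x : Gh => σ x) := by
    -- restriction of an irreducible character whose restriction to a smaller group is irreducible
    have h1 : IsCharacter Gh (fun x : Gh => σ x) := IsChar.restrict Gh (IsIrr.isCharacter hσirr)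
    let σG : Representation ℂ Gh (Fin d → ℂ) := σr.comp Gh.subtype
    have h2 : σG.IsIrreducible := by
      rw [isIrreducible_iff] at hτ ⊢
      refine ⟨hτ.1, fun U hU => hτ.2 U (fun n v hv => ?_)⟩
      have := hU ⟨ε n, hMGh ⟨n, rfl⟩⟩ v hv
      exact this
    exact ⟨d, σG, h2, rfl⟩
  have hψ := irr_mul_of_ker hM' hσG hσM hβh (by
    intro m hm
    have h1 : fA m = 1 := by
      apply Subtype.ext
      show q (m : E) = 1
      have : (m : E) ∈ q.ker := by rw [hqker]; exact Subgroup.mem_subgroupOf.mp hm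
      exact this
    rw [h1, map_one])
  -- descend
  let fG : Gh →* G := (π.comp Gh.subtype).codRestrict G (fun x => x.2)
  have hfG : Function.Surjective fG := by
    intro g
    obtain ⟨x, hx⟩ := hsurj g
    have hx' : π x = g := hx
    exact ⟨⟨x, by rw [hGh, Subgroup.mem_comap, hx']; exact g.2⟩, Subtype.ext hx'⟩
  have hψZ : ∀ (z : Z) (x : Gh), (β : A → ℂ) (fA (⟨z, hZGh z.2⟩ * x)) * σ ((z : E) * x) = (β : A → ℂ) (fA x) * σ x := by
    intro z x
    rw [hlam z, map_mul]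
    have h1 := hβZ (fZ z) (fA x)
    have h2 : (fA ⟨z, hZGh z.2⟩ : A) = ⟨fZ z, hZA (fZ z).2⟩ := rfl
    rw [h2, h1, hlamQ]
    have h0 : (lam z : ℂ) ≠ 0 := Units.ne_zero _
    push_cast
    field_simp
  obtain ⟨χ, hχ, hχψ⟩ := irr_descend fG hfG hψ (by
    intro x hx
    have hxZ : (x : E) ∈ Z := by
      have := congrArg Subtype.val (MonoidHom.mem_ker.mp hx)
      exact this
    have h1 := hψZ ⟨x, hxZ⟩ 1
    rw [mul_one] at h1
    have h2 : ((x : E) * ((1 : Gh) : E)) = (x : E) := by simp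
    rw [h2] at h1
    exact h1)
  refine ⟨⟨χ, hχ⟩, ?_, ?_⟩
  · have hβ1 : (β : A → ℂ) 1 = (charDegree (β : A → ℂ) : ℂ) := charDeg_eq (IsIrr.isCharacter β.2)
    have h1 : rs hNG χ = (charDegree (β : A → ℂ) : ℂ) • θ := by
      funext n
      have h2 := hχψ ⟨ε n, hMGh ⟨n, rfl⟩⟩
      have h3 : fA ⟨ε n, hMGh ⟨n, rfl⟩⟩ = 1 := by
        apply Subtype.ext
        show q (ε n) = 1
        have : ε n ∈ q.ker := by rw [hqker]; exact ⟨n, rfl⟩
        exact this
      rw [h3, hβ1] at h2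
      have h4 : σ ((⟨ε n, hMGh ⟨n, rfl⟩⟩ : Gh) : E) = θ n := hσε n
      rw [h4] at h2
      exact h2.symm
    show classInner (rs hNG χ) θ ≠ 0
    have hθirr : IsIrrCharacter N θ := ⟨d, τ, hτ, hτθ⟩
    rw [h1, H5.classInner_smul_left, inner_irr_eq hθirr hθirr, if_pos rfl, mul_one]
    exact_mod_cast (IsIrr.degree_pos β.2).ne'
  · intro x g
    obtain ⟨xh, hxh⟩ := hsurj x
    obtain ⟨gh, hgh⟩ := hfG g
    have h1 := hχψ ⟨xh * gh * xh⁻¹, hGhn.conj_mem gh gh.2 xh⟩
    have h2 := hχψ gh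
    have h3 : fG ⟨xh * gh * xh⁻¹, hGhn.conj_mem gh gh.2 xh⟩ = ⟨x * g * x⁻¹, hG.conj_mem g g.2 x⟩ := by
      apply Subtype.ext
      show π (xh * gh * xh⁻¹) = x * g * x⁻¹
      rw [map_mul, map_mul, map_inv, show π xh = x from hxh, ← hgh]; rfl
    rw [h3] at h1
    rw [hgh] at h2
    show χ _ = χ g
    rw [← h1, ← h2]
    have h4 := hβinv (q xh) (fA gh)
    have h5 : (fA ⟨xh * gh * xh⁻¹, hGhn.conj_mem gh gh.2 xh⟩ : A) = ⟨q xh * fA gh * (q xh)⁻¹, hAn.conj_mem _ (fA gh).2 (q xh)⟩ := by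
      apply Subtype.ext
      show q (xh * gh * xh⁻¹) = q xh * q gh * (q xh)⁻¹
      rw [map_mul, map_mul, map_inv]
    have h6 : σ (xh * gh * xh⁻¹) = σ gh := IsIrr.isClassFunction hσirr gh xh
    show (β : A → ℂ) (fA ⟨xh * gh * xh⁻¹, hGhn.conj_mem gh gh.2 xh⟩) * σ (xh * gh * xh⁻¹) = (β : A → ℂ) (fA gh) * σ gh
    rw [h5, h4, h6]

end rel

end Cfsg.Agent.H4
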