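import Cfsg.Agent.H4.Glau16

set_option linter.all false
set_option autoImplicit false

/-! Invariant characters in the relative situation. -/

namespace Cfsg.Agent.H4

open Module
open scoped ComplexConjugate Pointwise

universe u v w

section rel
variable {Γ : Type u} [Group Γ] [Fintype Γ]

/-- relative complement -/
theorem rel_complement (G N : Subgroup Γ) [hG : G.Normal] [hN : N.Normal] (hNG : N ≤ G) (hcop : (G.index).Coprime (N.relIndex G)) :
    ∃ S : Subgroup Γ, N ≤ S ∧ S ⊓ G = N ∧ G ⊔ S = ⊤ ∧ N.relIndex S = G.index := by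
  classical
  let q : Γ →* Γ ⧸ N := QuotientGroup.mk' N
  have hq : Function.Surjective q := QuotientGroup.mk'_surjective N
  have hqk : q.ker = N := QuotientGroup.ker_mk' N
  have hGn : (G.map q).Normal := hG.map q hq
  have hcomap : (G.map q).comap q = G := by
    rw [Subgroup.comap_map_eq, hqk]; exact sup_of_le_left hNG
  have hidx : (G.map q).index = G.index := by
    rw [← Subgroup.index_comap_of_surjective (G.map q) hq, hcomap]
  have hbot : N = (⊥ : Subgroup (Γ ⧸ N)).comap q := by rw [MonoidHom.comap_bot]; exact hqk.symm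
  have hcard : Nat.card (G.map q) = N.relIndex G := by
    conv_rhs => rw [hbot]
    rw [Subgroup.relIndex_comap, Subgroup.relIndex_bot_left]
  haveI := hGn
  obtain ⟨K, hK⟩ := Subgroup.exists_right_complement'_of_coprime (N := G.map q) (by rw [hidx, hcard]; exact hcop.symm)
  refine ⟨K.comap q, ?_, ?_, ?_, ?_⟩
  · intro n hn
    rw [Subgroup.mem_comap]
    have : q n = 1 := (QuotientGroup.eq_one_iff n).mpr hn
    rw [this]; exact K.one_mem
  · apply le_antisymm
    · rintro x ⟨h1, h2⟩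
      have h3 : q x ∈ G.map q ⊓ K := ⟨⟨x, h2, rfl⟩, h1⟩
      rw [hK.disjoint.eq_bot, Subgroup.mem_bot] at h3
      exact (QuotientGroup.eq_one_iff x).mp h3
    · intro n hn
      refine ⟨?_, hNG hn⟩
      show q n ∈ K
      have : q n = 1 := (QuotientGroup.eq_one_iff n).mpr hn
      rw [this]; exact K.one_mem
  · rw [Subgroup.eq_top_iff']
    intro x
    have h1 : q x ∈ G.map q ⊔ K := by rw [hK.sup_eq_top]; exact Subgroup.mem_top _
    obtain ⟨_, ⟨g, hg, rfl⟩, k, hk, hgk⟩ := Subgroup.mem_sup_of_normal_left.mp h1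
    have h2 : g⁻¹ * x ∈ K.comap q := by
      rw [Subgroup.mem_comap, map_mul, map_inv, ← hgk, inv_mul_cancel_left]
      exact hk
    have h3 : x = g * (g⁻¹ * x) := by group
    rw [h3]
    exact Subgroup.mul_mem _ ((le_sup_left : G ≤ _) hg) ((le_sup_right : K.comap q ≤ G ⊔ K.comap q) h2)
  · have h0 : N.relIndex (K.comap q) = ((⊥ : Subgroup (Γ ⧸ N)).comap q).relIndex (K.comap q) := congrArg (fun X : Subgroup Γ => X.relIndex (K.comap q)) hbot
    rw [h0, Subgroup.relIndex_comap, Subgroup.map_comap_eq_self_of_surjective hq, Subgroup.relIndex_bot_left]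
    have h1 := hK.card_mul
    have h2 := (G.map q).card_mul_index
    have h3 : Nat.card K = (G.map q).index := Nat.eq_of_mul_eq_mul_left Nat.card_pos (h1.trans h2.symm)
    rw [h3, hidx]

theorem rel_up_solv (G N : Subgroup Γ) [hG : G.Normal] [hN : N.Normal] [Fintype N] (hNG : N ≤ G) (hcop : (G.index).Coprime (N.relIndex G)) (hsolv : Group.IsSolvable (G ⧸ N.subgroupOf G))
    (θ : N → ℂ) (hθ : IsIrrCharacter N θ) (hinv : ∀ (x : Γ) (n : N), θ ⟨x * n * x⁻¹, hN.conj_mem n n.2 x⟩ = θ n) :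
    ∃ χ : IrrCharacter G, classInner (rs hNG (χ : G → ℂ)) θ ≠ 0 ∧ ∀ (x : Γ) (g : G), (χ : G → ℂ) ⟨x * g * x⁻¹, hG.conj_mem g g.2 x⟩ = (χ : G → ℂ) g := by
  classical
  obtain ⟨S, hNS, hSG, hsup, hidx⟩ := rel_complement G N hNG hcop
  obtain ⟨χ, h1, h2⟩ := up_solvable (S := S) (N := N) (fun s _ n hn => hN.conj_mem n hn s) (Nat.card G) G hNG le_rfl (fun s _ g hg => hG.conj_mem g hg s)
    (by rw [inf_of_le_right hNS, hidx]; exact hcop.symm) hSG.le hsolv θ hθ (by
      intro s hs g g' hg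
      rw [← hinv s g]
      exact congrArg θ (Subtype.ext hg))
  refine ⟨χ, h1, ?_⟩
  intro x g
  have hx : x ∈ G ⊔ S := by rw [hsup]; exact Subgroup.mem_top x
  obtain ⟨k, hk, s, hs, rfl⟩ := Subgroup.mem_sup_of_normal_left.mp hx
  have h3 : s * g * s⁻¹ ∈ G := hG.conj_mem g g.2 s
  rw [← h2 s hs g ⟨s * g * s⁻¹, h3⟩ rfl, ← IsIrr.isClassFunction χ.2 ⟨s * g * s⁻¹, h3⟩ ⟨k, hk⟩]
  refine congrArg (χ : G → ℂ) (Subtype.ext ?_)
  show k * s * g * (k * s)⁻¹ = k * (s * g * s⁻¹) * k⁻¹
  group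

end rel

end Cfsg.Agent.H4
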