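import Cfsg.Agent.H6.Fus3
import Cfsg.Agent.H6.Control3

set_option linter.all false
set_option autoImplicit false

open Cfsg Subgroup
open scoped commutatorElement

namespace Cfsg.Agent.H4
open Cfsg.Agent.H6
universe u
variable {G : Type u} [Group G] [Finite G] {p : ℕ} [hp : Fact p.Prime]

theorem grun (P : Sylow p G) : (P : Subgroup G) ⊓ commutator G = ((P : Subgroup G) ⊓ ⁅Subgroup.normalizer ((P : Subgroup G) : Set G), Subgroup.normalizer ((P : Subgroup G) : Set G)⁆) ⊔
    ⨆ z : G, (P : Subgroup G) ⊓ (⁅(P : Subgroup G), (P : Subgroup G)⁆).map (MulAut.conj z).toMonoidHom := by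
  classical
  set K := ((P : Subgroup G) ⊓ ⁅Subgroup.normalizer ((P : Subgroup G) : Set G), Subgroup.normalizer ((P : Subgroup G) : Set G)⁆) ⊔
    ⨆ z : G, (P : Subgroup G) ⊓ (⁅(P : Subgroup G), (P : Subgroup G)⁆).map (MulAut.conj z).toMonoidHom with hK
  apply le_antisymm
  · apply H6.focal_le P
    intro a g ha hga
    have key := H6.alperin_ind P (fun A g => ∀ a ∈ A, a⁻¹ * (g⁻¹ * a * g) ∈ K)
      (fun A a _ => by simp)
      (fun A B g hBA h a ha => h a (hBA ha))
      (by
        intro A g h h1 h2 a ha
        have e1 := h1 a ha
        have e2 := h2 (g⁻¹ * a * g) ⟨a, ha, rfl⟩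
        have e : a⁻¹ * ((g * h)⁻¹ * a * (g * h)) = (a⁻¹ * (g⁻¹ * a * g)) * ((g⁻¹ * a * g)⁻¹ * (h⁻¹ * (g⁻¹ * a * g) * h)) := by group
        rw [e]
        exact K.mul_mem e1 e2)
      (by
        intro D hDP hfn hIH g hg a haD
        have hcm : ∀ x y : G, x⁻¹ * (y⁻¹ * x * y) = ⁅x⁻¹, y⁻¹⁆ := by
          intro x y; rw [commutatorElement_def]; group
        by_cases hD : D = P
        · subst hD
          refine Subgroup.mem_sup_left ?_
          have h1 : g⁻¹ * a * g ∈ (P : Subgroup G) := by
            have := (Subgroup.mem_normalizer_iff.mp (Subgroup.inv_mem _ hg) a).mp haD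
            simpa using this
          refine ⟨(P : Subgroup G).mul_mem ((P : Subgroup G).inv_mem haD) h1, ?_⟩
          rw [hcm]
          exact Subgroup.commutator_mem_commutator (Subgroup.inv_mem _ (Subgroup.le_normalizer haD)) (Subgroup.inv_mem _ hg)
        · set N := normalizer (D : Set G) with hN
          set R := (P : Subgroup G) ⊓ N with hR
          have hDR : D ≤ R := le_inf hDP le_normalizer
          have hlt : Nat.card D < Nat.card R := by
            have h1 : D < R := by
              have hnil := P.isPGroup'.isNilpotent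
              have h2 := Group.normalizerCondition_of_isNilpotent (G := (P : Subgroup G)) (D.subgroupOf P) (lt_top_iff_ne_top.mpr (fun h => hD (le_antisymm hDP (Subgroup.subgroupOf_eq_top.mp h))))
              obtain ⟨x, hx, hx'⟩ := SetLike.exists_of_lt h2
              refine lt_of_le_of_ne hDR ?_
              intro h3
              apply hx'
              rw [Subgroup.mem_subgroupOf, h3]
              refine ⟨x.2, ?_⟩
              apply Subgroup.mem_normalizer_fintype
              intro d hd
              have := (Subgroup.mem_normalizer_iff.mp hx ⟨d, hDP hd⟩).mp (Subgroup.mem_subgroupOf.mpr hd)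
              exact Subgroup.mem_subgroupOf.mp this
            rcases (Subgroup.card_le_of_le hDR).lt_or_eq with h | h
            · exact h
            · exact absurd (Subgroup.eq_of_le_of_card_ge hDR h.ge) h1.ne
          have hRN : R ≤ N := inf_le_right
          set s : Set G := {x | ∃ z ∈ N, ∃ r ∈ R, x = z * r * z⁻¹} with hs
          set M := Subgroup.closure s with hM
          have hRM : R ≤ M := fun r hr => Subgroup.subset_closure ⟨1, N.one_mem, r, hr, by group⟩
          have hMN : M ≤ N := by
            rw [hM, Subgroup.closure_le]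
            rintro _ ⟨z, hz, r, hr, rfl⟩
            exact N.mul_mem (N.mul_mem hz (hRN hr)) (N.inv_mem hz)
          have hsyl : ∀ z ∈ N, SylIn p (cj z R) M := by
            intro z hz
            have h1 : SylIn p (cj z R) (cj z N) := SylIn.cj hfn z
            have h2 : cj z N = N := mem_norm.mp (le_normalizer hz)
            rw [h2] at h1
            refine h1.of_le ?_ hMN
            intro x hx
            rw [mem_cj] at hx
            exact Subgroup.subset_closure ⟨z, hz, _, hx, by group⟩
          obtain ⟨k, hk, hk2⟩ := (hsyl g hg).conj (by have := hsyl 1 N.one_mem; rwa [cj_one] at this : SylIn p R M)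
          have hkn : k * g ∈ normalizer (R : Set G) := by
            rw [mem_norm, cj_mul, hk2]
          have hMpart : ∀ m ∈ M, ∀ a ∈ D, a⁻¹ * (m⁻¹ * a * m) ∈ K := by
            intro m hm
            induction hm using Subgroup.closure_induction with
            | mem x hx =>
              obtain ⟨z, hz, r, hr, rfl⟩ := hx
              intro a ha
              refine Subgroup.mem_sup_right ?_
              refine Subgroup.mem_iSup_of_mem z ?_
              have ha' : z⁻¹ * a * z ∈ D := by
                have := (Subgroup.mem_normalizer_iff.mp (Subgroup.inv_mem _ hz) a).mp ha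
                simpa using this
              refine ⟨?_, ?_⟩
              · have hx : z * r * z⁻¹ ∈ N := N.mul_mem (N.mul_mem hz (hRN hr)) (N.inv_mem hz)
                have h1 : (z * r * z⁻¹)⁻¹ * a * (z * r * z⁻¹) ∈ D := by
                  have := (Subgroup.mem_normalizer_iff.mp (Subgroup.inv_mem _ hx) a).mp ha
                  simpa using this
                exact hDP (D.mul_mem (D.inv_mem ha) h1)
              · refine ⟨⁅(z⁻¹ * a * z)⁻¹, r⁻¹⁆, Subgroup.commutator_mem_commutator (Subgroup.inv_mem _ (hDP ha')) (Subgroup.inv_mem _ hr.1), ?_⟩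
                simp only [MulEquiv.toMonoidHom_eq_coe, MonoidHom.coe_coe, MulAut.conj_apply, commutatorElement_def]
                group
            | one => intro a _; simp
            | mul x y hx hy ihx ihy =>
              intro a ha
              have hxN := hMN hx
              have ha' : x⁻¹ * a * x ∈ D := by
                have := (Subgroup.mem_normalizer_iff.mp (Subgroup.inv_mem _ hxN) a).mp ha
                simpa using this
              have e : a⁻¹ * ((x * y)⁻¹ * a * (x * y)) = (a⁻¹ * (x⁻¹ * a * x)) * ((x⁻¹ * a * x)⁻¹ * (y⁻¹ * (x⁻¹ * a * x) * y)) := by group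
              rw [e]
              exact K.mul_mem (ihx a ha) (ihy _ ha')
            | inv x hx ihx =>
              intro a ha
              have hxN := hMN hx
              have ha' : x * a * x⁻¹ ∈ D := (Subgroup.mem_normalizer_iff.mp hxN a).mp ha
              have := ihx _ ha'
              have e : a⁻¹ * (x⁻¹⁻¹ * a * x⁻¹) = ((x * a * x⁻¹)⁻¹ * (x⁻¹ * (x * a * x⁻¹) * x))⁻¹ := by group
              rw [e]
              exact K.inv_mem this
          have e1 := hMpart k⁻¹ (M.inv_mem hk) a haD
          have hb : k⁻¹⁻¹ * a * k⁻¹ ∈ D := by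
            have := (Subgroup.mem_normalizer_iff.mp (hMN hk) a).mp haD
            simpa using this
          have e2 := hIH R inf_le_left hlt (k * g) (by
            rintro _ ⟨x, hx, rfl⟩
            have := (Subgroup.mem_normalizer_iff.mp (Subgroup.inv_mem _ hkn) x).mp hx
            simp only [inv_inv] at this
            exact this.1) _ (hDR hb)
          have e : a⁻¹ * (g⁻¹ * a * g) = (a⁻¹ * (k⁻¹⁻¹ * a * k⁻¹)) * ((k⁻¹⁻¹ * a * k⁻¹)⁻¹ * ((k * g)⁻¹ * (k⁻¹⁻¹ * a * k⁻¹) * (k * g))) := by group
          rw [e]
          exact K.mul_mem e1 e2) {a} g (by rintro _ rfl; exact ha) (by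
        rintro _ ⟨b, hb, rfl⟩
        rw [Set.mem_singleton_iff] at hb
        subst hb; exact hga)
    exact key a rfl
  · rw [hK]
    refine sup_le ?_ (iSup_le fun z => ?_)
    · exact inf_le_inf_left _ (Subgroup.commutator_mono le_top le_top)
    · refine inf_le_inf_left _ ?_
      rw [Subgroup.map_commutator]
      exact Subgroup.commutator_mono le_top le_top

end Cfsg.Agent.H4
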