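import Cfsg.Agent.H3.NilHall

set_option linter.all false
set_option autoImplicit false

namespace Cfsg.Agent.H4
open scoped Pointwise
universe u

theorem hall_burnside {G : Type u} [Group G] [Finite G] (H : Subgroup G) (hHall : Nat.Coprime (Nat.card H) H.index)
    (h : Subgroup.normalizer (H : Set G) ≤ Subgroup.centralizer (H : Set G)) : ∃ N : Subgroup G, N.Normal ∧ N.IsComplement' H := by
  classical
  have hab : ∀ a ∈ H, ∀ b ∈ H, a * b = b * a := by
    intro a ha b hb
    have := h (Subgroup.le_normalizer hb)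
    rw [Subgroup.mem_centralizer_iff] at this
    exact this a ha
  letI : CommGroup H := { (inferInstance : Group H) with mul_comm := fun a b => Subtype.ext (hab a a.2 b b.2) }
  have hfus : ∀ x ∈ H, ∀ g : G, g⁻¹ * x * g ∈ H → g⁻¹ * x * g = x := by
    intro x hx g hg
    set C := Subgroup.centralizer ({x} : Set G) with hC
    have hHC : H ≤ C := by
      intro b hb
      rw [hC, Subgroup.mem_centralizer_singleton_iff]
      exact hab b hb x hx
    have hHC' : MulAut.conj g • H ≤ C := by
      rintro _ ⟨b, hb, rfl⟩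
      rw [hC, Subgroup.mem_centralizer_singleton_iff]
      show g * b * g⁻¹ * x = x * (g * b * g⁻¹)
      have := hab b hb _ hg
      have h2 := congrArg (fun t => g * t * g⁻¹) this
      simp only [mul_assoc, mul_inv_cancel_left, inv_mul_cancel_left, mul_inv_cancel, mul_one] at h2 ⊢
      exact h2
    have hcC : Nat.card (H.subgroupOf C) = Nat.card H := Nat.card_congr (Subgroup.subgroupOfEquivOfLe hHC).toEquiv
    have hcC' : Nat.card ((MulAut.conj g • H).subgroupOf C) = Nat.card H := by
      rw [Nat.card_congr (Subgroup.subgroupOfEquivOfLe hHC').toEquiv]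
      exact Nat.card_congr (Subgroup.equivSMul (MulAut.conj g) H).symm.toEquiv
    have hnil : Group.IsNilpotent (H.subgroupOf C) := by
      exact @CommGroup.isNilpotent _ { (inferInstance : Group (H.subgroupOf C)) with mul_comm := fun a b => Subtype.ext (Subtype.ext (hab _ a.2 _ b.2)) }
    have hidx : (H.subgroupOf C).index ∣ H.index := by
      have : H.relIndex C ∣ H.index := by
        rw [← Subgroup.relIndex_mul_index hHC]; exact dvd_mul_right _ _
      exact this
    obtain ⟨c, hc⟩ := H3.wielandt_hall (H := H.subgroupOf C) (K := (MulAut.conj g • H).subgroupOf C) hnil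
      (by rw [hcC]; exact hHall.coprime_dvd_right hidx) (by intro p _ hp; rw [hcC]; rw [hcC'] at hp; exact hp)
    have hle : MulAut.conj g • H ≤ MulAut.conj (c : G) • H := by
      intro y hy
      have h1 : (⟨y, hHC' hy⟩ : C) ∈ MulAut.conj c • H.subgroupOf C := hc (Subgroup.mem_subgroupOf.mpr hy)
      rw [L0.mem_conj_smul, Subgroup.mem_subgroupOf] at h1
      rw [L0.mem_conj_smul]
      exact h1
    have heq : MulAut.conj g • H = MulAut.conj (c : G) • H := by
      apply Subgroup.eq_of_le_of_card_ge hle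
      rw [Nat.card_congr (Subgroup.equivSMul (MulAut.conj g) H).symm.toEquiv, Nat.card_congr (Subgroup.equivSMul (MulAut.conj (c : G)) H).symm.toEquiv]
    have hn : (c : G)⁻¹ * g ∈ Subgroup.normalizer (H : Set G) := by
      apply Subgroup.mem_normalizer_fintype
      intro b hb
      have h1 : g * b * g⁻¹ ∈ MulAut.conj g • H := ⟨b, hb, rfl⟩
      rw [heq, L0.mem_conj_smul] at h1
      rw [show (c : G)⁻¹ * g * b * ((c : G)⁻¹ * g)⁻¹ = (c : G)⁻¹ * (g * b * g⁻¹) * c by group]
      exact h1
    have hn' := h hn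
    rw [Subgroup.mem_centralizer_iff] at hn'
    have h3 := hn' _ hg
    have h4 : (c : G) * x = x * c := Subgroup.mem_centralizer_singleton_iff.mp c.2
    -- (g⁻¹ x g) (c⁻¹ g) = c⁻¹ g (g⁻¹ x g) = c⁻¹ x g = x c⁻¹ g
    have h5 : (c : G)⁻¹ * x = x * (c : G)⁻¹ := by
      rw [inv_mul_eq_iff_eq_mul, ← mul_assoc, h4, mul_assoc, mul_inv_cancel, mul_one]
    have h6 : (c : G)⁻¹ * g * (g⁻¹ * x * g) = x * ((c : G)⁻¹ * g) := by
      rw [show (c : G)⁻¹ * g * (g⁻¹ * x * g) = ((c : G)⁻¹ * x) * g by group, h5]; group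
    rw [h6] at h3
    exact mul_right_cancel h3
  have key : ∀ x ∈ H, ∀ (k : ℕ) (g₀ : G), g₀⁻¹ * x ^ k * g₀ ∈ H → g₀⁻¹ * x ^ k * g₀ = x ^ k :=
    fun x hx k g₀ hg => hfus _ (H.pow_mem hx k) g₀ hg
  set T := MonoidHom.transfer (MonoidHom.id H) with hT
  have hTx : ∀ x : H, T (x : G) = x ^ H.index := by
    intro x
    rw [hT, MonoidHom.transfer_eq_pow (MonoidHom.id H) (x : G) (key x x.2)]
    rfl
  have hinj : ∀ x : H, T (x : G) = 1 → x = 1 := by
    intro x hx
    rw [hTx] at hx
    have h1 := orderOf_dvd_of_pow_eq_one hx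
    have h2 : orderOf x ∣ Nat.card H := orderOf_dvd_natCard x
    exact orderOf_eq_one_iff.mp (Nat.eq_one_of_dvd_coprimes hHall h2 h1)
  have hrange : T.range = ⊤ := by
    have hi : Function.Injective (fun x : H => T (x : G)) := by
      intro x y hxy
      simp only at hxy
      have : T ((x * y⁻¹ : H) : G) = 1 := by
        rw [Subgroup.coe_mul, map_mul, hxy, Subgroup.coe_inv, map_inv, mul_inv_cancel]
      exact mul_inv_eq_one.mp (hinj _ this)
    have hs := Finite.surjective_of_injective hi
    rw [MonoidHom.range_eq_top]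
    intro y
    obtain ⟨x, hx⟩ := hs y
    exact ⟨x, hx⟩
  refine ⟨T.ker, inferInstance, ?_⟩
  apply Subgroup.isComplement'_of_card_mul_and_disjoint
  · have h1 : T.ker.index = Nat.card H := by
      rw [Subgroup.index_ker, hrange]
      exact Nat.card_congr Subgroup.topEquiv.toEquiv
    rw [← h1]
    exact T.ker.card_mul_index
  · rw [Subgroup.disjoint_def]
    intro x hx1 hx2
    have := hinj ⟨x, hx2⟩ (MonoidHom.mem_ker.mp hx1)
    exact congrArg Subtype.val this

end Cfsg.Agent.H4
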