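import Cfsg.Agent.H4.Burnside
import Cfsg.Agent.H1.Prod

/-! # Hall's converse: Sylow complements for all primes imply solvability -/

namespace Cfsg.Agent.H4
open Subgroup
universe u

theorem compl_inherit {G : Type u} [Group G] [Finite G]
    (h : ∀ p : ℕ, p.Prime → ∃ H : Subgroup G, H.index = p ^ (Nat.card G).factorization p)
    {p : ℕ} (hp : p.Prime) {H : Subgroup G} (hH : H.index = p ^ (Nat.card G).factorization p) :
    ∀ s : ℕ, s.Prime → ∃ K : Subgroup H, K.index = s ^ (Nat.card H).factorization s := by
  intro s hs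
  have hcard : Nat.card H * p ^ (Nat.card G).factorization p = Nat.card G := by
    rw [← hH]; exact H.card_mul_index
  have hH0 : Nat.card H ≠ 0 := Nat.card_pos.ne'
  have hp0 : p ^ (Nat.card G).factorization p ≠ 0 := (pow_pos hp.pos _).ne'
  have hf : ∀ t : ℕ, (Nat.card G).factorization t
      = (Nat.card H).factorization t + (p ^ (Nat.card G).factorization p).factorization t := by
    intro t
    have := Nat.factorization_mul hH0 hp0
    rw [hcard] at this
    exact DFunLike.congr_fun this t
  by_cases hsp : s = p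
  · subst hsp
    refine ⟨⊤, ?_⟩
    have := hf s
    rw [hp.factorization_pow] at this
    simp only [Finsupp.single_eq_same] at this
    have h0 : (Nat.card H).factorization s = 0 := by omega
    rw [h0]; simp
  · obtain ⟨K, hK⟩ := h s hs
    refine ⟨K.subgroupOf H, ?_⟩
    have hc : H.index.Coprime K.index := by
      rw [hH, hK]
      exact Nat.Coprime.pow _ _ ((Nat.coprime_primes hp hs).2 (Ne.symm hsp))
    have := (H1.index_inf_of_coprime hc).2.1
    change K.relIndex H = _
    rw [this, hK]
    have h2 := hf s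
    rw [hp.factorization_pow, Finsupp.single_eq_of_ne (by first | exact hsp | exact Ne.symm hsp)] at h2
    rw [h2]; simp

theorem hall_converse_aux (n : ℕ) : ∀ (G : Type u) [Group G] [Finite G], Nat.card G = n →
    (∀ p : ℕ, p.Prime → ∃ H : Subgroup G, H.index = p ^ (Nat.card G).factorization p) →
    Group.IsSolvable G := by
  induction n using Nat.strong_induction_on with
  | _ n ih =>
  intro G _ _ hn h
  have hG0 : Nat.card G ≠ 0 := Nat.card_pos.ne'
  by_cases h1 : Nat.card G = 1
  · exact burnside_paqb_aux (Nat.card G) G 2 2 0 0 Nat.prime_two Nat.prime_two (by simpa using h1) rfl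
  set p := (Nat.card G).minFac with hpdef
  have hp : p.Prime := Nat.minFac_prime h1
  have hpG : p ∣ Nat.card G := Nat.minFac_dvd _
  have e1 : p ^ (Nat.card G).factorization p * (Nat.card G / p ^ (Nat.card G).factorization p) = Nat.card G :=
    Nat.ordProj_mul_ordCompl_eq_self _ _
  set m := Nat.card G / p ^ (Nat.card G).factorization p with hm
  by_cases hm1 : m = 1
  · exact burnside_paqb_aux (Nat.card G) G p 2 ((Nat.card G).factorization p) 0 hp Nat.prime_two (by rw [hm1] at e1; rw [pow_zero]; exact e1.symm) rfl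
  set q := m.minFac with hqdef
  have hq : q.Prime := Nat.minFac_prime hm1
  have hqm : q ∣ m := Nat.minFac_dvd _
  have hm0 : m ≠ 0 := by intro h0; rw [h0, mul_zero] at e1; exact hG0 e1.symm
  have hmG : m ∣ Nat.card G := ⟨_, (by rw [mul_comm]; exact e1.symm)⟩
  have hpm : ¬ p ∣ m := Nat.not_dvd_ordCompl hp hG0
  have e2 : q ^ m.factorization q * (m / q ^ m.factorization q) = m :=
    Nat.ordProj_mul_ordCompl_eq_self _ _
  set k := m / q ^ m.factorization q with hk
  by_cases hk1 : k = 1
  · refine burnside_paqb_aux (Nat.card G) G p q ((Nat.card G).factorization p) (m.factorization q) hp hq ?_ rfl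
    rw [hk1, mul_one] at e2
    rw [e2]; exact e1.symm
  set r := k.minFac with hrdef
  have hr : r.Prime := Nat.minFac_prime hk1
  have hrk : r ∣ k := Nat.minFac_dvd _
  have hkm : k ∣ m := ⟨_, (by rw [mul_comm]; exact e2.symm)⟩
  have hqk : ¬ q ∣ k := Nat.not_dvd_ordCompl hq hm0
  have hpq : p ≠ q := fun e => hpm (e ▸ hqm)
  have hpr : p ≠ r := fun e => hpm (e ▸ (hrk.trans hkm))
  have hqr : q ≠ r := fun e => hqk (e ▸ hrk)
  have key : ∀ s : ℕ, s.Prime → s ∣ Nat.card G → ∀ H : Subgroup G,
      H.index = s ^ (Nat.card G).factorization s → Group.IsSolvable H := by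
    intro s hs hsG H hH
    refine ih (Nat.card H) ?_ H rfl (compl_inherit h hs hH)
    rw [← hn]
    have hc := H.card_mul_index
    rw [hH] at hc
    have hpos : 0 < (Nat.card G).factorization s := hs.factorization_pos_of_dvd hG0 hsG
    have h1s : 1 < s ^ (Nat.card G).factorization s := Nat.one_lt_pow hpos.ne' hs.one_lt
    have hHpos : 0 < Nat.card H := Nat.card_pos
    calc Nat.card H = Nat.card H * 1 := (mul_one _).symm
      _ < Nat.card H * s ^ (Nat.card G).factorization s := Nat.mul_lt_mul_of_pos_left h1s hHpos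
      _ = Nat.card G := hc
  obtain ⟨A, hA⟩ := h p hp
  obtain ⟨B, hB⟩ := h q hq
  obtain ⟨C, hC⟩ := h r hr
  have cop : ∀ {s t : ℕ} (_ : s.Prime) (_ : t.Prime) (_ : s ≠ t) {X Y : Subgroup G}
      (_ : X.index = s ^ (Nat.card G).factorization s) (_ : Y.index = t ^ (Nat.card G).factorization t),
      X.index.Coprime Y.index := by
    intro s t hs ht hst X Y hX hY
    rw [hX, hY]
    exact Nat.Coprime.pow _ _ ((Nat.coprime_primes hs ht).2 hst)
  exact H1.solvable_of_three_aux (Nat.card G) G rfl A B C (key p hp hpG A hA)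
    (key q hq (hqm.trans hmG) B hB) (key r hr ((hrk.trans hkm).trans hmG) C hC)
    (H1.factor_of_coprime (cop hp hq hpq hA hB)) (H1.factor_of_coprime (cop hp hr hpr hA hC))
    (cop hq hr hqr hB hC)

end Cfsg.Agent.H4
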