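import Cfsg.Agent.H1.Class2
import Cfsg.Agent.H6.EngelExt

set_option linter.all false
set_option autoImplicit false

namespace Cfsg.Agent.H4
open scoped commutatorElement
universe u
variable {G : Type u} [Group G] [Finite G]

/-- `[A,G] ≤ M` when `|A : M| ≤ p` -/
theorem comm_le_of_index_le {p : ℕ} [hp : Fact p.Prime] (hG : IsPGroup p G) {A M : Subgroup G} (hA : A.Normal) (hM : M.Normal) (hMA : M ≤ A)
    (h : Nat.card A ≤ Nat.card M * p) : ⁅A, (⊤ : Subgroup G)⁆ ≤ M := by
  classical
  haveI := hG.isNilpotent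
  by_contra hcon
  -- `⁅A,⊤⁆ ⊔ M` lies strictly between
  have h1 : ⁅A, (⊤ : Subgroup G)⁆ ≤ A := by
    rw [Subgroup.commutator_le]
    intro a ha g _
    rw [commutatorElement_def, mul_assoc, mul_assoc]
    exact A.mul_mem ha (by rw [← mul_assoc]; exact hA.conj_mem _ (A.inv_mem ha) g)
  have hlt : M < M ⊔ ⁅A, (⊤ : Subgroup G)⁆ := by
    refine lt_of_le_of_ne le_sup_left ?_
    intro h2
    exact hcon (h2 ▸ le_sup_right)
  have hle : M ⊔ ⁅A, (⊤ : Subgroup G)⁆ ≤ A := sup_le hMA h1
  have hcard : M ⊔ ⁅A, (⊤ : Subgroup G)⁆ = A := by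
    apply Subgroup.eq_of_le_of_card_ge hle
    obtain ⟨a, ha⟩ := IsPGroup.iff_card.mp (hG.to_subgroup M)
    obtain ⟨b, hb⟩ := IsPGroup.iff_card.mp (hG.to_subgroup (M ⊔ ⁅A, (⊤ : Subgroup G)⁆))
    have h3 : Nat.card M < Nat.card ↥(M ⊔ ⁅A, (⊤ : Subgroup G)⁆) := by
      rcases (Subgroup.card_le_of_le hlt.le).lt_or_eq with h | h
      · exact h
      · exact absurd (Subgroup.eq_of_le_of_card_ge hlt.le h.ge) hlt.ne
    rw [ha, hb] at h3
    have h4 := (Nat.pow_lt_pow_iff_right hp.out.one_lt).mp h3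
    refine h.trans ?_
    rw [ha, hb, ← pow_succ]
    exact Nat.pow_le_pow_right hp.out.pos h4
  -- in the quotient `[Ā, Ḡ] = Ā`
  set π := QuotientGroup.mk' M with hπ
  haveI hAb : (A.map π).Normal := hA.map π (QuotientGroup.mk'_surjective M)
  have hAb1 : A.map π ≠ ⊥ := by
    intro h2
    rw [Subgroup.map_eq_bot_iff, hπ, QuotientGroup.ker_mk'] at h2
    exact hcon (h1.trans h2)
  have h5 : ⁅A.map π, (⊤ : Subgroup (G ⧸ M))⁆ = A.map π := by
    have h6 : (⊤ : Subgroup (G ⧸ M)) = (⊤ : Subgroup G).map π := by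
      rw [← MonoidHom.range_eq_map, QuotientGroup.range_mk']
    rw [h6, ← Subgroup.map_commutator]
    conv_rhs => rw [← hcard]
    rw [Subgroup.map_sup, show M.map π = ⊥ from by rw [Subgroup.map_eq_bot_iff, hπ, QuotientGroup.ker_mk'], bot_sup_eq]
  haveI : Group.IsNilpotent (G ⧸ M) := inferInstance
  obtain ⟨n, hn⟩ := nilpotent_iff_lowerCentralSeries.mp this
  have h7 : ∀ k, A.map π ≤ (⊤ : Subgroup (G ⧸ M)).lowerCentralSeries k := by
    intro k
    induction k with
    | zero => exact le_top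
    | succ k ih =>
      rw [← h5, Subgroup.lowerCentralSeries_succ]
      exact Subgroup.commutator_mono ih le_rfl
  have h8 := h7 n
  rw [hn, le_bot_iff] at h8
  exact hAb1 h8

theorem comm_lcs_le {p : ℕ} [hp : Fact p.Prime] (hG : IsPGroup p G) (m : ℕ) : ∀ (A M : Subgroup G), A.Normal → M.Normal → M ≤ A →
    Nat.card A ≤ Nat.card M * p ^ (m + 1) → ⁅A, (⊤ : Subgroup G).lowerCentralSeries m⁆ ≤ M := by
  classical
  induction m with
  | zero =>
    intro A M hA hM hMA h
    rw [Subgroup.lowerCentralSeries_zero]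
    exact comm_le_of_index_le hG hA hM hMA (by simpa using h)
  | succ m ih =>
    intro A M hA hM hMA h
    by_cases hsm : Nat.card A ≤ Nat.card M * p ^ (m + 1)
    · refine le_trans (Subgroup.commutator_mono le_rfl ?_) (ih A M hA hM hMA hsm)
      exact (⊤ : Subgroup G).lowerCentralSeries_antitone (Nat.le_succ m)
    · haveI := hA
      haveI := hM
      obtain ⟨a, ha⟩ := IsPGroup.iff_card.mp (hG.to_subgroup A)
      obtain ⟨b, hb⟩ := IsPGroup.iff_card.mp (hG.to_subgroup M)
      have hab : a = b + (m + 2) := by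
        rw [ha, hb, ← pow_add] at h hsm
        have h1 := (Nat.pow_le_pow_iff_right hp.out.one_lt).mp h
        have h2 : ¬ a ≤ b + (m + 1) := fun h3 => hsm (Nat.pow_le_pow_right hp.out.pos h3)
        omega
      obtain ⟨M', hM'n, hMM', hM'A, hM'⟩ := H1.exists_normal_between hG M A hMA hb ha (k := b + 1) (by omega) (by omega)
      obtain ⟨A', hA'n, hMA', hA'A, hA'⟩ := H1.exists_normal_between hG M A hMA hb ha (k := b + (m + 1)) (by omega) (by omega)
      have e1 : ⁅A, (⊤ : Subgroup G).lowerCentralSeries m⁆ ≤ M' := by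
        apply ih A M' hA hM'n hM'A
        rw [ha, hM', ← pow_add, hab]
        exact Nat.pow_le_pow_right hp.out.pos (by omega)
      have e2 : ⁅M', (⊤ : Subgroup G)⁆ ≤ M := by
        apply comm_le_of_index_le hG hM'n hM hMM'
        rw [hM', hb, pow_succ]
      have e3 : ⁅A, (⊤ : Subgroup G)⁆ ≤ A' := by
        apply comm_le_of_index_le hG hA hA'n hA'A
        rw [ha, hA', ← pow_succ, hab]
        exact Nat.pow_le_pow_right hp.out.pos (by omega)
      have e4 : ⁅A', (⊤ : Subgroup G).lowerCentralSeries m⁆ ≤ M := by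
        apply ih A' M hA'n hM hMA'
        rw [hA', hb, ← pow_add]
      rw [Subgroup.lowerCentralSeries_succ, Subgroup.commutator_comm]
      have hMt : ∀ K : Subgroup G, K ≤ Subgroup.normalizer (M : Set G) := fun K => by
        rw [Subgroup.normalizer_eq_top]; exact le_top
      refine H6.three_subgroups_mod (hMt _) (hMt _) (hMt _) ?_ ?_
      · rw [Subgroup.commutator_comm ⊤ A]
        exact (Subgroup.commutator_mono e3 le_rfl).trans e4
      · exact (Subgroup.commutator_mono e1 le_rfl).trans e2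

theorem hall_lcs {p : ℕ} [hp : Fact p.Prime] (hG : IsPGroup p G) (n : ℕ) (hn : 1 ≤ n) (N : Subgroup G) [hNn : N.Normal]
    (hN : N ≤ (⊤ : Subgroup G).lowerCentralSeries (n - 1)) (i : ℕ) (hi : 1 < i) (hne : N.lowerCentralSeries i ≠ ⊥) :
    p ^ n ≤ (N.lowerCentralSeries i).relIndex (N.lowerCentralSeries (i - 1)) := by
  classical
  have hnorm : ∀ j, (N.lowerCentralSeries j).Normal := by
    intro j
    induction j with
    | zero => exact hNn
    | succ j ih =>
      haveI := ih
      rw [Subgroup.lowerCentralSeries_succ]; infer_instance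
  obtain ⟨j, rfl⟩ : ∃ j, i = j + 1 := ⟨i - 1, by omega⟩
  rw [Nat.add_sub_cancel]
  set A := N.lowerCentralSeries j with hA
  set B := N.lowerCentralSeries (j + 1) with hB
  haveI hAn : A.Normal := hnorm j
  haveI hBn : B.Normal := hnorm (j + 1)
  have hBA : B ≤ A := N.lowerCentralSeries_antitone (Nat.le_succ j)
  have hBdef : B = ⁅A, N⁆ := Subgroup.lowerCentralSeries_succ N j
  by_contra hcon
  push Not at hcon
  have hcard := Subgroup.relIndex_mul_relIndex (⊥ : Subgroup G) B A bot_le hBA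
  rw [Subgroup.relIndex_bot_left, Subgroup.relIndex_bot_left] at hcard
  obtain ⟨a, ha⟩ := IsPGroup.iff_card.mp (hG.to_subgroup A)
  obtain ⟨b, hb⟩ := IsPGroup.iff_card.mp (hG.to_subgroup B)
  have hb0 : b ≠ 0 := by
    rintro rfl
    rw [pow_zero] at hb
    exact hne (Subgroup.card_eq_one.mp hb)
  have hlt : a < b + n := by
    have h1 : Nat.card A < p ^ b * p ^ n := by
      rw [← hcard, hb]
      exact Nat.mul_lt_mul_of_pos_left hcon (pow_pos hp.out.pos b)
    rw [ha, ← pow_add] at h1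
    exact (Nat.pow_lt_pow_iff_right hp.out.one_lt).mp h1
  obtain ⟨M, hMn, hMB, hM⟩ := H1.exists_normal_le_card hG B hb (k := b - 1) (by omega)
  have h2 := comm_lcs_le hG (n - 1) A M hAn hMn (hMB.trans hBA) (by
    rw [ha, hM, ← pow_add]
    exact Nat.pow_le_pow_right hp.out.pos (by omega))
  have h3 : B ≤ M := by
    rw [hBdef]
    exact (Subgroup.commutator_mono le_rfl hN).trans h2
  have h4 := Subgroup.card_le_of_le h3
  rw [hb, hM] at h4
  have := (Nat.pow_le_pow_iff_right hp.out.one_lt).mp h4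
  omega

end Cfsg.Agent.H4
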