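import Cfsg.Agent.H4.PrimeDeg

set_option linter.all false
set_option autoImplicit false

/-! The heart of the permutation module in prime degree. -/

namespace Cfsg.Agent.H4

open Polynomial

variable {p : ℕ} [hp : Fact p.Prime] {K : Type*} [Field K] [CharP K p]

theorem all_of_degree (P : Submodule K K[X]) (hP : ∀ q ∈ P, taylor 1 q ∈ P) : ∀ (k : ℕ), k < p →
    ∀ q ∈ P, q ≠ 0 → q.natDegree = k → ∀ r : K[X], r.natDegree ≤ k → r ∈ P := by
  intro k
  induction k with
  | zero =>
    intro _ q hq hq0 hqd r hr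
    have h1 := eq_C_of_natDegree_eq_zero hqd
    have h2 := eq_C_of_natDegree_eq_zero (Nat.le_zero.1 hr)
    have hc : q.coeff 0 ≠ 0 := by
      intro e; apply hq0; rw [h1, e, C_0]
    have h3 : r = (r.coeff 0 / q.coeff 0) • q := by
      calc r = C (r.coeff 0) := h2
        _ = (r.coeff 0 / q.coeff 0) • C (q.coeff 0) := by rw [smul_C, smul_eq_mul, div_mul_cancel₀ _ hc]
        _ = (r.coeff 0 / q.coeff 0) • q := by rw [← h1]
    rw [h3]; exact P.smul_mem _ hq
  | succ k ih =>
    intro hk q hq hq0 hqd r hr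
    have hc : q.coeff (k + 1) ≠ 0 := by
      rw [← hqd]; change q.leadingCoeff ≠ 0; rwa [leadingCoeff_ne_zero]
    have hk1 : ((k + 1 : ℕ) : K) ≠ 0 := by
      rw [Ne, CharP.cast_eq_zero_iff K p]
      intro hd; have := Nat.le_of_dvd (Nat.succ_pos k) hd; omega
    have hcoef : (taylor 1 q - q).coeff k = ((k + 1 : ℕ) : K) * q.coeff (k + 1) := by
      rw [coeff_sub, taylor_coeff, eval_eq_sum_range' (n := 2) (by
        have := natDegree_hasseDeriv_le q k
        omega), Finset.sum_range_succ, Finset.sum_range_succ, Finset.sum_range_zero, hasseDeriv_coeff, hasseDeriv_coeff]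
      have e1 : 1 + k = k + 1 := by omega
      rw [e1, Nat.choose_succ_self_right]
      simp
    have hdeg : (taylor 1 q - q).natDegree = k := by
      apply le_antisymm
      · rw [natDegree_le_iff_coeff_eq_zero]
        intro N hN
        rw [coeff_sub]
        by_cases hN1 : N = k + 1
        · rw [hN1, ← hqd, coeff_taylor_natDegree]; simp
        · rw [coeff_eq_zero_of_natDegree_lt (by rw [natDegree_taylor]; omega), coeff_eq_zero_of_natDegree_lt (by omega), sub_zero]
      · apply le_natDegree_of_ne_zero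
        rw [hcoef]; exact mul_ne_zero hk1 hc
    have hne : taylor 1 q - q ≠ 0 := by
      intro e
      rw [e, coeff_zero] at hcoef
      exact mul_ne_zero hk1 hc hcoef.symm
    have hall := ih (by omega) _ (P.sub_mem (hP q hq) hq) hne hdeg
    have hr' : r - (r.coeff (k + 1) / q.coeff (k + 1)) • q ∈ P := by
      apply hall
      rw [natDegree_le_iff_coeff_eq_zero]
      intro N hN
      rw [coeff_sub, coeff_smul, smul_eq_mul]
      by_cases hN1 : N = k + 1
      · rw [hN1, div_mul_cancel₀ _ hc, sub_self]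
      · rw [coeff_eq_zero_of_natDegree_lt (show r.natDegree < N by omega), coeff_eq_zero_of_natDegree_lt (show q.natDegree < N by omega), mul_zero, sub_zero]
    have := P.add_mem hr' (P.smul_mem (r.coeff (k + 1) / q.coeff (k + 1)) hq)
    rwa [sub_add_cancel] at this

/-- evaluation map -/
noncomputable def evE (p : ℕ) [hp : Fact p.Prime] (K : Type*) [Field K] [CharP K p] : K[X] →ₗ[K] (ZMod p → K) where
  toFun q := fun x => q.eval (ZMod.castHom (dvd_refl p) K x)
  map_add' a b := by funext x; exact eval_add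
  map_smul' c a := by funext x; simp

theorem evE_apply (q : K[X]) (x : ZMod p) : evE p K q x = q.eval (ZMod.castHom (dvd_refl p) K x) := rfl

theorem iota_inj : Function.Injective (ZMod.castHom (dvd_refl p) K) := RingHom.injective _

theorem exists_interp (f : ZMod p → K) : ∃ q : K[X], evE p K q = f ∧ q.natDegree ≤ p - 1 := by
  classical
  refine ⟨Lagrange.interpolate Finset.univ (ZMod.castHom (dvd_refl p) K) f, ?_, ?_⟩
  · funext x
    exact Lagrange.eval_interpolate_at_node (r := f) (v := ZMod.castHom (dvd_refl p) K) (iota_inj.injOn) (Finset.mem_univ x)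
  · have := Lagrange.degree_interpolate_lt (s := Finset.univ) (v := ZMod.castHom (dvd_refl p) K) (r := f) (iota_inj.injOn)
    rw [Finset.card_univ, ZMod.card] at this
    have h2 := hp.out.pos
    by_cases h0 : Lagrange.interpolate Finset.univ (ZMod.castHom (dvd_refl p) K) f = 0
    · rw [h0]; simp
    · have h3 := (natDegree_lt_iff_degree_lt h0).2 this
      omega

theorem heart_aux (σ : Equiv.Perm (ZMod p)) (W : Submodule K (ZMod p → K))
    (hsh : ∀ f ∈ W, (fun x => f (x + 1)) ∈ W) (hσ : ∀ f ∈ W, (fun x => f (σ x)) ∈ W)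
    (hid : (fun x => ZMod.castHom (dvd_refl p) K x) ∈ W)
    (hdeg : ∀ q : K[X], q.natDegree ≤ p - 1 → evE p K q ∈ W → q.natDegree * 2 ≤ p - 1) :
    ∃ a b : ZMod p, ∀ x, σ x = a * x + b := by
  classical
  have hp2 := hp.out.two_le
  obtain ⟨f, hf, hfd⟩ := exists_interp (p := p) (K := K) (fun x => ZMod.castHom (dvd_refl p) K (σ x))
  have hfx : ∀ x, f.eval (ZMod.castHom (dvd_refl p) K x) = ZMod.castHom (dvd_refl p) K (σ x) := fun x => congrFun hf x
  obtain ⟨n, hn⟩ : ∃ n, n = f.natDegree := ⟨_, rfl⟩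
  by_cases hn1 : n ≤ 1
  · refine ⟨σ 1 - σ 0, σ 0, fun x => ?_⟩
    apply iota_inj (K := K)
    have e := eq_X_add_C_of_natDegree_le_one (p := f) (by rw [← hn]; exact hn1)
    have e2 : ∀ y, f.eval y = f.coeff 1 * y + f.coeff 0 := by
      intro y
      have := congrArg (fun q => q.eval y) e
      simpa using this
    have h0 := hfx 0
    have h1 := hfx 1
    rw [e2] at h0 h1
    rw [← hfx, e2, map_add, map_mul, map_sub]
    rw [map_zero] at h0
    rw [map_one] at h1
    linear_combination (ZMod.castHom (dvd_refl p) K x) * (h1 - h0) + h0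
  exfalso
  push Not at hn1
  let P : Submodule K K[X] := W.comap (evE p K)
  have hPt : ∀ q ∈ P, taylor 1 q ∈ P := by
    intro q hq
    have h1 := hsh _ hq
    have h2 : evE p K (taylor 1 q) = fun x => evE p K q (x + 1) := by
      funext x
      rw [evE_apply, evE_apply, taylor_eval, map_add, map_one]
    show evE p K (taylor 1 q) ∈ W
    rw [h2]; exact h1
  have hfP : f ∈ P := by
    show evE p K f ∈ W
    rw [hf]; exact hσ _ hid
  -- maximal degree
  let S : Set ℕ := {d | ∃ q ∈ P, q ≠ 0 ∧ q.natDegree = d ∧ d ≤ p - 1}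
  have hf0 : f ≠ 0 := by intro e; rw [e] at hn; simp at hn; omega
  have hSn : n ∈ S := ⟨f, hfP, hf0, hn.symm, by omega⟩
  have hSb : BddAbove S := ⟨p - 1, fun d hd => by obtain ⟨_, _, _, _, h⟩ := hd; exact h⟩
  obtain ⟨k, hk⟩ : ∃ k, k = sSup S := ⟨_, rfl⟩
  have hkS : k ∈ S := by rw [hk]; exact Nat.sSup_mem ⟨n, hSn⟩ hSb
  have hmax : ∀ d ∈ S, d ≤ k := fun d hd => by rw [hk]; exact le_csSup hSb hd
  obtain ⟨q, hqP, hq0, hqk, hkp⟩ := hkS
  have hk2 : k * 2 ≤ p - 1 := by rw [← hqk]; exact hdeg q (by omega) hqP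
  have hnk := hmax n hSn
  obtain ⟨j, hj⟩ : ∃ j, j = k / n + 1 := ⟨_, rfl⟩
  have hjn : k < j * n := by
    rw [hj, add_mul, one_mul]; exact Nat.lt_div_mul_add (by omega)
  have hjn2 : j * n ≤ k + n := by
    rw [hj, add_mul, one_mul]; have := Nat.div_mul_le_self k n; omega
  have hjk : j ≤ k := by
    have h1 : k / n ≤ k / 2 := Nat.div_le_div_left hn1 (by norm_num)
    omega
  have hXj : (X ^ j : K[X]) ∈ P := all_of_degree P hPt k (by omega) q hqP hq0 hqk _ (by rw [natDegree_X_pow]; exact hjk)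
  have h5 : evE p K (f ^ j) ∈ W := by
    have h6 := hσ _ hXj
    have h7 : (fun x => evE p K (X ^ j) (σ x)) = evE p K (f ^ j) := by
      funext x
      rw [evE_apply, evE_apply, eval_pow, eval_pow, eval_X, hfx]
    rw [← h7]; exact h6
  have h8 := hmax (j * n) ⟨f ^ j, h5, pow_ne_zero _ hf0, by rw [natDegree_pow, ← hn], by omega⟩
  omega


theorem sum_pow_zmod : (∑ x : ZMod p, x ^ (p - 1)) = -1 := by
  classical
  have hp2 := hp.out.two_le
  have h1 : ∀ x : ZMod p, x ^ (p - 1) = 1 - (if x = 0 then 1 else 0) := by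
    intro x
    by_cases hx : x = 0
    · rw [hx, if_pos rfl, zero_pow (by omega)]; ring
    · rw [if_neg hx, ZMod.pow_card_sub_one_eq_one hx]; ring
  rw [Finset.sum_congr rfl (fun x _ => h1 x), Finset.sum_sub_distrib]
  simp

theorem sum_eval (r : K[X]) (hr : r.natDegree ≤ p - 1) :
    ∑ x : ZMod p, evE p K r x = - r.coeff (p - 1) := by
  classical
  have hp2 := hp.out.two_le
  have h1 : ∀ x : ZMod p, evE p K r x = ∑ j ∈ Finset.range (p - 1 + 1), r.coeff j * (ZMod.castHom (dvd_refl p) K x) ^ j := by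
    intro x
    rw [evE_apply]
    exact eval_eq_sum_range' (by omega) _
  rw [Finset.sum_congr rfl (fun x _ => h1 x), Finset.sum_comm]
  have h2 : ∀ j, ∑ x : ZMod p, r.coeff j * (ZMod.castHom (dvd_refl p) K x) ^ j = r.coeff j * ZMod.castHom (dvd_refl p) K (∑ x : ZMod p, x ^ j) := by
    intro j
    rw [← Finset.mul_sum, map_sum]
    congr 1
    apply Finset.sum_congr rfl
    intro x _
    rw [map_pow]
  rw [Finset.sum_congr rfl (fun j _ => h2 j), Finset.sum_range_succ, Finset.sum_eq_zero, sum_pow_zmod, map_neg, map_one]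
  · ring
  · intro j hj
    have hj' := Finset.mem_range.1 hj
    rw [FiniteField.sum_pow_lt_card_sub_one (ZMod p) j (by rw [ZMod.card]; exact hj'), map_zero, mul_zero]

theorem heart_zmod (G : Subgroup (Equiv.Perm (ZMod p))) (htrans : ∀ b : ZMod p, ∃ g ∈ G, ∀ x, g x = x + b)
    (W : Submodule K (ZMod p → K)) (hW : ∀ σ ∈ G, ∀ f ∈ W, (fun x => f (σ x)) ∈ W)
    (hnc : ∃ f ∈ W, ¬ ∃ c : K, f = fun _ => c) (hns : ∃ g : ZMod p → K, ∑ x, g x = 0 ∧ g ∉ W)
    (hs : ∀ f ∈ W, ∑ x, f x = 0) : G ≤ affineGroup (ZMod p) := by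
  classical
  have hp2 := hp.out.two_le
  have hsh : ∀ f ∈ W, (fun x => f (x + 1)) ∈ W := by
    intro f hf
    obtain ⟨t, ht, ht'⟩ := htrans 1
    have := hW t ht f hf
    simpa only [ht'] using this
  let P : Submodule K K[X] := W.comap (evE p K)
  have hPt : ∀ q ∈ P, taylor 1 q ∈ P := by
    intro q hq
    have h1 := hsh _ hq
    have h2 : evE p K (taylor 1 q) = fun x => evE p K q (x + 1) := by
      funext x
      rw [evE_apply, evE_apply, taylor_eval, map_add, map_one]
    show evE p K (taylor 1 q) ∈ W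
    rw [h2]; exact h1
  let S : Set ℕ := {d | ∃ q ∈ P, q ≠ 0 ∧ q.natDegree = d ∧ d ≤ p - 1}
  obtain ⟨f₀, hf₀, hf₀c⟩ := hnc
  obtain ⟨q₀, hq₀, hq₀d⟩ := exists_interp (p := p) f₀
  have hq₀1 : 1 ≤ q₀.natDegree := by
    by_contra hlt
    apply hf₀c
    have h1 := eq_C_of_natDegree_eq_zero (show q₀.natDegree = 0 by omega)
    refine ⟨q₀.coeff 0, ?_⟩
    rw [← hq₀]
    funext x
    rw [evE_apply, h1]; simp
  have hq₀0 : q₀ ≠ 0 := by intro e; rw [e] at hq₀1; simp at hq₀1
  have hSn : q₀.natDegree ∈ S := ⟨q₀, (by show evE p K q₀ ∈ W; rw [hq₀]; exact hf₀), hq₀0, rfl, hq₀d⟩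
  have hSb : BddAbove S := ⟨p - 1, fun d hd => by obtain ⟨_, _, _, _, h⟩ := hd; exact h⟩
  obtain ⟨k, hk⟩ : ∃ k, k = sSup S := ⟨_, rfl⟩
  have hkS : k ∈ S := by rw [hk]; exact Nat.sSup_mem ⟨_, hSn⟩ hSb
  have hmax : ∀ d ∈ S, d ≤ k := fun d hd => by rw [hk]; exact le_csSup hSb hd
  obtain ⟨q, hqP, hq0, hqk, hkp⟩ := hkS
  have hk1 : 1 ≤ k := hq₀1.trans (hmax _ hSn)
  have hall := all_of_degree P hPt k (by omega) q hqP hq0 hqk
  have hmax' : ∀ r : K[X], r.natDegree ≤ p - 1 → evE p K r ∈ W → r.natDegree ≤ k := by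
    intro r hr hrW
    by_cases h0 : r = 0
    · rw [h0]; simp
    · exact hmax _ ⟨r, hrW, h0, rfl, hr⟩
  have hk3 : k + 2 < p := by
    by_contra hge
    obtain ⟨g, hg0, hgW⟩ := hns
    obtain ⟨r, hr, hrd⟩ := exists_interp (p := p) g
    apply hgW
    have h1 : r.coeff (p - 1) = 0 := by
      have h2 := sum_eval (p := p) r hrd
      rw [hr, hg0] at h2
      exact neg_eq_zero.1 h2.symm
    have h3 : r.natDegree ≤ k := by
      rw [natDegree_le_iff_coeff_eq_zero]
      intro N hN
      by_cases hN1 : N = p - 1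
      · rw [hN1]; exact h1
      · exact coeff_eq_zero_of_natDegree_lt (by omega)
    have h4 := hall r h3
    rw [← hr]; exact h4
  have hfin : ∀ σ ∈ G, (∃ a b : ZMod p, ∀ x, σ x = a * x + b) → σ ∈ affineGroup (ZMod p) := by
    rintro σ hσ ⟨a, b, hab⟩
    have ha : a ≠ 0 := by
      intro e
      have h1 : σ 0 = σ 1 := by rw [hab, hab, e]; ring
      exact zero_ne_one (σ.injective h1)
    exact ⟨Units.mk0 a ha, b, hab⟩
  intro σ hσ
  apply hfin σ hσ
  by_cases hk2 : k * 2 ≤ p - 1
  · apply heart_aux σ W hsh (hW σ hσ)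
    · have h1 := hall X (by rw [natDegree_X]; exact hk1)
      have h2 : evE p K X = fun x => ZMod.castHom (dvd_refl p) K x := by
        funext x; rw [evE_apply, eval_X]
      rw [← h2]; exact h1
    · intro r hr hrW
      have := hmax' r hr hrW
      omega
  · let W' : Submodule K (ZMod p → K) :=
      { carrier := {g | ∀ f ∈ W, ∑ x, g x * f x = 0}
        add_mem' := by
          intro a b ha hb f hf
          simp only [Pi.add_apply, add_mul, Finset.sum_add_distrib]
          rw [ha f hf, hb f hf, add_zero]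
        zero_mem' := by intro f hf; simp
        smul_mem' := by
          intro c a ha f hf
          simp only [Pi.smul_apply, smul_eq_mul, mul_assoc, ← Finset.mul_sum]
          rw [ha f hf, mul_zero] }
    have hinv : ∀ τ ∈ G, ∀ g ∈ W', (fun x => g (τ x)) ∈ W' := by
      intro τ hτ g hg f hf
      have h1 := hg _ (hW τ⁻¹ (G.inv_mem hτ) f hf)
      rw [← h1]
      refine Fintype.sum_equiv τ _ _ (fun x => ?_)
      show g (τ x) * f x = g (τ x) * f (τ⁻¹ (τ x))
      have e0 : τ⁻¹ (τ x) = x := τ.symm_apply_apply x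
      rw [e0]
    apply heart_aux (K := K) σ W'
    · intro g hg
      obtain ⟨t, ht, ht'⟩ := htrans 1
      have := hinv t ht g hg
      simpa only [ht'] using this
    · exact hinv σ hσ
    · intro f hf
      obtain ⟨r, hr, hrd⟩ := exists_interp (p := p) f
      have hrk := hmax' r hrd (by rw [hr]; exact hf)
      have h1 : ∀ x, ZMod.castHom (dvd_refl p) K x * f x = evE p K (X * r) x := by
        intro x
        rw [← hr, evE_apply, evE_apply, eval_mul, eval_X]
      have h2 : (X * r).natDegree ≤ k + 1 := by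
        refine (natDegree_mul_le).trans ?_
        rw [natDegree_X]; omega
      rw [Finset.sum_congr rfl (fun x _ => h1 x), sum_eval (X * r) (by omega), coeff_eq_zero_of_natDegree_lt (by omega), neg_zero]
    · intro r hrd hrW
      by_contra hlt
      obtain ⟨d, hd⟩ : ∃ d, d = r.natDegree := ⟨_, rfl⟩
      have hi : p - 1 - d ≤ k := by omega
      have h1 := hall (X ^ (p - 1 - d)) (by rw [natDegree_X_pow]; exact hi)
      have h2 := hrW _ h1
      have h3 : ∀ x, evE p K r x * evE p K (X ^ (p - 1 - d)) x = evE p K (r * X ^ (p - 1 - d)) x := by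
        intro x
        rw [evE_apply, evE_apply, evE_apply, eval_mul]
      have h4 : (r * X ^ (p - 1 - d)).natDegree ≤ p - 1 := by
        refine (natDegree_mul_le).trans ?_
        rw [natDegree_X_pow]; omega
      rw [Finset.sum_congr rfl (fun x _ => h3 x), sum_eval _ h4] at h2
      have h5 : (r * X ^ (p - 1 - d)).coeff (p - 1) = r.coeff d := by
        have := coeff_mul_X_pow r (p - 1 - d) d
        rwa [show d + (p - 1 - d) = p - 1 by omega] at this
      rw [h5] at h2
      have h6 : r.leadingCoeff = 0 := by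
        change r.coeff r.natDegree = 0
        rw [← hd]; exact neg_eq_zero.1 h2
      rw [leadingCoeff_eq_zero] at h6
      rw [h6] at hlt
      simp at hlt


theorem heart_main {α : Type*} [Fintype α] [DecidableEq α] (hα : Fintype.card α = p)
    (G : Subgroup (Equiv.Perm α)) [MulAction.IsPretransitive G α] (hG : ¬ Group.IsSolvable G)
    (W : Subrepresentation (permRep K G α))
    (h₁ : (permConstants K G α).toSubmodule ≤ W.toSubmodule) (h₂ : W.toSubmodule ≤ (permSumZero K G α).toSubmodule) :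
    W = permConstants K G α ∨ W = permSumZero K G α := by
  classical
  by_contra hcon
  push Not at hcon
  obtain ⟨hc1, hc2⟩ := hcon
  apply hG
  haveI : Nonempty α := Fintype.card_pos_iff.1 (by rw [hα]; exact hp.out.pos)
  obtain ⟨a⟩ := ‹Nonempty α›
  have hdvd : p ∣ Nat.card G := by
    have h1 := MulAction.index_stabilizer_of_transitive G a
    rw [Nat.card_eq_fintype_card, hα] at h1
    rw [← h1]; exact Subgroup.index_dvd_card _
  obtain ⟨c, hc⟩ := exists_prime_orderOf_dvd_card' p hdvd
  have hc' : orderOf (c : Equiv.Perm α) = p := by rw [Subgroup.orderOf_coe, hc]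
  obtain ⟨e, he⟩ := exists_coord hα (c : Equiv.Perm α) hc'
  let Φ : Equiv.Perm α →* Equiv.Perm (ZMod p) := (e.symm.permCongrHom).toMonoidHom
  have hΦ : ∀ (σ : Equiv.Perm α) (x : ZMod p), Φ σ x = e.symm (σ (e x)) := fun σ x => rfl
  have hcΦ : ∀ x, Φ c x = x + 1 := by
    intro x
    rw [hΦ, he, Equiv.symm_apply_apply]
  have hpow : ∀ (k : ℕ) (x : ZMod p), (Φ c ^ k) x = x + k := by
    intro k
    induction k with
    | zero => intro x; simp
    | succ k ih => intro x; rw [pow_succ', Equiv.Perm.mul_apply, ih, hcΦ]; push_cast; ring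
  let W₀ : Submodule K (ZMod p → K) := W.toSubmodule.comap (LinearMap.funLeft K K (e.symm : α → ZMod p))
  have hW₀ : ∀ f : ZMod p → K, f ∈ W₀ ↔ (fun x : α => f (e.symm x)) ∈ W.toSubmodule := fun f => Iff.rfl
  have haff := heart_zmod (p := p) (K := K) (G.map Φ) (by
    intro b
    refine ⟨Φ c ^ b.val, (G.map Φ).pow_mem (Subgroup.mem_map_of_mem Φ c.2) _, fun x => ?_⟩
    rw [hpow, ZMod.natCast_zmod_val]) W₀ (by
    rintro _ ⟨σ, hσ, rfl⟩ f hf
    rw [hW₀] at hf ⊢
    have h1 := W.apply_mem_toSubmodule ((⟨σ, hσ⟩ : G)⁻¹) hf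
    have h2 : (permRep K G α ((⟨σ, hσ⟩ : G)⁻¹)) (fun x : α => f (e.symm x)) = fun x : α => f (Φ σ (e.symm x)) := by
      funext x
      show f (e.symm (((⟨σ, hσ⟩ : G)⁻¹)⁻¹ • x)) = f (e.symm (σ (e (e.symm x))))
      rw [inv_inv, Equiv.apply_symm_apply]
      rfl
    rw [← h2]; exact h1) (by
    by_contra hcon
    push Not at hcon
    apply hc1
    apply Subrepresentation.toSubmodule_injective
    refine le_antisymm ?_ h₁
    intro f hf
    have hf' : (fun x : ZMod p => f (e x)) ∈ W₀ := by
      rw [hW₀]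
      have : (fun x : α => f (e (e.symm x))) = f := by funext x; rw [Equiv.apply_symm_apply]
      rw [this]; exact hf
    obtain ⟨d, hd⟩ := hcon _ hf'
    show f ∈ Submodule.span K {fun _ : α => (1 : K)}
    rw [Submodule.mem_span_singleton]
    refine ⟨d, ?_⟩
    funext x
    have h3 := congrFun hd (e.symm x)
    simp only [Equiv.apply_symm_apply] at h3
    rw [h3]; simp) (by
    by_contra hcon
    push Not at hcon
    apply hc2
    apply Subrepresentation.toSubmodule_injective
    refine le_antisymm h₂ ?_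
    intro f hf
    have hf0 : ∑ x, f x = 0 := hf
    have hs : ∑ x : ZMod p, f (e x) = 0 := by
      rw [← hf0]; exact Equiv.sum_comp e f
    have h4 := hcon (fun x => f (e x)) hs
    rw [hW₀] at h4
    have : (fun x : α => f (e (e.symm x))) = f := by funext x; rw [Equiv.apply_symm_apply]
    rw [this] at h4; exact h4) (by
    intro f hf
    rw [hW₀] at hf
    have h5 : ∑ x : α, f (e.symm x) = 0 := h₂ hf
    rw [← h5]; exact (Equiv.sum_comp e.symm f).symm)
  haveI := affine_isSolvable (p := p)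
  let f : G →* affineGroup (ZMod p) := (Φ.comp G.subtype).codRestrict (affineGroup (ZMod p)) (fun g => haff (Subgroup.mem_map_of_mem Φ g.2))
  have hf : Function.Injective f := by
    intro g k hgk
    have h1 : Φ g = Φ k := congrArg Subtype.val hgk
    exact Subtype.ext ((e.symm.permCongrHom).injective h1)
  exact Group.isSolvable_of_isSolvable_injective hf

end Cfsg.Agent.H4
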