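import Cfsg.Agent.H4.OC1
import Cfsg.Agent.H4.Glau9

set_option linter.all false
set_option autoImplicit false

namespace Cfsg.Agent.H4

open Cfsg

universe u

theorem exists_abelian_normal {G : Type u} [Group G] [Finite G] {p : ℕ} [hp : Fact p.Prime] {D : Subgroup G} [hDn : D.Normal] (hDp : IsPGroup p D) (hD1 : D ≠ ⊥) :
    ∃ V : Subgroup G, V.Normal ∧ V ≤ D ∧ V ≠ ⊥ ∧ IsPGroup p V ∧ ∀ a ∈ V, ∀ b ∈ V, a * b = b * a := by
  haveI : Nontrivial D := (Subgroup.nontrivial_iff_ne_bot D).mpr hD1
  have hc := hDp.center_nontrivial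
  refine ⟨(Subgroup.center D).map D.subtype, inferInstance, Subgroup.map_subtype_le _, ?_, (hDp.to_subgroup (Subgroup.center D)).map _, ?_⟩
  · intro h0
    rw [Subgroup.map_eq_bot_iff_of_injective _ D.subtype_injective] at h0
    exact ((Subgroup.nontrivial_iff_ne_bot _).mp hc) h0
  · rintro _ ⟨a, ha, rfl⟩ _ ⟨b, hb, rfl⟩
    have := Subgroup.mem_center_iff.mp hb a
    exact congrArg Subtype.val this

theorem cn_quot_solv : ∀ (n : ℕ) (G : Type u) [Group G] [Finite G] (H : Subgroup G) [H.Normal], Nat.card G = n → IsCNGroup G → Group.IsSolvable H → IsCNGroup (G ⧸ H) := by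
  intro n
  induction n using Nat.strong_induction_on with
  | _ n ih =>
  intro G _ _ H _ hn hCN hH
  by_cases hbot : H = ⊥
  · subst hbot
    exact cn_of_inj (QuotientGroup.quotientBot (G := G)).toMonoidHom (QuotientGroup.quotientBot (G := G)).injective hCN
  · haveI : Nontrivial H := (Subgroup.nontrivial_iff_ne_bot H).mpr hbot
    obtain ⟨p, M, hp, hMn, hM1, hMp⟩ := exists_normal_pgroup_solv hH this
    haveI : Fact p.Prime := ⟨hp⟩
    have hcore : pCore p H ≠ ⊥ := by
      intro h0
      haveI := hMn
      have := L0.le_pCore hMp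
      rw [h0, le_bot_iff] at this
      exact hM1 this
    haveI hDn : ((pCore p H).map H.subtype).Normal := L0.normal_map_subtype_of_characteristic _
    obtain ⟨V, hVn, hVD, hV1, hVp, hVab⟩ := exists_abelian_normal (D := (pCore p H).map H.subtype) ((L0.pCore_isPGroup p H).map _) (by
      intro h0
      rw [Subgroup.map_eq_bot_iff_of_injective _ H.subtype_injective] at h0
      exact hcore h0)
    haveI := hVn
    have hVH : V ≤ H := hVD.trans (Subgroup.map_subtype_le _)
    have h1 := cn_quot hCN V hVp hVab hV1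
    have hcard : Nat.card (G ⧸ V) < Nat.card G := by
      have h1 := V.card_mul_index
      have h2 : 1 < Nat.card V := by
        haveI : Nontrivial V := (Subgroup.nontrivial_iff_ne_bot V).mpr hV1
        exact Finite.one_lt_card
      have h3 : V.index = Nat.card (G ⧸ V) := rfl
      have h4 : 0 < Nat.card (G ⧸ V) := Nat.card_pos
      rw [h3] at h1
      nlinarith
    haveI hmn : (H.map (QuotientGroup.mk' V)).Normal := Subgroup.Normal.map inferInstance _ (QuotientGroup.mk'_surjective V)
    have hsolv : Group.IsSolvable (H.map (QuotientGroup.mk' V)) := by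
      haveI := hH
      exact Group.isSolvable_of_surjective ((QuotientGroup.mk' V).subgroupMap_surjective H)
    have h2 := ih _ (by omega) (G ⧸ V) (H.map (QuotientGroup.mk' V)) rfl h1 hsolv
    let e := QuotientGroup.quotientQuotientEquivQuotient V H hVH
    exact cn_of_inj e.symm.toMonoidHom e.symm.injective h2

end Cfsg.Agent.H4
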