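import Cfsg.Agent.H3.NilHall
import Cfsg.Agent.L0.Coprime2
import Cfsg.Agent.L0.Core

set_option linter.all false
set_option autoImplicit false

namespace Cfsg.Agent.H4
open scoped Pointwise
universe u

theorem norm_lift {G : Type u} [Group G] [Finite G] {p : ℕ} [hp : Fact p.Prime] {O P : Subgroup G} (hOn : O.Normal)
    (hO : (Nat.card O).Coprime p) (hP : IsPGroup p P) (g : G) (hg : ∀ x ∈ P, g * x * g⁻¹ ∈ P ⊔ O) :
    ∃ c ∈ O, ∃ n ∈ Subgroup.normalizer (P : Set G), g = c * n := by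
  classical
  set M := P ⊔ O with hM
  have hPM : P ≤ M := le_sup_left
  have hgM : MulAut.conj g • P ≤ M := by
    rintro _ ⟨x, hx, rfl⟩
    exact hg x hx
  have hdis : O ⊓ P = ⊥ := by
    obtain ⟨k, hk⟩ := hP.exists_card_eq
    apply Subgroup.inf_eq_bot_of_coprime
    rw [hk]
    exact Nat.Coprime.pow_right k hO
  have hcM : Nat.card M = Nat.card O * Nat.card P := by
    rw [hM, sup_comm]
    exact L0.card_sup_of_normalizes (by rw [Subgroup.normalizer_eq_top]; exact le_top) hdis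
  have hcP : Nat.card (P.subgroupOf M) = Nat.card P := Nat.card_congr (Subgroup.subgroupOfEquivOfLe hPM).toEquiv
  have hcK : Nat.card ((MulAut.conj g • P).subgroupOf M) = Nat.card P := by
    rw [Nat.card_congr (Subgroup.subgroupOfEquivOfLe hgM).toEquiv]
    exact Nat.card_congr (Subgroup.equivSMul (MulAut.conj g) P).symm.toEquiv
  have hidx : (P.subgroupOf M).index = Nat.card O := by
    have h1 := (P.subgroupOf M).card_mul_index
    rw [hcP, hcM, mul_comm (Nat.card O)] at h1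
    exact Nat.eq_of_mul_eq_mul_left Nat.card_pos h1
  have hPp' : IsPGroup p (P.subgroupOf M) := hP.of_equiv (Subgroup.subgroupOfEquivOfLe hPM).symm
  obtain ⟨⟨m, hm⟩, hc⟩ := H3.wielandt_hall (H := P.subgroupOf M) (K := (MulAut.conj g • P).subgroupOf M) hPp'.isNilpotent
    (by
      rw [hidx, hcP]
      obtain ⟨k, hk⟩ := hP.exists_card_eq
      rw [hk]
      exact (Nat.Coprime.pow_right k hO).symm) (by intro q _ hq; rw [hcP]; rw [hcK] at hq; exact hq)
  have hle : MulAut.conj g • P ≤ MulAut.conj m • P := by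
    intro y hy
    have h1 : (⟨y, hgM hy⟩ : M) ∈ MulAut.conj (⟨m, hm⟩ : M) • P.subgroupOf M := hc (Subgroup.mem_subgroupOf.mpr hy)
    rw [L0.mem_conj_smul, Subgroup.mem_subgroupOf] at h1
    rw [L0.mem_conj_smul]
    exact h1
  have hm' : m ∈ O ⊔ P := by rw [sup_comm]; exact hm
  rw [Subgroup.mem_sup_of_normal_left] at hm'
  obtain ⟨c, hcO, x, hx, rfl⟩ := hm'
  refine ⟨c, hcO, c⁻¹ * g, ?_, by group⟩
  apply Subgroup.mem_normalizer_fintype
  intro b hb
  have h1 : g * b * g⁻¹ ∈ MulAut.conj (c * x) • P := hle ⟨b, hb, rfl⟩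
  rw [L0.mem_conj_smul] at h1
  have h2 := P.mul_mem (P.mul_mem hx h1) (P.inv_mem hx)
  rw [SetLike.mem_coe]
  convert! h2 using 1
  group

theorem pcons_norm {G : Type u} [Group G] [Finite G] {p : ℕ} [hp : Fact p.Prime]
    (hc : Subgroup.centralizer (pCore p (G ⧸ pPrimeCore p G) : Set (G ⧸ pPrimeCore p G)) ≤ pCore p (G ⧸ pPrimeCore p G)) (P : Subgroup G) (hP : IsPGroup p P) :
    (pPrimeCore p ↥(Subgroup.normalizer (P : Set G))).map (Subgroup.normalizer (P : Set G)).subtype = pPrimeCore p G ⊓ Subgroup.normalizer (P : Set G) := by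
  classical
  apply le_antisymm _ (L0.pPrimeCore_inf_le_map p _)
  refine le_inf ?_ (Subgroup.map_subtype_le _)
  set N := Subgroup.normalizer (P : Set G) with hN
  set O := pPrimeCore p G with hO
  set K := (pPrimeCore p N).map N.subtype with hK
  have hOcop : (Nat.card O).Coprime p := L0.pPrimeCore_coprime p G
  have hKcop : (Nat.card K).Coprime p := by
    rw [hK, Nat.card_congr (Subgroup.equivMapOfInjective _ _ (Subgroup.subtype_injective _)).symm.toEquiv]
    exact L0.pPrimeCore_coprime p N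
  have hKN : K ≤ N := Subgroup.map_subtype_le _
  have hKconj : ∀ n ∈ N, ∀ k ∈ K, n * k * n⁻¹ ∈ K := by
    rintro n hn _ ⟨k, hk, rfl⟩
    exact ⟨⟨n, hn⟩ * k * ⟨n, hn⟩⁻¹, (inferInstance : (pPrimeCore p N).Normal).conj_mem k hk ⟨n, hn⟩, rfl⟩
  have hcomm : ∀ k ∈ K, ∀ x ∈ P, k * x = x * k := by
    intro k hk x hx
    have h1 : k * x * k⁻¹ * x⁻¹ ∈ P := P.mul_mem ((Subgroup.mem_normalizer_iff.mp (hKN hk) x).mp hx) (P.inv_mem hx)
    have h2 : k * x * k⁻¹ * x⁻¹ ∈ K := by
      rw [show k * x * k⁻¹ * x⁻¹ = k * (x * k⁻¹ * x⁻¹) by group]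
      exact K.mul_mem hk (hKconj x (Subgroup.le_normalizer hx) _ (K.inv_mem hk))
    obtain ⟨j, hj⟩ := hP.exists_card_eq
    have h3 : K ⊓ P = ⊥ := by
      apply Subgroup.inf_eq_bot_of_coprime
      rw [hj]; exact Nat.Coprime.pow_right j hKcop
    have h4 : k * x * k⁻¹ * x⁻¹ ∈ K ⊓ P := ⟨h2, h1⟩
    rw [h3, Subgroup.mem_bot] at h4
    rw [mul_inv_eq_one, mul_inv_eq_iff_eq_mul] at h4
    exact h4
  set π := QuotientGroup.mk' O with hπ
  set Q := pCore p (G ⧸ O) with hQ
  have hQp : IsPGroup p Q := L0.pCore_isPGroup p _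
  have hQn : Q.Normal := inferInstance
  have hKbcop : (Nat.card (K.map π)).Coprime p := Nat.Coprime.coprime_dvd_left (Subgroup.card_map_dvd _ _) hKcop
  have hQK : Q ⊓ K.map π = ⊥ := by
    obtain ⟨j, hj⟩ := hQp.exists_card_eq
    apply Subgroup.inf_eq_bot_of_coprime
    rw [hj]; exact (Nat.Coprime.pow_right j hKbcop).symm
  have hax := L0.axb_lemma (p := p) (A := K.map π) (B := P.map π) (P := Q)
    (by rw [Subgroup.normalizer_eq_top]; exact le_top) (by rw [Subgroup.normalizer_eq_top]; exact le_top) hQp (hP.map π) hKbcop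
    (by
      rintro _ ⟨k, hk, rfl⟩ _ ⟨x, hx, rfl⟩
      rw [← map_mul, ← map_mul, hcomm k hk x hx])
    (by
      rintro q ⟨hqQ, hqc⟩
      obtain ⟨g, rfl⟩ := QuotientGroup.mk'_surjective O q
      have hg : ∀ x ∈ P, g * x * g⁻¹ ∈ P ⊔ O := by
        intro x hx
        have h1 := (Subgroup.mem_centralizer_iff.mp hqc) (π x) (Subgroup.mem_map_of_mem π hx)
        have h2 : x⁻¹ * (g * x * g⁻¹) ∈ O := by
          rw [← QuotientGroup.eq_one_iff]
          simp only [QuotientGroup.mk_mul, QuotientGroup.mk_inv]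
          simp only [hπ, QuotientGroup.mk'_apply] at h1
          rw [← h1]; group
        rw [show g * x * g⁻¹ = x * (x⁻¹ * (g * x * g⁻¹)) by group]
        exact Subgroup.mul_mem _ (Subgroup.mem_sup_left hx) (Subgroup.mem_sup_right h2)
      obtain ⟨c, hcO, n, hn, hgn⟩ := norm_lift (inferInstance : O.Normal) hOcop hP g hg
      have hgn' : π g = π n := by
        rw [hgn, map_mul, show π c = 1 from (QuotientGroup.eq_one_iff c).mpr hcO, one_mul]
      have hqQ' : π n ∈ Q := hgn' ▸ hqQ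
      show π g ∈ _
      rw [hgn', Subgroup.mem_centralizer_iff]
      rintro _ ⟨k, hk, rfl⟩
      have h1 : π n * π k * (π n)⁻¹ * (π k)⁻¹ ∈ K.map π := by
        rw [← map_inv, ← map_inv, ← map_mul, ← map_mul, ← map_mul]
        exact Subgroup.mem_map_of_mem π (K.mul_mem (hKconj n hn k hk) (K.inv_mem hk))
      have h2 : π n * π k * (π n)⁻¹ * (π k)⁻¹ ∈ Q := by
        rw [show π n * π k * (π n)⁻¹ * (π k)⁻¹ = π n * (π k * (π n)⁻¹ * (π k)⁻¹) by group]
        exact Q.mul_mem hqQ' (hQn.conj_mem _ (Q.inv_mem hqQ') _)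
      have h3 : π n * π k * (π n)⁻¹ * (π k)⁻¹ ∈ Q ⊓ K.map π := ⟨h2, h1⟩
      rw [hQK, Subgroup.mem_bot, mul_inv_eq_one, mul_inv_eq_iff_eq_mul] at h3
      exact h3.symm)
  rw [Subgroup.commutator_eq_bot_iff_le_centralizer] at hax
  have h5 : K.map π ≤ Q := by
    refine le_trans ?_ hc
    rw [Subgroup.le_centralizer_iff]
    exact hax
  have h6 : K.map π = ⊥ := by
    rw [← hQK]; exact (inf_eq_right.mpr h5).symm
  rw [Subgroup.map_eq_bot_iff, hπ, QuotientGroup.ker_mk'] at h6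
  exact h6

end Cfsg.Agent.H4
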