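import Mathlib
import Cfsg.Prelude.Def_Perm

set_option linter.all false
set_option autoImplicit false

namespace Cfsg.Agent.H4
open Cfsg
universe u v

section
variable {α : Type u} [Fintype α] [DecidableEq α] {K : Type v} [Field K] (W : Subrepresentation (permRep K (alternatingGroup α) α))

theorem three_alt {a b c : α} (hab : a ≠ b) (hbc : b ≠ c) (hac : a ≠ c) :
    ∃ g : alternatingGroup α, ∀ f : α → K, ∀ x, permRep K (alternatingGroup α) α g f x = if x = b then f a else if x = c then f b else if x = a then f c else f x := by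
  refine ⟨⟨Equiv.swap a b * Equiv.swap b c, ?_⟩, ?_⟩
  · rw [Equiv.Perm.mem_alternatingGroup, map_mul, Equiv.Perm.sign_swap hab, Equiv.Perm.sign_swap hbc]; norm_num
  · intro f x
    show f ((Equiv.swap a b * Equiv.swap b c)⁻¹ x) = _
    rw [mul_inv_rev, Equiv.swap_inv, Equiv.swap_inv, Equiv.Perm.mul_apply]
    split_ifs with h1 h2 h3
    · rw [h1, Equiv.swap_apply_right, Equiv.swap_apply_of_ne_of_ne hab hac]
    · rw [h2, Equiv.swap_apply_of_ne_of_ne hac.symm hbc.symm, Equiv.swap_apply_right]
    · rw [h3, Equiv.swap_apply_left, Equiv.swap_apply_left]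
    · rw [Equiv.swap_apply_of_ne_of_ne h3 h1, Equiv.swap_apply_of_ne_of_ne h1 h2]

theorem exists_not_mem_of_card (s : Finset α) (h : s.card < Fintype.card α) : ∃ x, x ∉ s := by
  by_contra hcon
  push Not at hcon
  have : s = Finset.univ := Finset.eq_univ_iff_forall.mpr hcon
  rw [this, Finset.card_univ] at h
  exact lt_irrefl _ h

theorem sumZero_le (hα : 5 ≤ Fintype.card α) {v : α → K} (hv : v ∈ W.toSubmodule) {a b : α} (hab : v a ≠ v b) :
    (permSumZero K (alternatingGroup α) α).toSubmodule ≤ W.toSubmodule := by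
  classical
  have hab' : a ≠ b := fun h => hab (h ▸ rfl)
  obtain ⟨c, hc⟩ := exists_not_mem_of_card ({a, b} : Finset α) (lt_of_le_of_lt Finset.card_le_two (by omega))
  simp only [Finset.mem_insert, Finset.mem_singleton, not_or] at hc
  obtain ⟨hca, hcb⟩ := hc
  obtain ⟨d, hd⟩ := exists_not_mem_of_card ({a, b, c} : Finset α) (lt_of_le_of_lt Finset.card_le_three (by omega))
  simp only [Finset.mem_insert, Finset.mem_singleton, not_or] at hd
  obtain ⟨hda, hdb, hdc⟩ := hd
  obtain ⟨e, he⟩ := exists_not_mem_of_card ({a, b, c, d} : Finset α) (lt_of_le_of_lt Finset.card_le_four (by omega))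
  simp only [Finset.mem_insert, Finset.mem_singleton, not_or] at he
  obtain ⟨hea, heb, hec, hed⟩ := he
  obtain ⟨g, hg⟩ := three_alt (K := K) hab' (Ne.symm hcb) (Ne.symm hca)
  obtain ⟨h, hh⟩ := three_alt (K := K) (Ne.symm hdb) (Ne.symm hed) (Ne.symm heb)
  set w := permRep K (alternatingGroup α) α g v - v with hw
  have hwW : w ∈ W.toSubmodule := W.toSubmodule.sub_mem (W.apply_mem_toSubmodule g hv) hv
  set t := permRep K (alternatingGroup α) α h w - w with ht
  have htW : t ∈ W.toSubmodule := W.toSubmodule.sub_mem (W.apply_mem_toSubmodule h hwW) hwW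
  have hwval : ∀ x, x ≠ a → x ≠ b → x ≠ c → w x = 0 := by
    intro x h1 h2 h3
    rw [hw, Pi.sub_apply, hg, if_neg h2, if_neg h3, if_neg h1, sub_self]
  have hwb : w b = v a - v b := by rw [hw, Pi.sub_apply, hg, if_pos rfl]
  have hwb0 : w b ≠ 0 := by rw [hwb]; exact sub_ne_zero.mpr hab
  have hwd : w d = 0 := hwval d hda hdb hdc
  have hwe : w e = 0 := hwval e hea heb hec
  have htv : t = w b • (Pi.single d 1 - Pi.single b 1 : α → K) := by
    funext x
    rw [ht, Pi.sub_apply, hh, Pi.smul_apply, Pi.sub_apply, smul_eq_mul]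
    by_cases h1 : x = d
    · subst h1
      rw [if_pos rfl, hwd, Pi.single_eq_same, Pi.single_eq_of_ne hdb]; ring
    · by_cases h2 : x = e
      · subst h2
        rw [if_neg h1, if_pos rfl, hwd, hwe, Pi.single_eq_of_ne hed, Pi.single_eq_of_ne heb]; ring
      · by_cases h3 : x = b
        · subst h3
          rw [if_neg h1, if_neg h2, if_pos rfl, hwe, Pi.single_eq_of_ne h1, Pi.single_eq_same]; ring
        · rw [if_neg h1, if_neg h2, if_neg h3, Pi.single_eq_of_ne h1, Pi.single_eq_of_ne h3]; ring
  have hdbW : (Pi.single d 1 - Pi.single b 1 : α → K) ∈ W.toSubmodule := by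
    have : (Pi.single d 1 - Pi.single b 1 : α → K) = (w b)⁻¹ • t := by
      rw [htv, smul_smul, inv_mul_cancel₀ hwb0, one_smul]
    rw [this]; exact W.toSubmodule.smul_mem _ htW
  have hall : ∀ x, (Pi.single x 1 - Pi.single b 1 : α → K) ∈ W.toSubmodule := by
    intro x
    by_cases hxb : x = b
    · rw [hxb, sub_self]; exact W.toSubmodule.zero_mem
    by_cases hxd : x = d
    · rw [hxd]; exact hdbW
    obtain ⟨s, hs⟩ := exists_not_mem_of_card ({b, d, x} : Finset α) (lt_of_le_of_lt Finset.card_le_three (by omega))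
    simp only [Finset.mem_insert, Finset.mem_singleton, not_or] at hs
    obtain ⟨hsb, hsd, hsx⟩ := hs
    obtain ⟨k, hk⟩ := three_alt (K := K) (a := d) (b := x) (c := s) (Ne.symm hxd) (Ne.symm hsx) (Ne.symm hsd)
    have hmem := W.apply_mem_toSubmodule k hdbW
    convert hmem using 1
    clear hmem
    funext y
    rw [hk]
    simp only [Pi.sub_apply]
    by_cases h1 : y = x
    · subst h1
      rw [if_pos rfl, Pi.single_eq_same, Pi.single_eq_same, Pi.single_eq_of_ne hxb, Pi.single_eq_of_ne hdb]
    · by_cases h2 : y = s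
      · subst h2
        rw [if_neg h1, if_pos rfl, Pi.single_eq_of_ne h1, Pi.single_eq_of_ne hsb, Pi.single_eq_of_ne hxd, Pi.single_eq_of_ne hxb]
      · by_cases h3 : y = d
        · subst h3
          rw [if_neg h1, if_neg h2, if_pos rfl, Pi.single_eq_of_ne h1, Pi.single_eq_of_ne hdb, Pi.single_eq_of_ne hsd, Pi.single_eq_of_ne hsb]
        · rw [if_neg h1, if_neg h2, if_neg h3, Pi.single_eq_of_ne h1, Pi.single_eq_of_ne h3]
  intro f hf
  have hf' : ∑ x, f x = 0 := hf
  have h1 : f = ∑ x, f x • (Pi.single x 1 - Pi.single b 1 : α → K) := by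
    funext y
    simp only [Finset.sum_apply, Pi.smul_apply, Pi.sub_apply, smul_eq_mul, mul_sub, Finset.sum_sub_distrib]
    rw [← Finset.sum_mul, hf', zero_mul, sub_zero]
    rw [Finset.sum_eq_single y]
    · rw [Pi.single_eq_same, mul_one]
    · intro x _ hxy
      rw [Pi.single_eq_of_ne (Ne.symm hxy), mul_zero]
    · intro h; exact absurd (Finset.mem_univ y) h
  rw [h1]
  exact W.toSubmodule.sum_mem fun x _ => W.toSubmodule.smul_mem _ (hall x)

theorem perm_submodules (hα : 5 ≤ Fintype.card α) : W.toSubmodule = ⊥ ∨ W = permConstants K (alternatingGroup α) α ∨ W = permSumZero K (alternatingGroup α) α ∨ W.toSubmodule = ⊤ := by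
  classical
  by_cases hconst : ∀ v ∈ W.toSubmodule, ∀ a b : α, v a = v b
  · by_cases hb : W.toSubmodule = ⊥
    · exact Or.inl hb
    · right; left
      obtain ⟨v, hv, hv0⟩ := Submodule.exists_mem_ne_zero_of_ne_bot hb
      obtain ⟨a, ha⟩ := Function.ne_iff.mp hv0
      apply Subrepresentation.toSubmodule_injective
      show W.toSubmodule = Submodule.span K {fun _ => 1}
      apply le_antisymm
      · intro w hw
        rw [Submodule.mem_span_singleton]
        refine ⟨w a, ?_⟩
        funext x
        show w a * 1 = w x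
        rw [mul_one]; exact hconst w hw a x
      · rw [Submodule.span_singleton_le_iff_mem]
        have : (fun _ => 1 : α → K) = (v a)⁻¹ • v := by
          funext x
          rw [Pi.smul_apply, smul_eq_mul, hconst v hv x a, inv_mul_cancel₀ ha]
        rw [this]; exact W.toSubmodule.smul_mem _ hv
  · push Not at hconst
    obtain ⟨v, hv, a, b, hab⟩ := hconst
    have h1 := sumZero_le W hα hv hab
    by_cases h2 : W.toSubmodule ≤ (permSumZero K (alternatingGroup α) α).toSubmodule
    · right; right; left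
      exact Subrepresentation.toSubmodule_injective (le_antisymm h2 h1)
    · right; right; right
      rw [SetLike.not_le_iff_exists] at h2
      obtain ⟨w, hw, hw'⟩ := h2
      have hs : ∑ x, w x ≠ 0 := hw'
      rw [eq_top_iff]
      intro f _
      have h3 : f - ((∑ x, f x) / (∑ x, w x)) • w ∈ W.toSubmodule := by
        apply h1
        show ∑ x, (f - ((∑ x, f x) / (∑ x, w x)) • w) x = 0
        simp only [Pi.sub_apply, Pi.smul_apply, smul_eq_mul, Finset.sum_sub_distrib, ← Finset.mul_sum]
        rw [div_mul_cancel₀ _ hs, sub_self]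
      have h4 := W.toSubmodule.add_mem h3 (W.toSubmodule.smul_mem ((∑ x, f x) / (∑ x, w x)) hw)
      rwa [sub_add_cancel] at h4

end
end Cfsg.Agent.H4
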