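import Cfsg.Agent.H4.Cyc3
import Cfsg.Agent.H4.Cliff4

set_option linter.all false
set_option autoImplicit false

/-! Groups `L = K ⋊ W₁` with `C_K(x) = W₂` for all `1 ≠ x ∈ W₁`. -/

namespace Cfsg.Agent.H4

open Module
open scoped ComplexConjugate Pointwise

universe u v w

section
variable {L : Type u} [Group L] {K W₁ W₂ : Subgroup L}

theorem prim_comm (hC : ∀ x ∈ W₁, x ≠ 1 → K ⊓ Subgroup.centralizer ({x} : Set L) = W₂) :
    ∀ a ∈ W₁, ∀ b ∈ W₂, a * b = b * a := by
  intro a ha b hb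
  by_cases h : a = 1
  · rw [h, one_mul, mul_one]
  · rw [← hC a ha h] at hb
    exact (Subgroup.mem_centralizer_singleton_iff.mp hb.2).symm

theorem prim_cop [Finite L] (hHall : Nat.Coprime (Nat.card W₁) W₁.index) (hKW₁ : K ⊓ W₁ = ⊥)
    (hKW₁' : K ⊔ W₁ = ⊤) (hK : K.Normal) : Nat.card K = W₁.index ∧ Nat.card W₁ = K.index := by
  have h1 : Nat.card ↥(K ⊔ W₁) = Nat.card K * Nat.card W₁ :=
    L0.card_sup_of_normalizes (by rw [Subgroup.normalizer_eq_top]; exact le_top) hKW₁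
  rw [hKW₁', Subgroup.card_top] at h1
  constructor
  · have h2 := W₁.card_mul_index
    rw [h1, mul_comm (Nat.card K)] at h2
    exact (Nat.eq_of_mul_eq_mul_left Nat.card_pos h2).symm
  · have h2 := K.card_mul_index
    rw [h1] at h2
    exact (Nat.eq_of_mul_eq_mul_left Nat.card_pos h2).symm

theorem isCyclic_sup_of_coprime [Finite L] (hc1 : IsCyclic W₁) (hc2 : IsCyclic W₂) (hcomm : ∀ a ∈ W₁, ∀ b ∈ W₂, a * b = b * a)
    (hcop : Nat.Coprime (Nat.card W₁) (Nat.card W₂)) : IsCyclic ↥(W₁ ⊔ W₂) := by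
  have hdisj : W₁ ⊓ W₂ = ⊥ := L0.inf_eq_bot_of_coprime' hcop
  obtain ⟨⟨a, ha⟩, hagen⟩ := hc1.exists_generator
  obtain ⟨⟨b, hb⟩, hbgen⟩ := hc2.exists_generator
  have h1 : orderOf a = Nat.card W₁ := by
    rw [← Subgroup.orderOf_mk a ha]; exact orderOf_eq_card_of_forall_mem_zpowers hagen
  have h2 : orderOf b = Nat.card W₂ := by
    rw [← Subgroup.orderOf_mk b hb]; exact orderOf_eq_card_of_forall_mem_zpowers hbgen
  have h3 : orderOf (a * b) = Nat.card W₁ * Nat.card W₂ := by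
    rw [Commute.orderOf_mul_eq_mul_orderOf_of_coprime (hcomm a ha b hb) (by rw [h1, h2]; exact hcop), h1, h2]
  have hmem : a * b ∈ W₁ ⊔ W₂ := Subgroup.mul_mem _ (Subgroup.mem_sup_left ha) (Subgroup.mem_sup_right hb)
  apply isCyclic_of_orderOf_eq_card (⟨a * b, hmem⟩ : ↥(W₁ ⊔ W₂))
  rw [Subgroup.orderOf_mk, h3, card_snc hdisj hcomm]

theorem prim_snc [Finite L] (hK : K.Normal) (hKW₁ : K ⊓ W₁ = ⊥) (hKW₁' : K ⊔ W₁ = ⊤) (hW₁ : W₁ ≠ ⊥) (hW₁c : IsCyclic W₁)
    (hHall : Nat.Coprime (Nat.card W₁) W₁.index) (hW₂ : W₂ ≠ ⊥) (hW₂c : IsCyclic W₂) (hW₂K : W₂ ≤ K)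
    (hC : ∀ x ∈ W₁, x ≠ 1 → K ⊓ Subgroup.centralizer ({x} : Set L) = W₂) : IsSelfNormalizingCyclic W₁ W₂ := by
  have hcomm := prim_comm hC
  obtain ⟨hcK, hcW⟩ := prim_cop hHall hKW₁ hKW₁' hK
  have hcop : Nat.Coprime (Nat.card W₁) (Nat.card W₂) := by
    apply Nat.Coprime.coprime_dvd_right (Subgroup.card_dvd_of_le hW₂K)
    rw [hcK]; exact hHall
  have hdisj : W₁ ⊓ W₂ = ⊥ := L0.inf_eq_bot_of_coprime' hcop
  have hcyc := isCyclic_sup_of_coprime hW₁c hW₂c hcomm hcop
  have hWab : ∀ a b : L, a ∈ W₁ ⊔ W₂ → b ∈ W₁ ⊔ W₂ → a * b = b * a := by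
    intro a b ha hb
    have := (IsCyclic.commGroup (α := ↥(W₁ ⊔ W₂))).mul_comm ⟨a, ha⟩ ⟨b, hb⟩
    exact congrArg Subtype.val this
  refine ⟨hW₁, hW₂, hdisj, hcomm, hcyc, ?_⟩
  intro X hX hne
  apply le_antisymm
  · intro g hg
    obtain ⟨v, hv⟩ := hne
    have hv' := (Subgroup.mem_set_normalizer_iff.mp hg v).mp hv
    have hvW := hX hv
    have hvW' := hX hv'
    have hn : W₂ ≤ Subgroup.normalizer (W₁ : Set L) := by
      rw [Subgroup.le_normalizer_iff]
      intro b hb a ha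
      rw [← hcomm a ha b hb, mul_inv_cancel_right]; exact ha
    obtain ⟨a, ha, b, hb, hab⟩ := (L0.mem_sup_of_normalizes hn).mp hvW.1
    obtain ⟨a', ha', b', hb', hab'⟩ := (L0.mem_sup_of_normalizes hn).mp hvW'.1
    have ha1 : a ≠ 1 := by
      rintro rfl
      apply hvW.2
      right
      rw [← hab, one_mul]; exact hb
    have hord : ∀ {M : Subgroup L} {z : L}, z ∈ M → orderOf z ∣ Nat.card M := by
      intro M z hz
      have := orderOf_dvd_natCard (⟨z, hz⟩ : M)
      rwa [Subgroup.orderOf_mk] at this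
    have hpart := parts_unique (m := Nat.card W₁) (n := Nat.card W₂) hcop (a := g * a * g⁻¹) (b := g * b * g⁻¹) (c := a') (d := b')
      (by
        show g * a * g⁻¹ * (g * b * g⁻¹) = g * b * g⁻¹ * (g * a * g⁻¹)
        calc g * a * g⁻¹ * (g * b * g⁻¹) = g * (a * b) * g⁻¹ := by group
          _ = g * (b * a) * g⁻¹ := by rw [hcomm a ha b hb]
          _ = _ := by group)
      (hcomm a' ha' b' hb') (by rw [orderOf_conj]; exact hord ha) (by rw [orderOf_conj]; exact hord hb) (hord ha') (hord hb')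
      (by rw [hab', ← hab]; group)
    -- decompose g
    obtain ⟨k, hk, w, hw, rfl⟩ := frob_decomp hK hKW₁' g
    have h1 : k * a * k⁻¹ = a' := by
      have h2 : w * a = a * w := hWab w a (Subgroup.mem_sup_left hw) (Subgroup.mem_sup_left ha)
      rw [← hpart.1]
      calc k * a * k⁻¹ = k * (a * w) * w⁻¹ * k⁻¹ := by group
        _ = k * (w * a) * w⁻¹ * k⁻¹ := by rw [h2]
        _ = _ := by group
    have h2 : a' * a⁻¹ = 1 := by
      have h3 : a' * a⁻¹ ∈ K ⊓ W₁ := by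
        refine ⟨?_, W₁.mul_mem ha' (W₁.inv_mem ha)⟩
        rw [← h1]
        have h4 : k * a * k⁻¹ * a⁻¹ = k * (a * k⁻¹ * a⁻¹) := by group
        rw [h4]
        exact K.mul_mem hk (hK.conj_mem _ (K.inv_mem hk) a)
      rw [hKW₁, Subgroup.mem_bot] at h3
      exact h3
    have h3 : a' = a := mul_inv_eq_one.mp h2
    rw [h3] at h1
    have h4 : k ∈ W₂ := by
      rw [← hC a ha ha1]
      exact ⟨hk, Subgroup.mem_centralizer_singleton_iff.mpr (mul_inv_eq_iff_eq_mul.mp h1)⟩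
    exact Subgroup.mul_mem _ (Subgroup.mem_sup_right h4) (Subgroup.mem_sup_left hw)
  · intro g hg
    rw [Subgroup.mem_set_normalizer_iff]
    intro z
    constructor
    · intro hz
      rw [hWab g z hg (hX hz).1, mul_inv_cancel_right]; exact hz
    · intro hz
      have h1 : z = g⁻¹ * (g * z * g⁻¹) * g := by group
      rw [h1, hWab g⁻¹ _ (Subgroup.inv_mem _ hg) (hX hz).1, inv_mul_cancel_right]; exact hz

/-- number of classes / characters of `K` fixed by an element of `W₁` -/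
theorem prim_fixed_classes [Finite L] (hK : K.Normal) (x : L) (hx1 : x ≠ 1) (hx : Nat.Coprime (orderOf x) (Nat.card K))
    (hC : K ⊓ Subgroup.centralizer ({x} : Set L) = W₂) (hab : ∀ a ∈ W₂, ∀ b ∈ W₂, a * b = b * a) :
    Nat.card {C : ConjClasses K // ConjClasses.map (conjAut hK x).toMonoidHom C = C} = Nat.card W₂ := by
  classical
  symm
  have hNx : x ∈ Subgroup.normalizer (K : Set L) := by rw [Subgroup.normalizer_eq_top]; trivial
  have hW₂ : ∀ k : L, k ∈ W₂ ↔ k ∈ K ∧ k * x = x * k := by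
    intro k
    rw [← hC, Subgroup.mem_inf, Subgroup.mem_centralizer_singleton_iff]
  have hord : ∀ {M : Subgroup L} {z : L}, z ∈ M → orderOf z ∣ Nat.card M := by
    intro M z hz
    have := orderOf_dvd_natCard (⟨z, hz⟩ : M)
    rwa [Subgroup.orderOf_mk] at this
  let F : W₂ → {C : ConjClasses K // ConjClasses.map (conjAut hK x).toMonoidHom C = C} := fun k =>
    ⟨ConjClasses.mk ⟨k, ((hW₂ k).mp k.2).1⟩, by
      show ConjClasses.mk (conjAut hK x ⟨k, ((hW₂ k).mp k.2).1⟩) = _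
      congr 1
      apply Subtype.ext
      rw [conjAut_coe]
      show x * k * x⁻¹ = k
      rw [← ((hW₂ k).mp k.2).2, mul_inv_cancel_right]⟩
  apply Nat.card_congr
  refine Equiv.ofBijective F ⟨?_, ?_⟩
  · intro k k' h
    have h1 : ConjClasses.mk (⟨k, ((hW₂ k).mp k.2).1⟩ : K) = ConjClasses.mk ⟨k', ((hW₂ k').mp k'.2).1⟩ := congrArg Subtype.val h
    rw [ConjClasses.mk_eq_mk_iff_isConj, isConj_iff] at h1
    obtain ⟨u, hu⟩ := h1
    have hu' : (u : L) * k * (u : L)⁻¹ = k' := congrArg Subtype.val hu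
    obtain ⟨hkK, hkx⟩ := (hW₂ k).mp k.2
    obtain ⟨hkK', hkx'⟩ := (hW₂ k').mp k'.2
    -- C = C_K(k)
    set C : Subgroup L := K ⊓ Subgroup.centralizer ({(k : L)} : Set L) with hCdef
    have hxC : x ∈ Subgroup.normalizer (C : Set L) := by
      have h2 : ∀ y : L, y * k = k * y → ∀ z ∈ C, y * z * y⁻¹ ∈ C := by
        intro y hy z hz
        refine Subgroup.mem_inf.mpr ⟨hK.conj_mem z hz.1 y, Subgroup.mem_centralizer_singleton_iff.mpr ?_⟩
        have h3 := Subgroup.mem_centralizer_singleton_iff.mp hz.2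
        have h4 : y⁻¹ * k = k * y⁻¹ := by
          rw [inv_mul_eq_iff_eq_mul, ← mul_assoc, hy]; group
        calc y * z * y⁻¹ * k = y * z * (y⁻¹ * k) := by group
          _ = y * (z * k) * y⁻¹ := by rw [h4]; group
          _ = (y * k) * z * y⁻¹ := by rw [h3]; group
          _ = k * (y * z * y⁻¹) := by rw [hy]; group
      rw [Subgroup.mem_normalizer_iff]
      intro z
      constructor
      · exact h2 x hkx.symm z
      · intro hz
        have h3 := h2 x⁻¹ (by rw [inv_mul_eq_iff_eq_mul, ← mul_assoc, ← hkx]; group) _ hz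
        have h4 : x⁻¹ * (x * z * x⁻¹) * x⁻¹⁻¹ = z := by group
        rwa [h4] at h3
    have hCK : C ≤ K := inf_le_left
    have hcop : Nat.Coprime (orderOf x) (Nat.card C) := Nat.Coprime.coprime_dvd_right (Subgroup.card_dvd_of_le hCK) hx
    have hmem : (u : L)⁻¹ * x * u * x⁻¹ ∈ C := by
      refine Subgroup.mem_inf.mpr ⟨?_, ?_⟩
      · have h3 : (u : L)⁻¹ * x * u * x⁻¹ = (u : L)⁻¹ * (x * u * x⁻¹) := by group
        rw [h3]; exact K.mul_mem (K.inv_mem u.2) (hK.conj_mem _ u.2 x)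
      · rw [Subgroup.mem_centralizer_singleton_iff]
        have h3 : (k : L) = (u : L)⁻¹ * k' * u := by rw [← hu']; group
        have h4 : ((u : L)⁻¹ * x * u) * k = k * ((u : L)⁻¹ * x * u) := by
          rw [h3]
          calc (u : L)⁻¹ * x * u * ((u : L)⁻¹ * k' * u) = (u : L)⁻¹ * (x * k') * u := by group
            _ = (u : L)⁻¹ * (k' * x) * u := by rw [hkx']
            _ = _ := by group
        have h5 : x⁻¹ * (k : L) = k * x⁻¹ := by rw [inv_mul_eq_iff_eq_mul, ← mul_assoc, ← hkx]; group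
        calc (u : L)⁻¹ * x * u * x⁻¹ * k = (u : L)⁻¹ * x * u * (x⁻¹ * k) := by group
          _ = ((u : L)⁻¹ * x * u) * k * x⁻¹ := by rw [h5]; group
          _ = k * ((u : L)⁻¹ * x * u * x⁻¹) := by rw [h4]; group
    obtain ⟨c, hc, d, hd, hdx, hcd⟩ := coset_conj C x hxC hcop _ hmem
    have h6 : c * ((u : L)⁻¹ * x * u) * c⁻¹ = d * x := by
      rw [← hcd]; group
    have h7 : d = 1 := by
      have h8 : orderOf (d * x) = orderOf x := by
        rw [← h6, orderOf_conj]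
        have h9 : (u : L)⁻¹ * x * u = (u : L)⁻¹ * x * (u : L)⁻¹⁻¹ := by rw [inv_inv]
        rw [h9, orderOf_conj]
      have h9 : d ^ orderOf x = 1 := by
        have h10 : (d * x) ^ orderOf x = 1 := by rw [← h8]; exact pow_orderOf_eq_one _
        rw [(show Commute d x from hdx).mul_pow, pow_orderOf_eq_one, mul_one] at h10
        exact h10
      exact orderOf_eq_one_iff.mp (Nat.eq_one_of_dvd_coprimes hcop (orderOf_dvd_of_pow_eq_one h9) (hord hd))
    rw [h7, one_mul] at h6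
    have h8 : (u : L) * c⁻¹ ∈ W₂ := by
      rw [hW₂]
      refine ⟨K.mul_mem u.2 (K.inv_mem (hCK hc)), ?_⟩
      have h9 : (u : L) * c⁻¹ * (c * ((u : L)⁻¹ * x * u) * c⁻¹) = x * (u * c⁻¹) := by group
      rw [h6] at h9
      exact h9
    have h9 := Subgroup.mem_centralizer_singleton_iff.mp hc.2
    apply Subtype.ext
    have h10 : (u : L) * c⁻¹ * k = k' * (u * c⁻¹) := by
      have h11 : c⁻¹ * (k : L) = k * c⁻¹ := by rw [inv_mul_eq_iff_eq_mul, ← mul_assoc, h9]; group
      calc (u : L) * c⁻¹ * k = u * (c⁻¹ * k) := by group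
        _ = (u * k * (u : L)⁻¹) * (u * c⁻¹) := by rw [h11]; group
        _ = _ := by rw [hu']
    rw [hab _ h8 _ k.2] at h10
    exact mul_right_cancel h10
  · rintro ⟨C, hCfix⟩
    induction C using Quotient.inductionOn with
    | _ c =>
      have h3 : IsConj (conjAut hK x c) c := ConjClasses.mk_eq_mk_iff_isConj.1 hCfix
      obtain ⟨y, hy⟩ := isConj_iff.1 h3
      have h4 : (y : L) * (x * c * x⁻¹) * (y : L)⁻¹ = c := congrArg Subtype.val hy
      have h5 : ((y : L) * x) * c = c * (y * x) := by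
        calc ((y : L) * x) * c = (y : L) * (x * c * x⁻¹) * (y : L)⁻¹ * (y * x) := by group
          _ = c * (y * x) := by rw [h4]
      obtain ⟨u, hu, d, hd, hdx, hud⟩ := coset_conj K x hNx hx y y.2
      have h6 : (d * x) * (u * c * u⁻¹) = (u * c * u⁻¹) * (d * x) := by
        rw [← hud]
        calc u * (y * x) * u⁻¹ * (u * c * u⁻¹) = u * ((y * x) * c) * u⁻¹ := by group
          _ = u * (c * (y * x)) * u⁻¹ := by rw [h5]
          _ = _ := by group
      have h7 : (d * x) ^ partExp hx = x := by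
        have h8 := mul_pow_partExp hx (x := x) (y := d) (show Commute x d from hdx.symm) (dvd_refl _) (hord hd)
        rw [← hdx] at h8
        exact h8
      have h8 : x * (u * c * u⁻¹) = (u * c * u⁻¹) * x := by
        have := (Commute.pow_left (show Commute (d * x) (u * c * u⁻¹) from h6) (partExp hx))
        rw [h7] at this
        exact this
      have h9 : u * (c : L) * u⁻¹ ∈ K := K.mul_mem (K.mul_mem hu c.2) (K.inv_mem hu)
      refine ⟨⟨u * c * u⁻¹, (hW₂ _).mpr ⟨h9, h8.symm⟩⟩, ?_⟩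
      apply Subtype.ext
      show ConjClasses.mk (⟨u * c * u⁻¹, h9⟩ : K) = ConjClasses.mk c
      rw [ConjClasses.mk_eq_mk_iff_isConj]
      apply IsConj.symm
      rw [isConj_iff]
      exact ⟨⟨u, hu⟩, rfl⟩

theorem prim_fixed_chars [Finite L] (hK : K.Normal) (x : L) (hx1 : x ≠ 1) (hx : Nat.Coprime (orderOf x) (Nat.card K))
    (hC : K ⊓ Subgroup.centralizer ({x} : Set L) = W₂) (hab : ∀ a ∈ W₂, ∀ b ∈ W₂, a * b = b * a) :
    Nat.card {χ : IrrCharacter K // conjBy hK x (χ : K → ℂ) = (χ : K → ℂ)} = Nat.card W₂ := by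
  rw [← prim_fixed_classes hK x hx1 hx hC hab, brauer_perm_aut]
  rfl

end

end Cfsg.Agent.H4
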