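import Mathlib
import Cfsg.Prelude.Def_Perm

set_option linter.all false
set_option autoImplicit false

/-! Burnside's theorem on permutation groups of prime degree (after P. Müller). -/

namespace Cfsg.Agent.H4

open Polynomial

theorem muller_aux {p : ℕ} [hp : Fact p.Prime] (U : Finset (ZMod p)) (r : ℕ) (hr0 : 0 < r) (h2r : 2 * r ≤ p - 1)
    (hSj : ∀ j, j ≠ 0 → j < r → ∑ u ∈ U, u ^ j = 0) (hSr : ∑ u ∈ U, u ^ r ≠ 0) (σ : Equiv.Perm (ZMod p))
    (hσ : ∀ x : ZMod p, ∀ u ∈ U, ∃ v ∈ U, σ (x + u) = σ x + v) :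
    ∃ a b : ZMod p, ∀ x, σ x = a * x + b := by
  classical
  obtain ⟨h, hh⟩ : ∃ h, h = U.card := ⟨_, rfl⟩
  have hpp : p.Prime := hp.out
  have hp2 := hpp.two_le
  -- power sums
  have hS0 : ∑ u ∈ U, u ^ 0 = (h : ZMod p) := by simp [hh]
  -- moments
  have hmom : ∀ (m : ℕ) (x : ZMod p), ∑ u ∈ U, (σ (x + u)) ^ m = ∑ u ∈ U, (σ x + u) ^ m := by
    intro m x
    have himg : U.image (fun u => σ (x + u) - σ x) = U := by
      apply Finset.eq_of_subset_of_card_le
      · intro w hw
        obtain ⟨u, hu, rfl⟩ := Finset.mem_image.1 hw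
        obtain ⟨v, hv, hv'⟩ := hσ x u hu
        rw [hv', add_sub_cancel_left]; exact hv
      · rw [Finset.card_image_of_injective]
        intro u v huv
        exact add_left_cancel (σ.injective (sub_left_injective huv))
    have hinj : Set.InjOn (fun u => σ (x + u) - σ x) (U : Set (ZMod p)) := by
      intro u _ v _ huv
      exact add_left_cancel (σ.injective (sub_left_injective huv))
    have e1 : ∑ u ∈ U, (σ x + u) ^ m = ∑ u ∈ U.image (fun u => σ (x + u) - σ x), (σ x + u) ^ m := by rw [himg]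
    rw [e1, Finset.sum_image hinj]
    apply Finset.sum_congr rfl
    intro u _
    rw [add_sub_cancel]
  -- the polynomial
  obtain ⟨f, hfeval, hfdeg⟩ : ∃ f : (ZMod p)[X], (∀ x, f.eval x = σ x) ∧ f.degree < p := by
    refine ⟨Lagrange.interpolate Finset.univ id σ, fun x => ?_, ?_⟩
    · exact Lagrange.eval_interpolate_at_node (r := σ) (v := id) (Set.injOn_id _) (Finset.mem_univ x)
    · have := Lagrange.degree_interpolate_lt (s := Finset.univ) (v := id) (r := σ) (Set.injOn_id _)
      rwa [Finset.card_univ, ZMod.card] at this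
  have hf0 : f ≠ 0 := by
    intro e
    have h1 : σ 0 = σ 1 := by rw [← hfeval, ← hfeval, e]; simp
    exact zero_ne_one (σ.injective h1)
  obtain ⟨n, hn⟩ : ∃ n, n = f.natDegree := ⟨_, rfl⟩
  have hnp : n < p := by
    rw [hn]
    exact (natDegree_lt_iff_degree_lt hf0).2 hfdeg
  by_cases hn1 : n ≤ 1
  · refine ⟨f.coeff 1, f.coeff 0, fun x => ?_⟩
    rw [← hfeval]
    have e := eq_X_add_C_of_natDegree_le_one (p := f) (by rw [← hn]; exact hn1)
    have e2 : f.eval x = (C (f.coeff 1) * X + C (f.coeff 0)).eval x := congrArg (fun q => q.eval x) e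
    rw [e2]
    simp
  exfalso
  push Not at hn1
  obtain ⟨m, hm⟩ : ∃ m, m = (p - 1) / n := ⟨_, rfl⟩
  obtain ⟨N, hN⟩ : ∃ N, N = m * n := ⟨_, rfl⟩
  have hm1 : 1 ≤ m := by rw [hm]; exact (Nat.one_le_div_iff (by omega)).2 (by omega)
  have hNp : N ≤ p - 1 := by rw [hN, hm]; exact Nat.div_mul_le_self _ _
  have hnN : n ≤ N := by rw [hN]; exact Nat.le_mul_of_pos_left n hm1
  have hhN : r < N := by
    have h1 : p - 1 < N + n := by
      have := Nat.lt_div_mul_add (a := p - 1) (b := n) (by omega)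
      rw [← hm, ← hN] at this
      exact this
    omega
  obtain ⟨g, hg⟩ : ∃ g, g = f ^ m := ⟨_, rfl⟩
  have hgdeg : g.natDegree = N := by rw [hg, natDegree_pow, ← hn, hN]
  have hgN : g.coeff N ≠ 0 := by
    rw [← hgdeg]
    change g.leadingCoeff ≠ 0
    rw [leadingCoeff_ne_zero, hg]
    exact pow_ne_zero _ hf0
  have hLR : (∑ u ∈ U, taylor u g) = ∑ u ∈ U, (f + C u) ^ m := by
    apply eq_of_natDegree_lt_card_of_eval_eq _ _ (Function.injective_id (α := ZMod p))
    · intro x
      rw [eval_finsetSum, eval_finsetSum]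
      simp only [id, taylor_eval, hg, eval_pow, eval_add, eval_C, hfeval]
      exact hmom m x
    · rw [ZMod.card]
      have hNp' : N < p := by omega
      refine lt_of_le_of_lt (show max _ _ ≤ N from max_le ?_ ?_) hNp'
      · apply natDegree_sum_le_of_forall_le
        intro u _
        rw [natDegree_taylor, hgdeg]
      · apply natDegree_sum_le_of_forall_le
        intro u _
        rw [natDegree_pow, natDegree_add_C, ← hn, hN]
  have hL : (∑ u ∈ U, taylor u g).coeff (N - r)
      = (h : ZMod p) * g.coeff (N - r) + (∑ u ∈ U, u ^ r) * ((N.choose (N - r) : ZMod p) * g.coeff N) := by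
    rw [finset_sum_coeff]
    have h1 : ∀ u ∈ U, (taylor u g).coeff (N - r)
        = ∑ j ∈ Finset.range (r + 1), (hasseDeriv (N - r) g).coeff j * u ^ j := by
      intro u _
      rw [taylor_coeff]
      apply eval_eq_sum_range'
      have := natDegree_hasseDeriv_le g (N - r)
      rw [hgdeg] at this
      omega
    rw [Finset.sum_congr rfl h1, Finset.sum_comm]
    have h2 : ∀ j, ∑ u ∈ U, (hasseDeriv (N - r) g).coeff j * u ^ j
        = (hasseDeriv (N - r) g).coeff j * ∑ u ∈ U, u ^ j := by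
      intro j; rw [Finset.mul_sum]
    rw [Finset.sum_congr rfl (fun j _ => h2 j), Finset.sum_range_succ, Finset.sum_eq_single 0, hS0,
      hasseDeriv_coeff, hasseDeriv_coeff]
    · have e1 : r + (N - r) = N := by omega
      rw [e1, zero_add, Nat.choose_self]
      push_cast
      ring
    · intro j hj hj0
      rw [hSj j hj0 (Finset.mem_range.1 hj), mul_zero]
    · intro h0
      exact absurd (Finset.mem_range.2 hr0) h0
  have hR : (∑ u ∈ U, (f + C u) ^ m).coeff (N - r) = (h : ZMod p) * g.coeff (N - r) := by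
    rw [finset_sum_coeff]
    have h1 : ∀ u ∈ U, ((f + C u) ^ m).coeff (N - r)
        = ∑ i ∈ Finset.range (m + 1), ((m.choose i : ZMod p) * (f ^ i).coeff (N - r)) * u ^ (m - i) := by
      intro u _
      rw [add_pow, finset_sum_coeff]
      apply Finset.sum_congr rfl
      intro i _
      rw [← C_pow, ← C_eq_natCast, mul_assoc, ← C_mul, coeff_mul_C]
      ring
    rw [Finset.sum_congr rfl h1, Finset.sum_comm]
    have h2 : ∀ i, ∑ u ∈ U, ((m.choose i : ZMod p) * (f ^ i).coeff (N - r)) * u ^ (m - i)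
        = ((m.choose i : ZMod p) * (f ^ i).coeff (N - r)) * ∑ u ∈ U, u ^ (m - i) := by
      intro i; rw [Finset.mul_sum]
    rw [Finset.sum_congr rfl (fun j _ => h2 j), Finset.sum_range_succ, Finset.sum_eq_zero, Nat.sub_self, hS0,
      Nat.choose_self, hg]
    · push_cast; ring
    · intro i hi
      have him := Finset.mem_range.1 hi
      by_cases hj : m - i < r
      · rw [hSj (m - i) (by omega) hj, mul_zero]
      · have h3 : (f ^ i).coeff (N - r) = 0 := by
          apply coeff_eq_zero_of_natDegree_lt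
          rw [natDegree_pow, ← hn]
          have h4 : i + r ≤ m := by omega
          have h5 : (i + r) * n ≤ N := by rw [hN]; exact Nat.mul_le_mul_right n h4
          have h6 : r * 2 ≤ r * n := Nat.mul_le_mul_left r hn1
          rw [add_mul] at h5
          omega
        rw [h3, mul_zero, zero_mul]
  rw [hLR, hR] at hL
  have hz : (∑ u ∈ U, u ^ r) * ((N.choose (N - r) : ZMod p) * g.coeff N) = 0 := by
    have := hL
    linear_combination -this
  have hcp : (N.choose (N - r) : ZMod p) ≠ 0 := by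
    rw [Ne, ZMod.natCast_eq_zero_iff]
    intro hd
    have h1 := Nat.choose_mul_factorial_mul_factorial (show N - r ≤ N by omega)
    have h2 : p ∣ N.factorial := by
      rw [← h1, mul_assoc]; exact hd.mul_right _
    have := (hpp.dvd_factorial).1 h2
    omega
  rcases mul_eq_zero.1 hz with h1 | h1
  · exact hSr h1
  · rcases mul_eq_zero.1 h1 with h2 | h2
    · exact hcp h2
    · exact hgN h2

theorem muller {p : ℕ} [hp : Fact p.Prime] (U : Finset (ZMod p)) (h0 : (0 : ZMod p) ∉ U) (hU : U.Nonempty)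
    (hcard : 2 * U.card ≤ p - 1) (σ : Equiv.Perm (ZMod p))
    (hσ : ∀ x : ZMod p, ∀ u ∈ U, ∃ v ∈ U, σ (x + u) = σ x + v) :
    ∃ a b : ZMod p, ∀ x, σ x = a * x + b := by
  classical
  have hpos := Finset.card_pos.2 hU
  have hp2 := hp.out.two_le
  have hex : ∃ j, j ≠ 0 ∧ j ≤ U.card ∧ ∑ u ∈ U, u ^ j ≠ 0 := by
    by_contra hcon
    push Not at hcon
    let Q : (ZMod p)[X] := ∏ u ∈ U, (X - C u)
    have hQdeg : Q.natDegree = U.card := by
      rw [natDegree_prod_of_monic _ _ (fun u _ => monic_X_sub_C u)]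
      simp
    have h1 : ∑ u ∈ U, Q.eval u = 0 := by
      apply Finset.sum_eq_zero
      intro u hu
      rw [eval_prod]
      exact Finset.prod_eq_zero hu (by simp)
    have h2 : ∑ u ∈ U, Q.eval u = Q.coeff 0 * U.card := by
      have e1 : ∀ u ∈ U, Q.eval u = ∑ j ∈ Finset.range (U.card + 1), Q.coeff j * u ^ j := by
        intro u _
        apply eval_eq_sum_range'
        rw [hQdeg]; omega
      rw [Finset.sum_congr rfl e1, Finset.sum_comm, Finset.sum_eq_single 0]
      · rw [← Finset.mul_sum]; simp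
      · intro j hj hj0
        rw [← Finset.mul_sum, hcon j hj0 (by have := Finset.mem_range.1 hj; omega), mul_zero]
      · intro h; exact absurd (Finset.mem_range.2 (by omega)) h
    rw [h1] at h2
    rcases mul_eq_zero.1 h2.symm with h3 | h3
    · rw [coeff_zero_eq_eval_zero, eval_prod] at h3
      obtain ⟨u, hu, hu0⟩ := Finset.prod_eq_zero_iff.1 h3
      have : u = 0 := by simpa using hu0
      exact h0 (this ▸ hu)
    · rw [ZMod.natCast_eq_zero_iff] at h3
      have := Nat.le_of_dvd hpos h3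
      omega
  obtain ⟨hr0, hrle, hrs⟩ := Nat.find_spec hex
  refine muller_aux U (Nat.find hex) (Nat.pos_of_ne_zero hr0) (by omega) ?_ hrs σ hσ
  intro j hj0 hj
  by_contra hne
  exact Nat.find_min hex hj ⟨hj0, by omega, hne⟩


theorem affine_or_two {p : ℕ} [hp : Fact p.Prime] (G : Subgroup (Equiv.Perm (ZMod p)))
    (htrans : ∀ b : ZMod p, ∃ g ∈ G, ∀ x, g x = x + b) :
    G ≤ affineGroup (ZMod p) ∨ (∀ x y x' y' : ZMod p, x ≠ y → x' ≠ y' → ∃ g ∈ G, g x = x' ∧ g y = y') := by
  classical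
  by_cases h : ∀ u v : ZMod p, u ≠ 0 → v ≠ 0 → ∃ g ∈ G, g 0 = 0 ∧ g u = v
  · right
    intro x y x' y' hxy hxy'
    obtain ⟨g, hg, hg0, hg1⟩ := h (x - y) (x' - y') (sub_ne_zero.2 hxy) (sub_ne_zero.2 hxy')
    obtain ⟨t, ht, ht'⟩ := htrans (-y)
    obtain ⟨s, hs, hs'⟩ := htrans y'
    refine ⟨s * g * t, G.mul_mem (G.mul_mem hs hg) ht, ?_, ?_⟩
    · rw [Equiv.Perm.mul_apply, Equiv.Perm.mul_apply, ht', ← sub_eq_add_neg, hg1, hs']; ring
    · rw [Equiv.Perm.mul_apply, Equiv.Perm.mul_apply, ht', add_neg_cancel, hg0, hs']; ring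
  · left
    push Not at h
    obtain ⟨u, v, hu0, hv0, huv⟩ := h
    let O : ZMod p → Finset (ZMod p) := fun w => Finset.univ.filter (fun z => ∃ g ∈ G, g 0 = 0 ∧ g w = z)
    have hO : ∀ w z, z ∈ O w ↔ ∃ g ∈ G, g 0 = 0 ∧ g w = z := by intro w z; simp [O]
    have hdis : Disjoint (O u) (O v) := by
      rw [Finset.disjoint_left]
      intro z hz1 hz2
      obtain ⟨g, hg, hg0, hg1⟩ := (hO u z).1 hz1
      obtain ⟨k, hk, hk0, hk1⟩ := (hO v z).1 hz2
      refine huv (k⁻¹ * g) (G.mul_mem (G.inv_mem hk) hg) ?_ ?_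
      · rw [Equiv.Perm.mul_apply, hg0, Equiv.Perm.inv_eq_iff_eq, hk0]
      · rw [Equiv.Perm.mul_apply, hg1, Equiv.Perm.inv_eq_iff_eq, hk1]
    have hO0 : ∀ w, w ≠ 0 → (0 : ZMod p) ∉ O w := by
      intro w hw h0
      obtain ⟨g, hg, hg0, hg1⟩ := (hO w 0).1 h0
      exact hw (g.injective (hg1.trans hg0.symm))
    have hsum : (O u).card + (O v).card ≤ p - 1 := by
      rw [← Finset.card_union_of_disjoint hdis]
      have h1 : O u ∪ O v ⊆ Finset.univ.erase 0 := by
        intro z hz
        rw [Finset.mem_erase]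
        refine ⟨fun e => ?_, Finset.mem_univ _⟩
        rw [e] at hz
        rcases Finset.mem_union.1 hz with h2 | h2
        · exact hO0 u hu0 h2
        · exact hO0 v hv0 h2
      have h2 := Finset.card_le_card h1
      rwa [Finset.card_erase_of_mem (Finset.mem_univ _), Finset.card_univ, ZMod.card] at h2
    obtain ⟨w, hw0, hw⟩ : ∃ w, w ≠ 0 ∧ 2 * (O w).card ≤ p - 1 := by
      by_cases hlt : (O u).card ≤ (O v).card
      · exact ⟨u, hu0, by omega⟩
      · exact ⟨v, hv0, by omega⟩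
    intro σ hσ
    obtain ⟨a, b, hab⟩ := muller (O w) (hO0 w hw0) ⟨w, (hO w w).2 ⟨1, G.one_mem, rfl, rfl⟩⟩ hw σ (by
      intro x z hz
      obtain ⟨g, hg, hg0, hg1⟩ := (hO w z).1 hz
      refine ⟨σ (x + z) - σ x, ?_, by ring⟩
      rw [hO]
      obtain ⟨t, ht, ht'⟩ := htrans (-(σ x))
      obtain ⟨s, hs, hs'⟩ := htrans x
      refine ⟨t * σ * s * g, G.mul_mem (G.mul_mem (G.mul_mem ht hσ) hs) hg, ?_, ?_⟩
      · rw [Equiv.Perm.mul_apply, Equiv.Perm.mul_apply, Equiv.Perm.mul_apply, hg0, hs', zero_add, ht', add_neg_cancel]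
      · rw [Equiv.Perm.mul_apply, Equiv.Perm.mul_apply, Equiv.Perm.mul_apply, hg1, hs', ht', add_comm z x, sub_eq_add_neg])
    have ha : a ≠ 0 := by
      intro e
      have h1 : σ 0 = σ 1 := by rw [hab, hab, e]; ring
      exact zero_ne_one (σ.injective h1)
    exact ⟨Units.mk0 a ha, b, hab⟩

theorem affine_isSolvable {p : ℕ} [hp : Fact p.Prime] : Group.IsSolvable (affineGroup (ZMod p)) := by
  classical
  let φ₀ : affineGroup (ZMod p) →* ZMod p :=
    { toFun := fun σ => (σ : Equiv.Perm (ZMod p)) 1 - (σ : Equiv.Perm (ZMod p)) 0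
      map_one' := by show (1 : ZMod p) - 0 = 1; ring
      map_mul' := by
        rintro ⟨σ, a, b, hσ⟩ ⟨τ, c, d, hτ⟩
        show σ (τ 1) - σ (τ 0) = (σ 1 - σ 0) * (τ 1 - τ 0)
        rw [hσ, hσ, hσ, hσ, hτ, hτ]; ring }
  let φ : affineGroup (ZMod p) →* (ZMod p)ˣ := φ₀.toHomUnits
  haveI : Group.IsSolvable φ.ker := by
    apply Group.isSolvable_of_comm
    rintro ⟨⟨σ, a, b, hσ⟩, h1⟩ ⟨⟨τ, c, d, hτ⟩, h2⟩
    have e1 : (a : ZMod p) = 1 := by
      have h3 := congrArg Units.val ((MonoidHom.mem_ker).1 h1)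
      have h4 : σ 1 - σ 0 = 1 := h3
      rw [hσ, hσ] at h4
      linear_combination h4
    have e2 : (c : ZMod p) = 1 := by
      have h3 := congrArg Units.val ((MonoidHom.mem_ker).1 h2)
      have h4 : τ 1 - τ 0 = 1 := h3
      rw [hτ, hτ] at h4
      linear_combination h4
    apply Subtype.ext
    apply Subtype.ext
    ext1 x
    show σ (τ x) = τ (σ x)
    rw [hσ, hσ, hτ, hτ, e1, e2]; ring
  exact Group.isSolvable_of_ker_le_range φ.ker.subtype φ (by rw [Subgroup.range_subtype])

theorem exists_coord {α : Type*} [Fintype α] [DecidableEq α] {p : ℕ} [hp : Fact p.Prime] (hα : Fintype.card α = p)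
    (c : Equiv.Perm α) (hc : orderOf c = p) : ∃ e : ZMod p ≃ α, ∀ i : ZMod p, c (e i) = e (i + 1) := by
  have hcyc : c.IsCycle := Equiv.Perm.isCycle_of_prime_order'' (by rw [hα]; exact hp.out) (by rw [hc, hα])
  have hsupp : c.support = Finset.univ := by
    apply Finset.eq_univ_of_card
    rw [← hcyc.orderOf, hc, hα]
  have hmv : ∀ x, c x ≠ x := by
    intro x
    rw [← Equiv.Perm.mem_support, hsupp]; exact Finset.mem_univ x
  haveI : Nonempty α := Fintype.card_pos_iff.1 (by rw [hα]; exact hp.out.pos)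
  obtain ⟨a⟩ := ‹Nonempty α›
  let ψ : ZMod p → α := fun i => (c ^ i.val) a
  have hψ : ∀ k : ℕ, ψ (k : ZMod p) = (c ^ k) a := by
    intro k
    show (c ^ (k : ZMod p).val) a = (c ^ k) a
    rw [ZMod.val_natCast]
    have := pow_mod_orderOf c k
    rw [hc] at this
    rw [this]
  have hsurj : Function.Surjective ψ := by
    intro b
    obtain ⟨k, hk⟩ := hcyc.exists_pow_eq (hmv a) (hmv b)
    exact ⟨(k : ZMod p), by rw [hψ, hk]⟩
  have hbij : Function.Bijective ψ := by
    rw [Fintype.bijective_iff_surjective_and_card]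
    exact ⟨hsurj, by rw [ZMod.card, hα]⟩
  refine ⟨Equiv.ofBijective ψ hbij, fun i => ?_⟩
  show c (ψ i) = ψ (i + 1)
  have h1 : i + 1 = ((i.val + 1 : ℕ) : ZMod p) := by
    rw [Nat.cast_add, Nat.cast_one, ZMod.natCast_zmod_val]
  rw [h1, hψ, pow_succ', Equiv.Perm.mul_apply]

theorem burnside_prime_degree {α : Type*} [Fintype α] [DecidableEq α] (hα : (Fintype.card α).Prime)
    (G : Subgroup (Equiv.Perm α)) [MulAction.IsPretransitive G α] :
    Group.IsSolvable G ∨ MulAction.IsMultiplyPretransitive G α 2 := by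
  classical
  obtain ⟨p, hp⟩ : ∃ p, p = Fintype.card α := ⟨_, rfl⟩
  haveI : Fact p.Prime := ⟨by rw [hp]; exact hα⟩
  haveI : Nonempty α := Fintype.card_pos_iff.1 hα.pos
  obtain ⟨a⟩ := ‹Nonempty α›
  have hdvd : p ∣ Nat.card G := by
    have h1 := MulAction.index_stabilizer_of_transitive G a
    rw [Nat.card_eq_fintype_card, ← hp] at h1
    rw [← h1]; exact Subgroup.index_dvd_card _
  obtain ⟨c, hc⟩ := exists_prime_orderOf_dvd_card' p hdvd
  have hc' : orderOf (c : Equiv.Perm α) = p := by rw [Subgroup.orderOf_coe, hc]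
  obtain ⟨e, he⟩ := exists_coord hp.symm (c : Equiv.Perm α) hc'
  let Φ : Equiv.Perm α →* Equiv.Perm (ZMod p) := (e.symm.permCongrHom).toMonoidHom
  have hΦ : ∀ (σ : Equiv.Perm α) (x : ZMod p), Φ σ x = e.symm (σ (e x)) := fun σ x => rfl
  have hcΦ : ∀ x, Φ c x = x + 1 := by
    intro x
    rw [hΦ, he, Equiv.symm_apply_apply]
  have hpow : ∀ (k : ℕ) (x : ZMod p), (Φ c ^ k) x = x + k := by
    intro k
    induction k with
    | zero => intro x; simp
    | succ k ih => intro x; rw [pow_succ', Equiv.Perm.mul_apply, ih, hcΦ]; push_cast; ring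
  rcases affine_or_two (G.map Φ) (by
    intro b
    refine ⟨Φ c ^ b.val, (G.map Φ).pow_mem (Subgroup.mem_map_of_mem Φ c.2) _, fun x => ?_⟩
    rw [hpow, ZMod.natCast_zmod_val]) with h | h
  · left
    haveI := affine_isSolvable (p := p)
    let f : G →* affineGroup (ZMod p) := (Φ.comp G.subtype).codRestrict (affineGroup (ZMod p)) (fun g => h (Subgroup.mem_map_of_mem Φ g.2))
    have hf : Function.Injective f := by
      intro g k hgk
      have h1 : Φ g = Φ k := congrArg Subtype.val hgk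
      exact Subtype.ext ((e.symm.permCongrHom).injective h1)
    exact Group.isSolvable_of_isSolvable_injective hf
  · right
    rw [MulAction.is_two_pretransitive_iff]
    intro x y z w hxy hzw
    obtain ⟨_, ⟨g, hg, rfl⟩, h1, h2⟩ := h (e.symm x) (e.symm y) (e.symm z) (e.symm w)
      (fun h => hxy (e.symm.injective h)) (fun h => hzw (e.symm.injective h))
    rw [hΦ, Equiv.apply_symm_apply] at h1 h2
    exact ⟨⟨g, hg⟩, e.symm.injective h1, e.symm.injective h2⟩

end Cfsg.Agent.H4
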