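import Mathlib
set_option linter.all false
set_option autoImplicit false

namespace Cfsg.Agent.H4.QA
open QuaternionGroup

abbrev Q := QuaternionGroup 2

def mk4 (f g : Fin 4 → Fin 4) (h1 : ∀ x, g (f x) = x) (h2 : ∀ x, f (g x) = x) : Equiv.Perm (Fin 4) := ⟨f, g, h1, h2⟩

def ci : Equiv.Perm (Fin 4) := mk4 ![2, 0, 3, 1] ![1, 3, 0, 2] (by decide) (by decide)
def cj : Equiv.Perm (Fin 4) := mk4 ![1, 2, 3, 0] ![3, 0, 1, 2] (by decide) (by decide)
def ck : Equiv.Perm (Fin 4) := mk4 ![3, 2, 0, 1] ![2, 3, 1, 0] (by decide) (by decide)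

def β : Q → Equiv.Perm (Fin 4)
  | a i => if i = 1 then ci else if i = 3 then ci⁻¹ else 1
  | xa i => if i = 0 then cj else if i = 2 then cj⁻¹ else if i = 3 then ck else ck⁻¹

def L6 : List Q := [a 1, a 3, xa 0, xa 2, xa 3, xa 1]

def F (σ : Equiv.Perm (Fin 4)) (x : Q) : Q :=
  if x = a 0 ∨ x = a 2 then x else ((L6.find? (fun y => decide (β y = σ * β x * σ⁻¹))).getD 1)

theorem F_mul : ∀ (σ : Equiv.Perm (Fin 4)) (x y : Q), F σ (x * y) = F σ x * F σ y := by decide +kernel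

theorem F_β : ∀ (σ : Equiv.Perm (Fin 4)) (x : Q), ¬ (x = a 0 ∨ x = a 2) → ¬ (F σ x = a 0 ∨ F σ x = a 2) ∧ β (F σ x) = σ * β x * σ⁻¹ := by decide +kernel

theorem β_inj : ∀ x y : Q, ¬ (x = a 0 ∨ x = a 2) → ¬ (y = a 0 ∨ y = a 2) → β x = β y → x = y := by decide +kernel

theorem F_faith : ∀ σ : Equiv.Perm (Fin 4), F σ (a 1) = a 1 → F σ (xa 0) = xa 0 → σ = 1 := by decide +kernel

theorem F_surj : ∀ u v : Q, ¬ (u = a 0 ∨ u = a 2) → ¬ (v = a 0 ∨ v = a 2) → u ≠ v → u ≠ v⁻¹ → ∃ σ, F σ (a 1) = u ∧ F σ (xa 0) = v := by decide +kernel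

theorem Q_gen : ∀ x : Q, ∃ i j : Fin 4, x = (a 1) ^ (i : ℕ) * (xa 0) ^ (j : ℕ) := by decide +kernel

theorem F_comp (σ τ : Equiv.Perm (Fin 4)) (x : Q) : F (σ * τ) x = F σ (F τ x) := by
  by_cases hx : x = a 0 ∨ x = a 2
  · have h1 : ∀ ρ, F ρ x = x := fun ρ => if_pos hx
    rw [h1, h1, h1]
  · obtain ⟨h1, h2⟩ := F_β (σ * τ) x hx
    obtain ⟨h3, h4⟩ := F_β τ x hx
    obtain ⟨h5, h6⟩ := F_β σ _ h3
    apply β_inj _ _ h1 h5
    rw [h2, h6, h4]; group

theorem F_one (x : Q) : F 1 x = x := by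
  by_cases hx : x = a 0 ∨ x = a 2
  · exact if_pos hx
  · obtain ⟨h1, h2⟩ := F_β 1 x hx
    apply β_inj _ _ h1 hx
    rw [h2]; group

def FA (σ : Equiv.Perm (Fin 4)) : MulAut Q where
  toFun := F σ
  invFun := F σ⁻¹
  left_inv x := by rw [← F_comp, inv_mul_cancel, F_one]
  right_inv x := by rw [← F_comp, mul_inv_cancel, F_one]
  map_mul' := F_mul σ

def FH : Equiv.Perm (Fin 4) →* MulAut Q where
  toFun := FA
  map_one' := MulEquiv.ext F_one
  map_mul' σ τ := MulEquiv.ext (F_comp σ τ)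

theorem sq_dec : ∀ u : Q, (u = a 0 ∨ u = a 2) ↔ u * u = 1 := by decide +kernel

theorem aut_iso : Nonempty (MulAut (QuaternionGroup 2) ≃* Equiv.Perm (Fin 4)) := by
  refine ⟨(MulEquiv.ofBijective FH ⟨?_, ?_⟩).symm⟩
  · rw [injective_iff_map_eq_one]
    intro σ hσ
    exact F_faith σ (DFunLike.congr_fun hσ (a 1)) (DFunLike.congr_fun hσ (xa 0))
  · intro φ
    have hord : ∀ u : Q, u * u ≠ 1 → φ u * φ u ≠ 1 := by
      intro u hu h
      apply hu
      rw [← map_mul, ← map_one φ] at h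
      exact φ.injective h
    obtain ⟨σ, h1, h2⟩ := F_surj (φ (a 1)) (φ (xa 0)) (by rw [sq_dec]; exact hord _ (by decide))
      (by rw [sq_dec]; exact hord _ (by decide))
      (fun h => absurd (φ.injective h) (by decide))
      (fun h => by rw [← map_inv] at h; exact absurd (φ.injective h) (by decide))
    refine ⟨σ, ?_⟩
    apply MulEquiv.ext
    intro x
    obtain ⟨i, j, hx⟩ := Q_gen x
    have e1 : FH σ (a 1) = φ (a 1) := h1
    have e2 : FH σ (xa 0) = φ (xa 0) := h2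
    rw [hx, map_mul, map_mul, map_pow, map_pow, map_pow, map_pow, e1, e2]

end Cfsg.Agent.H4.QA
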