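import Cfsg.Agent.H4.BrauerInd2

set_option linter.all false
set_option autoImplicit false

namespace Cfsg.Agent.H4

open Module
open scoped ComplexConjugate

universe u v w

theorem indFun_map {G : Type u} [Group G] [Fintype G] {Q : Type v} [Group Q] [Fintype Q] (f : G →* Q)
    (hsurj : Function.Surjective f) (H : Subgroup G) (hk : f.ker ≤ H) (θ : H → ℂ) (θ₁ : H.map f → ℂ)
    (hθ : ∀ x : H, θ₁ ⟨f x, Subgroup.mem_map_of_mem f x.2⟩ = θ x) (g : G) :
    indFun (H.map f) θ₁ (f g) = indFun H θ g := by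
  classical
  have hmem : ∀ x : G, f x ∈ H.map f ↔ x ∈ H := by
    intro x
    constructor
    · rintro ⟨h, hh, hx⟩
      have h1 : h⁻¹ * x ∈ f.ker := by
        rw [MonoidHom.mem_ker, map_mul, map_inv, hx, inv_mul_cancel]
      have h2 : x = h * (h⁻¹ * x) := by group
      rw [h2]
      exact H.mul_mem hh (hk h1)
    · intro h; exact ⟨x, h, rfl⟩
  have hext : ∀ x : G, extendByZero (H.map f) θ₁ (f x) = extendByZero H θ x := by
    intro x
    by_cases h : x ∈ H
    · rw [extendByZero_mem H θ h, extendByZero_mem _ θ₁ ((hmem x).mpr h)]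
      exact hθ ⟨x, h⟩
    · rw [extendByZero_not_mem H θ h, extendByZero_not_mem _ θ₁ (fun h' => h ((hmem x).mp h'))]
  unfold indFun
  have h1 := sum_comp_surjective_hom f hsurj (fun y : Q => extendByZero (H.map f) θ₁ (y⁻¹ * f g * y))
  have h2 : ∑ x : G, extendByZero H θ (x⁻¹ * g * x) = ∑ a : G, extendByZero (H.map f) θ₁ ((f a)⁻¹ * f g * f a) := by
    apply Finset.sum_congr rfl; intro x _
    rw [← map_inv, ← map_mul, ← map_mul, hext]
  rw [h2, h1, nsmul_eq_mul, ← mul_assoc]
  congr 1
  have h3 : Nat.card (H.map f) * Nat.card f.ker = Nat.card H := by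
    have h4 := (H.map f).card_mul_index
    have h5 : (H.map f).index = H.index := Subgroup.index_map_eq H hsurj hk
    rw [h5] at h4
    have h6 := H.card_mul_index
    have h7 := f.ker.card_mul_index
    have h8 : f.ker.index = Nat.card Q := Subgroup.index_ker f |>.trans (by rw [MonoidHom.range_eq_top.mpr hsurj, Subgroup.card_top])
    rw [h8] at h7
    have h9 : 0 < H.index := Nat.pos_of_ne_zero H.index_ne_zero_of_finite
    apply Nat.eq_of_mul_eq_mul_right h9
    rw [h6, ← h7, ← h4]; ring
  rw [← h3]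
  have h4 : (Nat.card (H.map f) : ℂ) ≠ 0 := card_ne_zero' _
  have h5 : (Nat.card f.ker : ℂ) ≠ 0 := card_ne_zero' _
  push_cast
  field_simp

end Cfsg.Agent.H4
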