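import Cfsg.Agent.H4.SP6

set_option linter.all false
set_option autoImplicit false

/-! Sylow subgroups with `C(x) = C(P)`: main theorem. -/

namespace Cfsg.Agent.H4

open Module Cfsg
open scoped ComplexConjugate Pointwise

universe u v w

section star
variable {G : Type u} [Group G] [Fintype G] {p : ℕ} [hp : Fact p.Prime] (P : Sylow p G)

theorem star_main (hpG : p ∣ Nat.card G) (hstar : ∀ x ∈ (P : Subgroup G), x ≠ 1 → Subgroup.centralizer ({x} : Set G) = Subgroup.centralizer ((P : Subgroup G) : Set G))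
    {χ : G → ℂ} (hχ : IsIrrCharacter G χ) (hχ1 : χ ≠ fun _ => 1) (hdeg : charDegree χ ^ 2 + 1 < Nat.card (P : Subgroup G))
    (hno' : ∀ K : Subgroup G, K.Normal → (P : Subgroup G) ≤ K → K = ⊤) :
    (∃ M : Subgroup G, M.Normal ∧ M.index = Nat.card (P : Subgroup G)) ∧ charDegree χ = 1 := by
  classical
  obtain ⟨N, hN⟩ : ∃ N, N = Subgroup.normalizer ((P : Subgroup G) : Set G) := ⟨_, rfl⟩
  haveI : Fintype N := Fintype.ofFinite _
  have hPN : (P : Subgroup G) ≤ N := by rw [hN]; exact Subgroup.le_normalizer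
  have hns := star_nset P hstar hN
  have hss := star_sset P hstar hN
  haveI : Fintype ((P : Subgroup G).subgroupOf N) := Fintype.ofFinite _
  have hPbot : (P : Subgroup G) ≠ ⊥ := by
    intro h
    have h1 := P.not_dvd_index
    rw [h, Subgroup.index_bot] at h1
    exact h1 hpG
  obtain ⟨η, η', hη, hη', hmain⟩ := hss.main
    (by
      intro η hη
      exact hns.sum_zero hη.1 hη.2)
    (by
      intro Φ hΦ hΦ1
      by_contra hcon
      push Not at hcon
      apply hΦ1
      have h1 : charKer (IsIrr.isCharacter hΦ) = ⊤ := by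
        apply hno' _ inferInstance
        intro z hz
        rw [mem_charKer]
        exact hcon ⟨⟨z, hPN hz⟩, Subgroup.mem_subgroupOf.mpr hz⟩
      have h2 : ∀ g, Φ g = Φ 1 := by
        intro g
        rw [← mem_charKer (IsIrr.isCharacter hΦ), h1]
        exact Subgroup.mem_top g
      have h3 : classInner Φ (fun _ => 1) ≠ 0 := by
        have h4 : Φ = (Φ 1) • (fun _ : G => (1 : ℂ)) := by
          funext g
          rw [Pi.smul_apply, smul_eq_mul, mul_one]; exact h2 g
        rw [h4, H5.classInner_smul_left, inner_irr_eq H5.isIrrCharacter_trivial H5.isIrrCharacter_trivial, if_pos rfl, mul_one]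
        exact IsIrr.degree_ne_zero hΦ
      rw [inner_irr_eq hΦ H5.isIrrCharacter_trivial] at h3
      by_contra hne
      rw [if_neg hne] at h3
      exact h3 rfl)
    hχ hχ1 hdeg
  have hχN : IsCharacter N (fun n : N => χ n) := IsChar.restrict N (IsIrr.isCharacter hχ)
  obtain ⟨m, hm⟩ := hns.dvd_inner hη.1 hη.2 hχN
  obtain ⟨m', hm'⟩ := hns.dvd_inner hη'.1 hη'.2 hχN
  have hsym : ∀ a b : (P : Subgroup G).subgroupOf N → ℂ, ∀ k : ℕ, classInner a b = k → classInner b a = k := by
    intro a b k h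
    rw [← H5.classInner_conj_symm, h]; simp
  rw [hsym _ _ _ hm, hsym _ _ _ hm'] at hmain
  have hidx : (((P : Subgroup G).subgroupOf N ⊔ pPrimeCore p N).index : ℤ) * (m - m') = 1 := by
    have h1 : ((((P : Subgroup G).subgroupOf N ⊔ pPrimeCore p N).index * m : ℕ) : ℂ) - ((((P : Subgroup G).subgroupOf N ⊔ pPrimeCore p N).index * m' : ℕ) : ℂ)
      = (((((P : Subgroup G).subgroupOf N ⊔ pPrimeCore p N).index : ℤ) * ((m : ℤ) - m') : ℤ) : ℂ) := by
      push_cast; ring
    rw [h1] at hmain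
    exact_mod_cast hmain
  have hidx1 : ((P : Subgroup G).subgroupOf N ⊔ pPrimeCore p N).index = 1 := by
    have h1 : (((P : Subgroup G).subgroupOf N ⊔ pPrimeCore p N).index : ℤ) ∣ 1 := Dvd.intro _ hidx
    have h2 : ((P : Subgroup G).subgroupOf N ⊔ pPrimeCore p N).index ∣ 1 := by exact_mod_cast h1
    exact Nat.dvd_one.mp h2
  have htop := Subgroup.index_eq_one.mp hidx1
  have hNC : Subgroup.normalizer ((P : Subgroup G) : Set G) ≤ Subgroup.centralizer ((P : Subgroup G) : Set G) := by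
    intro x hx
    rw [← hN] at hx
    rw [Subgroup.mem_centralizer_iff]
    intro y hy
    have h1 := hns.comm ⟨y, hPN hy⟩ (Subgroup.mem_subgroupOf.mpr hy) ⟨x, hx⟩ (by rw [htop]; exact Subgroup.mem_top _)
    exact congrArg Subtype.val h1
  -- Burnside
  have hcompl := MonoidHom.ker_transferSylow_isComplement' P hNC
  set M := (MonoidHom.transferSylow P hNC).ker with hM
  haveI hMn : M.Normal := by rw [hM]; infer_instance
  have hMidx : M.index = Nat.card (P : Subgroup G) := hcompl.symm.index_eq_card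
  refine ⟨⟨M, hMn, hMidx⟩, ?_⟩
  have hMp : (Nat.card M).Coprime p := by
    have h1 : ¬ p ∣ Nat.card M := MonoidHom.not_dvd_card_ker_transferSylow P hNC
    exact ((Nat.Prime.coprime_iff_not_dvd hp.out).mpr h1).symm
  obtain ⟨n, hn⟩ := IsPGroup.iff_card.mp P.isPGroup'
  have hcop : (Nat.card M).Coprime (Nat.card (P : Subgroup G)) := by
    rw [hn]; exact Nat.Coprime.pow_right n hMp
  have hab := star_ab P hstar
  have hker : ∀ g ∈ M, ∀ s ∈ (P : Subgroup G), χ (g * s * g⁻¹ * s⁻¹) = χ 1 := by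
    intro g hg s hs
    by_contra hne
    have h1 := ti_degree hp.out P.isPGroup' hPbot (fun a _ b hb => hMn.conj_mem b hb a) hcop hcompl.sup_eq_top
      (fun s hs hs1 => by rw [hstar s hs hs1]) hχ hg hs hne
    omega
  -- the kernel
  set Kc := charKer (IsIrr.isCharacter hχ) with hKc
  have hcomm : ∀ g : G, ∀ s ∈ (P : Subgroup G), g * s * g⁻¹ * s⁻¹ ∈ Kc := by
    intro g s hs
    have h1 : g ∈ M ⊔ (P : Subgroup G) := by rw [hcompl.sup_eq_top]; exact Subgroup.mem_top g
    obtain ⟨a, ha, t, ht, rfl⟩ := Subgroup.mem_sup_of_normal_left.mp h1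
    have h2 : a * t * s * (a * t)⁻¹ * s⁻¹ = a * s * a⁻¹ * s⁻¹ := by
      calc a * t * s * (a * t)⁻¹ * s⁻¹ = a * (t * s) * t⁻¹ * a⁻¹ * s⁻¹ := by group
        _ = a * (s * t) * t⁻¹ * a⁻¹ * s⁻¹ := by rw [hab t ht s hs]
        _ = _ := by group
    rw [h2, hKc, mem_charKer]
    exact hker a ha s hs
  have hKn : Kc.Normal := by rw [hKc]; infer_instance
  have hTn : ((P : Subgroup G) ⊔ Kc).Normal := by
    constructor
    intro x hx g
    obtain ⟨s, hs, k, hk, rfl⟩ := Subgroup.mem_sup_of_normal_right.mp hx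
    have h1 : g * (s * k) * g⁻¹ = (g * s * g⁻¹ * s⁻¹) * (s * (g * k * g⁻¹)) := by group
    rw [h1]
    exact Subgroup.mul_mem _ (Subgroup.mem_sup_right (hcomm g s hs)) (Subgroup.mul_mem_sup hs (hKn.conj_mem k hk g))
  have hT := hno' _ hTn le_sup_left
  obtain ⟨lam, hlam⟩ := linear_of_comm_ker hχ (by
    intro x y
    have hy : y ∈ (P : Subgroup G) ⊔ Kc := by rw [hT]; exact Subgroup.mem_top y
    obtain ⟨s, hs, k, hk, rfl⟩ := Subgroup.mem_sup_of_normal_right.mp hy
    have h1 : x * (s * k) * x⁻¹ * (s * k)⁻¹ = (x * s * x⁻¹ * s⁻¹) * (s * ((x * k * x⁻¹) * k⁻¹) * s⁻¹) := by group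
    have h2 : x * (s * k) * x⁻¹ * (s * k)⁻¹ ∈ Kc := by
      rw [h1]
      exact Kc.mul_mem (hcomm x s hs) (hKn.conj_mem _ (Kc.mul_mem (hKn.conj_mem k hk x) (Kc.inv_mem hk)) s)
    exact (mem_charKer (IsIrr.isCharacter hχ) _).mp h2)
  have h1 := IsChar.one_eq (IsIrr.isCharacter hχ)
  rw [hlam] at h1
  have h2 : ((charDegree χ : ℕ) : ℂ) = 1 := by
    rw [hlam, ← h1]; simp
  exact_mod_cast h2

theorem star_normal (hpG : p ∣ Nat.card G) (hstar : ∀ x ∈ (P : Subgroup G), x ≠ 1 → Subgroup.centralizer ({x} : Set G) = Subgroup.centralizer ((P : Subgroup G) : Set G))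
    {χ : G → ℂ} (hχ : IsCharacter G χ) (hfaith : ∀ g : G, χ g = χ 1 → g = 1) (hdeg : charDegree χ ^ 2 + 1 < Nat.card (P : Subgroup G))
    (hno' : ∀ K : Subgroup G, K.Normal → (P : Subgroup G) ≤ K → K = ⊤) : (P : Subgroup G).Normal := by
  classical
  obtain ⟨m, hm1, hm2⟩ := IsChar.exists_mult hχ
  have hlin : ∀ ψ : IrrCharacter G, m ψ ≠ 0 → charDegree (ψ : G → ℂ) = 1 := by
    intro ψ hψ
    by_cases h1 : (ψ : G → ℂ) = fun _ => 1
    · have h2 := IsChar.one_eq (IsIrr.isCharacter ψ.2)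
      rw [h1] at h2
      have h3 : ((charDegree (ψ : G → ℂ) : ℕ) : ℂ) = 1 := by rw [h1, ← h2]
      exact_mod_cast h3
    · refine (star_main P hpG hstar ψ.2 h1 ?_ hno').2
      have h2 := IsChar.degree_le_of_mult hχ m hm2 ψ hψ
      have h3 := Nat.pow_le_pow_left h2 2
      omega
  have hcomm : ∀ a b : G, a * b * a⁻¹ * b⁻¹ = 1 := by
    intro a b
    apply hfaith
    rw [hm2, hm2]
    apply Finset.sum_congr rfl
    intro ψ _
    by_cases hψ : m ψ = 0
    · rw [hψ]; simp
    · have h1 := hlin ψ hψ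
      have h2 := IsChar.one_eq (IsIrr.isCharacter ψ.2)
      rw [h1] at h2
      obtain ⟨lam, hlam⟩ := exists_hom_of_degree_one (IsIrr.isCharacter ψ.2) (by rw [h2]; simp)
      rw [hlam]
      simp only [map_mul, map_inv, map_one]
      rw [mul_comm (lam a) (lam b)]
      simp
  constructor
  intro x hx g
  have h1 := hcomm g x
  have h2 : g * x * g⁻¹ = x := mul_inv_eq_one.mp h1
  rw [h2]; exact hx

end star

theorem star_normal' {G : Type u} [Group G] [Finite G] {p : ℕ} [hp : Fact p.Prime] (P : Sylow p G) (hpG : p ∣ Nat.card G)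
    (hstar : ∀ x ∈ (P : Subgroup G), x ≠ 1 → Subgroup.centralizer ({x} : Set G) = Subgroup.centralizer ((P : Subgroup G) : Set G))
    {χ : G → ℂ} (hχ : IsCharacter G χ) (hfaith : ∀ g : G, χ g = χ 1 → g = 1) (hdeg : charDegree χ ^ 2 + 1 < Nat.card (P : Subgroup G)) : (P : Subgroup G).Normal := by
  classical
  haveI : Fintype G := Fintype.ofFinite _
  obtain ⟨T, hTdef⟩ : ∃ T, T = Subgroup.normalClosure ((P : Subgroup G) : Set G) := ⟨_, rfl⟩
  haveI hTn : T.Normal := by rw [hTdef]; infer_instance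
  have hPT : (P : Subgroup G) ≤ T := by rw [hTdef]; exact Subgroup.le_normalClosure
  haveI : Fintype T := Fintype.ofFinite _
  let Q : Sylow p T := P.subtype hPT
  have hQ : (Q : Subgroup T) = (P : Subgroup G).subgroupOf T := rfl
  have hcard : Nat.card (Q : Subgroup T) = Nat.card (P : Subgroup G) := by
    rw [hQ, ← Cfsg.Agent.L0.card_map_subtype T ((P : Subgroup G).subgroupOf T), Subgroup.subgroupOf_map_subtype, inf_eq_left.mpr hPT]
  have h1 := star_normal Q
    (by
      have h2 : p ∣ Nat.card (P : Subgroup G) := by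
        rw [Sylow.card_eq_multiplicity]
        apply dvd_pow_self
        exact (Nat.Prime.factorization_pos_of_dvd hp.out Nat.card_pos.ne' hpG).ne'
      exact h2.trans (Subgroup.card_dvd_of_le hPT))
    (by
      intro x hx hx1
      rw [hQ, Subgroup.mem_subgroupOf] at hx
      have h2 := hstar x hx (fun h => hx1 (Subtype.ext h))
      ext y
      have h3 : (y : G) ∈ Subgroup.centralizer ({(x : G)} : Set G) ↔ (y : G) ∈ Subgroup.centralizer ((P : Subgroup G) : Set G) := by rw [h2]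
      rw [Subgroup.mem_centralizer_singleton_iff, Subgroup.mem_centralizer_iff] at h3 ⊢
      constructor
      · intro h4 z hz
        exact Subtype.ext (h3.mp (congrArg Subtype.val h4) z (Subgroup.mem_subgroupOf.mp hz))
      · intro h4
        exact Subtype.ext (h3.mpr (fun z hz => congrArg Subtype.val (h4 ⟨z, hPT hz⟩ (Subgroup.mem_subgroupOf.mpr hz)))))
    (χ := fun t : T => χ t) (IsChar.restrict T hχ)
    (by
      intro g hg
      exact Subtype.ext (hfaith g hg))
    (by rw [hcard]; exact hdeg)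
    (by
      intro K hK hPK
      haveI := hK
      rw [eq_top_iff]
      have h2 : T ≤ K.map T.subtype := by
        conv_lhs => rw [hTdef]
        unfold Subgroup.normalClosure
        rw [Subgroup.closure_le]
        intro y hy
        obtain ⟨x, hx, hxy⟩ := Group.mem_conjugatesOfSet_iff.mp hy
        obtain ⟨g, rfl⟩ := isConj_iff.mp hxy
        -- the conjugate Sylow subgroup
        have hgP : ((g • P : Sylow p G) : Subgroup G) ≤ T := by
          intro z hz
          have h3 : g⁻¹ * z * g ∈ (P : Subgroup G) := by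
            have h4 := (Subgroup.mem_pointwise_smul_iff_inv_smul_mem (a := MulAut.conj g)).mp hz
            have h5 : (MulAut.conj g)⁻¹ • z = g⁻¹ * z * g⁻¹⁻¹ := by
              rw [← map_inv]; rfl
            rwa [h5, inv_inv] at h4
          have h6 := hTn.conj_mem _ (hPT h3) g
          have h7 : g * (g⁻¹ * z * g) * g⁻¹ = z := by group
          rwa [h7] at h6
        obtain ⟨t, ht⟩ := MulAction.exists_smul_eq T Q ((g • P).subtype hgP)
        have h8 : (⟨g * x * g⁻¹, hTn.conj_mem x (hPT hx) g⟩ : T) ∈ (((g • P).subtype hgP : Sylow p T) : Subgroup T) := by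
          show g * x * g⁻¹ ∈ ((g • P : Sylow p G) : Subgroup G)
          exact (Subgroup.smul_mem_pointwise_smul_iff (a := MulAut.conj g)).mpr hx
        rw [← ht] at h8
        have h9 : t⁻¹ * (⟨g * x * g⁻¹, hTn.conj_mem x (hPT hx) g⟩ : T) * t ∈ (Q : Subgroup T) := by
          have h4 := (Subgroup.mem_pointwise_smul_iff_inv_smul_mem (a := MulAut.conj t)).mp h8
          have h5 : (MulAut.conj t)⁻¹ • (⟨g * x * g⁻¹, hTn.conj_mem x (hPT hx) g⟩ : T) = t⁻¹ * (⟨g * x * g⁻¹, hTn.conj_mem x (hPT hx) g⟩ : T) * t⁻¹⁻¹ := by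
            rw [← map_inv]; rfl
          rwa [h5, inv_inv] at h4
        have h10 := hK.conj_mem _ (hPK h9) t
        have h11 : t * (t⁻¹ * (⟨g * x * g⁻¹, hTn.conj_mem x (hPT hx) g⟩ : T) * t) * t⁻¹ = ⟨g * x * g⁻¹, hTn.conj_mem x (hPT hx) g⟩ := by group
        rw [h11] at h10
        exact ⟨_, h10, rfl⟩
      intro t _
      obtain ⟨k, hk, hkt⟩ := h2 t.2
      have : k = t := Subtype.ext hkt
      rw [← this]; exact hk)
  -- Q normal in T, so P = T's unique Sylow, hence normal in G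
  have h2 : T ≤ Subgroup.normalizer ((P : Subgroup G) : Set G) := by
    intro t ht
    rw [Subgroup.mem_normalizer_iff]
    intro y
    constructor
    · intro hy
      have := h1.conj_mem ⟨y, hPT hy⟩ (Subgroup.mem_subgroupOf.mpr hy) ⟨t, ht⟩
      exact Subgroup.mem_subgroupOf.mp this
    · intro hy
      have := h1.conj_mem ⟨t * y * t⁻¹, hPT hy⟩ (Subgroup.mem_subgroupOf.mpr hy) ⟨t⁻¹, T.inv_mem ht⟩
      have h3 := Subgroup.mem_subgroupOf.mp this
      have h4 : t⁻¹ * (t * y * t⁻¹) * t⁻¹⁻¹ = y := by group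
      have h5 : t⁻¹ * (t * y * t⁻¹) * t⁻¹⁻¹ ∈ (P : Subgroup G) := h3
      rwa [h4] at h5
  constructor
  intro x hx g
  have h3 : g * x * g⁻¹ ∈ T := hTn.conj_mem x (hPT hx) g
  apply pelt_mem_sylow P _ (h2 h3)
  obtain ⟨k, hk⟩ := P.isPGroup' ⟨x, hx⟩
  refine ⟨k, ?_⟩
  have : x ^ p ^ k = 1 := congrArg Subtype.val hk
  rw [conj_pow, this]; simp

end Cfsg.Agent.H4
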