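import Cfsg.Agent.H4.Heart
set_option linter.all false
set_option autoImplicit false

namespace Cfsg.Agent.H4
open Polynomial
variable {p : ℕ} [hp : Fact p.Prime] {K : Type*} [Field K] [CharP K p]

theorem evE_inj_of_deg {q : K[X]} (hq : q.degree < p) (h : evE p K q = 0) : q = 0 := by
  classical
  have hp2 := hp.out.two_le
  by_contra h0
  have h1 := (natDegree_lt_iff_degree_lt h0).2 hq
  apply h0
  apply eq_of_natDegree_lt_card_of_eval_eq q 0 (iota_inj (p := p) (K := K))
  · intro x; rw [eval_zero]; exact congrFun h x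
  · rw [ZMod.card]; simpa using h1

theorem shift_inv (W : Submodule K (ZMod p → K)) (hW : ∀ f ∈ W, (fun j => f (j - 1)) ∈ W) :
    ∃ r : ℕ, r ≤ p ∧ Module.finrank K W = r ∧
      ∀ f : ZMod p → K, f ∈ W ↔ ∃ P : Polynomial K, P.degree < r ∧ ∀ j : ZMod p, f j = P.eval (ZMod.cast j : K) := by
  classical
  have hp2 := hp.out.two_le
  have key : ∃ r : ℕ, r ≤ p ∧ ∀ q : K[X], q.degree < p → (evE p K q ∈ W ↔ q.degree < r) := by
    have hk : ∀ k : ℕ, ∀ f ∈ W, (fun j => f (j - (k : ZMod p))) ∈ W := by
      intro k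
      induction k with
      | zero => intro f hf; simpa using hf
      | succ k ih =>
        intro f hf
        have h1 := ih _ (hW f hf)
        have h2 : (fun j : ZMod p => f (j - ((k + 1 : ℕ) : ZMod p))) = fun j => f (j - (k : ZMod p) - 1) := by
          funext j; congr 1; push_cast; ring
        rw [h2]; exact h1
    have hsh : ∀ f ∈ W, (fun x => f (x + 1)) ∈ W := by
      intro f hf
      have h1 := hk (p - 1) f hf
      have h2 : (fun j : ZMod p => f (j - ((p - 1 : ℕ) : ZMod p))) = fun j => f (j + 1) := by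
        funext j; congr 1
        rw [Nat.cast_sub (by omega)]; simp
      rw [← h2]; exact h1
    let P : Submodule K K[X] := W.comap (evE p K)
    have hPt : ∀ q ∈ P, taylor 1 q ∈ P := by
      intro q hq
      have h1 := hsh _ hq
      have h2 : evE p K (taylor 1 q) = fun x => evE p K q (x + 1) := by
        funext x
        rw [evE_apply, evE_apply, taylor_eval, map_add, map_one]
      show evE p K (taylor 1 q) ∈ W
      rw [h2]; exact h1
    let S : Set ℕ := {d | ∃ q ∈ P, q ≠ 0 ∧ q.natDegree = d ∧ d ≤ p - 1}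
    by_cases hS : S.Nonempty
    · have hSb : BddAbove S := ⟨p - 1, fun d hd => by obtain ⟨_, _, _, _, h⟩ := hd; exact h⟩
      obtain ⟨k, hk⟩ : ∃ k, k = sSup S := ⟨_, rfl⟩
      have hkS : k ∈ S := by rw [hk]; exact Nat.sSup_mem hS hSb
      have hmax : ∀ d ∈ S, d ≤ k := fun d hd => by rw [hk]; exact le_csSup hSb hd
      obtain ⟨q, hqP, hq0, hqk, hkp⟩ := hkS
      refine ⟨k + 1, by omega, fun r hr => ?_⟩
      by_cases hr0 : r = 0
      · rw [hr0]; simp
      have hrn := (natDegree_lt_iff_degree_lt hr0).2 hr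
      rw [← natDegree_lt_iff_degree_lt hr0]
      constructor
      · intro h
        have := hmax _ ⟨r, h, hr0, rfl, by omega⟩
        omega
      · intro h
        exact all_of_degree P hPt k (by omega) q hqP hq0 hqk r (by omega)
    · refine ⟨0, Nat.zero_le _, fun r hr => ?_⟩
      by_cases hr0 : r = 0
      · rw [hr0]; simp
      have hrn := (natDegree_lt_iff_degree_lt hr0).2 hr
      constructor
      · intro h
        exact absurd ⟨r.natDegree, r, h, hr0, rfl, by omega⟩ hS
      · intro h
        exfalso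
        have := (natDegree_lt_iff_degree_lt hr0).2 h
        omega
  obtain ⟨r, hrp, hr⟩ := key
  have hmem : ∀ f : ZMod p → K, f ∈ W ↔ ∃ P : Polynomial K, P.degree < r ∧ ∀ j : ZMod p, f j = P.eval (ZMod.cast j : K) := by
    intro f
    constructor
    · intro hf
      obtain ⟨q, hq, hqd⟩ := exists_interp (p := p) f
      have hqp : q.degree < p := by
        refine lt_of_le_of_lt degree_le_natDegree ?_
        exact_mod_cast (show q.natDegree < p by omega)
      refine ⟨q, (hr q hqp).1 (by rw [hq]; exact hf), fun j => ?_⟩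
      rw [← hq, evE_apply]; rfl
    · rintro ⟨q, hq, hqf⟩
      have h1 : f = evE p K q := by funext j; rw [hqf, evE_apply]; rfl
      rw [h1]
      exact (hr q (lt_of_lt_of_le hq (by exact_mod_cast hrp))).2 hq
  refine ⟨r, hrp, ?_, hmem⟩
  let L : degreeLT K r →ₗ[K] (ZMod p → K) := (evE p K).domRestrict (degreeLT K r)
  have hL : Function.Injective L := by
    rw [injective_iff_map_eq_zero]
    rintro ⟨q, hq⟩ h
    apply Subtype.ext
    exact evE_inj_of_deg (lt_of_lt_of_le (mem_degreeLT.1 hq) (by exact_mod_cast hrp)) h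
  have hrange : LinearMap.range L = W := by
    ext f
    rw [hmem f]
    constructor
    · rintro ⟨⟨q, hq⟩, rfl⟩
      exact ⟨q, mem_degreeLT.1 hq, fun j => rfl⟩
    · rintro ⟨q, hq, hqf⟩
      exact ⟨⟨q, mem_degreeLT.2 hq⟩, by funext j; rw [hqf]; rfl⟩
  rw [← hrange, LinearMap.finrank_range_of_inj hL, (degreeLTEquiv K r).finrank_eq]
  simp

end Cfsg.Agent.H4
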