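import Cfsg.Agent.H4.Coh12
import Cfsg.Agent.H4.TICong
import Cfsg.Agent.S1514

set_option linter.all false
set_option autoImplicit false

/-! Sibley's coherence theorem: preparations. -/

namespace Cfsg.Agent.H4

open Module
open scoped ComplexConjugate Pointwise commutatorElement

universe u v w

section basic
variable {L : Type u} [Group L] [Fintype L] {K Z : Subgroup L}

theorem ind_vanish_off (hK : K.Normal) (θ : K → ℂ) {x : L} (hx : x ∉ K) : indFun K θ x = 0 := by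
  unfold indFun
  rw [Finset.sum_eq_zero, mul_zero]
  intro y _
  apply extendByZero_not_mem
  intro h
  apply hx
  have := hK.conj_mem _ h y
  convert this using 1; group

theorem zspan_vanish {X : Type u} {S : Set (X → ℂ)} {x : X} (h : ∀ χ ∈ S, χ x = 0) {α : X → ℂ} (hα : α ∈ zspan S) : α x = 0 := by
  refine zspan_induction (S := S) (p := fun α => α x = 0) h rfl ?_ ?_ hα
  · intro a b _ _ ha hb; rw [Pi.add_apply, ha, hb, add_zero]
  · intro n a _ ha; rw [zs_apply, ha, mul_zero]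

theorem odd_real_one (hodd : Odd (Nat.card L)) {χ : L → ℂ} (hχ : IsIrrCharacter L χ) (h : conjFun χ = χ) : χ = fun _ => 1 := by
  apply real_eq_one_of_odd hodd ⟨χ, hχ⟩
  intro g
  exact Complex.conj_eq_iff_im.mp (congrFun h g)

theorem above_ne_one (hK : K.Normal) {χ : L → ℂ} (h : χ ∈ inducedIrrAbove K ⊥) : χ ≠ fun _ => 1 := by
  classical
  haveI : Fintype K := Fintype.ofFinite K
  obtain ⟨θ, h1, h2, _, rfl⟩ := h
  intro h3
  have h4 : classInner (indFun K θ) (fun _ : L => (1 : ℂ)) = 1 := by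
    rw [h3]; exact ii_self H5.isIrrCharacter_trivial
  rw [frobenius_reciprocity K θ _ (IsIrr.isClassFunction H5.isIrrCharacter_trivial)] at h4
  have h5 : classInner θ (fun _ : K => (1 : ℂ)) = 0 := ii_ne h1 H5.isIrrCharacter_trivial h2
  rw [h5] at h4
  exact zero_ne_one h4

end basic

section ti
variable {G : Type u} [Group G] [Fintype G]

theorem ti_iso (H L : Subgroup G) (hL : Subgroup.normalizer (H : Set G) = L) (hTI : IsTISubset (H : Set G)) [Fintype L] (S : Set (L → ℂ))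
    (hS : ∀ χ ∈ S, IsCharacter L χ) (hv : ∀ χ ∈ S, ∀ x : L, (x : G) ∉ H → χ x = 0) :
    IsLinearIsometryOn (zspanOn S {1}ᶜ) (fun α : L → ℂ => indFun L α) ∧
      ∀ α ∈ zspanOn S {1}ᶜ, (fun α : L → ℂ => indFun L α) α 1 = 0 := by
  subst hL
  have hgen : ∀ α ∈ zspan S, IsGeneralizedCharacter _ α := fun α hα =>
    gen_of_zspan (fun χ hχ => ⟨χ, 0, hS χ hχ, isCharacter_zero, (sub_zero _).symm⟩) hα
  refine ⟨⟨?_, ?_, ?_, ?_⟩, ?_⟩
  · intro α _ β _; exact indFun_add _ _ _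
  · intro α _ n
    show indFun _ (n • α) = n • indFun _ α
    rw [zs_eq, zs_eq, indFun_smul]
  · intro α hα β hβ
    rw [mem_zspanOn_one] at hα hβ
    apply ind_isometry_ti (H : Set G) hTI
    · exact H5.IsGeneralizedCharacter.classFun' (hgen α hα.1)
    · exact H5.IsGeneralizedCharacter.classFun' (hgen β hβ.1)
    · intro x hx; exact zspan_vanish (fun χ hχ => hv χ hχ x hx) hα.1
    · intro x hx; exact zspan_vanish (fun χ hχ => hv χ hχ x hx) hβ.1
    · exact hα.2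
  · intro α hα
    exact H5.isGeneralized_indFun _ (hgen α hα.1)
  · intro α hα
    rw [mem_zspanOn_one] at hα
    show indFun _ α 1 = 0
    rw [indFun_one, hα.2, mul_zero]

end ti

section mu
variable {G : Type u} [Group G] [Fintype G] {L : Subgroup G} [Fintype L] {K Z : Subgroup L}

/-- The restriction of a character of `G` orthogonal to the lift of `X`. -/
theorem sib_mu (hirr : ∀ χ ∈ XZ K Z, IsIrrCharacter L χ) (hXeq : XZ K Z = {χ | IsIrrCharacter L χ ∧ ∃ z ∈ Z, χ z ≠ χ 1})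
    {χ₀ : L → ℂ} (hχ₀ : χ₀ ∈ XZ K Z) {τ₁ : (L → ℂ) → (G → ℂ)} (hτ₁ : IsLinearIsometryOn (zspan (XZ K Z)) τ₁)
    (hag : ∀ α ∈ zspanOn (XZ K Z) {1}ᶜ, τ₁ α = indFun L α) {μ : G → ℂ} (hμ : IsIrrCharacter G μ)
    (hperp : ∀ χ ∈ XZ K Z, classInner μ (τ₁ χ) = 0) :
    ∃ c : ℂ, (∀ χ ∈ XZ K Z, classInner (fun l : L => μ l) χ = c * χ 1) ∧
      ∀ z : L, z ∈ Z → z ≠ 1 → μ 1 - μ z = c * Nat.card L := by
  classical
  have hI := isoOn_span hτ₁
  obtain ⟨d₀, hd₀, hd₀1⟩ := IsIrr.exists_degree (hirr χ₀ hχ₀)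
  have hd₀c : (d₀ : ℂ) ≠ 0 := by exact_mod_cast hd₀.ne'
  have h1 : ∀ χ ∈ XZ K Z, classInner (fun l : L => μ l) χ = classInner (fun l : L => μ l) χ₀ / d₀ * χ 1 := by
    intro χ hχ
    obtain ⟨d, hd, hd1⟩ := IsIrr.exists_degree (hirr χ hχ)
    have hb : (d₀ : ℤ) • χ - (d : ℤ) • χ₀ ∈ zspanOn (XZ K Z) {1}ᶜ := by
      rw [mem_zspanOn_one]
      refine ⟨zspan_sub (zspan_smul _ (zspan_mem hχ)) (zspan_smul _ (zspan_mem hχ₀)), ?_⟩
      rw [Pi.sub_apply, zs_apply, zs_apply, hd1, hd₀1]; push_cast; ring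
    have e1 : classInner μ (indFun L ((d₀ : ℤ) • χ - (d : ℤ) • χ₀)) = 0 := by
      rw [← hag _ hb, hI.sub (zspan_smul _ (zspan_mem hχ)) (zspan_smul _ (zspan_mem hχ₀)), hI.smul _ (zspan_mem hχ), hI.smul _ (zspan_mem hχ₀),
        H5.classInner_sub_right, zs_eq, zs_eq, H5.classInner_smul_right, H5.classInner_smul_right, hperp χ hχ, hperp χ₀ hχ₀]
      ring
    rw [frobenius_reciprocity' L _ μ (IsIrr.isClassFunction hμ), H5.classInner_sub_right, zs_eq, zs_eq, H5.classInner_smul_right,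
      H5.classInner_smul_right] at e1
    simp only [Int.cast_natCast, map_natCast] at e1
    rw [hd1]
    field_simp
    linear_combination e1
  refine ⟨classInner (fun l : L => μ l) χ₀ / d₀, h1, ?_⟩
  intro z hz hz1
  set c := classInner (fun l : L => μ l) χ₀ / d₀
  have hcl : IsClassFunction L (fun l : L => μ l) := IsChar.isClassFunction (IsChar.restrict L (IsIrr.isCharacter hμ))
  have e1 := H5.classFun_expansion_apply hcl 1
  have e2 := H5.classFun_expansion_apply hcl z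
  rw [OneMemClass.coe_one] at e1
  rw [e1, e2, ← Finset.sum_sub_distrib]
  have h2 : ∀ χ : IrrCharacter L, classInner (fun l : L => μ l) (χ : L → ℂ) * (χ : L → ℂ) 1 - classInner (fun l : L => μ l) (χ : L → ℂ) * (χ : L → ℂ) z =
      c * ((χ : L → ℂ) 1 * (χ : L → ℂ) 1) - c * ((χ : L → ℂ) 1 * (χ : L → ℂ) z) := by
    intro χ
    by_cases hχ : (χ : L → ℂ) ∈ XZ K Z
    · rw [h1 _ hχ]; ring
    · have h3 : (χ : L → ℂ) z = (χ : L → ℂ) 1 := by
        by_contra hne
        apply hχ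
        rw [hXeq]
        exact ⟨χ.2, z, hz, hne⟩
      rw [h3]; ring
  rw [Finset.sum_congr rfl (fun χ _ => h2 χ), Finset.sum_sub_distrib, ← Finset.mul_sum, ← Finset.mul_sum]
  have h4 := H5.sum_irr_one_mul (1 : L)
  have h5 := H5.sum_irr_one_mul z
  rw [if_pos rfl] at h4
  rw [if_neg hz1] at h5
  have h6 : ∀ g : L, ∑ χ : IrrCharacter L, (χ : L → ℂ) 1 * (χ : L → ℂ) g = ∑ χ : IrrCharacter L, (χ : L → ℂ) 1 * (χ : L → ℂ) g := fun _ => rfl
  rw [h4, h5]; ring

end mu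

end Cfsg.Agent.H4
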