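import Cfsg.Agent.H4.Coh10

set_option linter.all false
set_option autoImplicit false

/-! Sibley's coherence theorem: the linear algebra. -/

namespace Cfsg.Agent.H4

open Module
open scoped ComplexConjugate Pointwise commutatorElement

universe u v w

section swap
variable {L : Type u} [Group L] [Fintype L] {G : Type v} [Group G] [Fintype G]

theorem swap_ext (x y : L → ℂ) (hx : IsIrrCharacter L x) (hy : IsIrrCharacter L y) (hxy : x ≠ y) (hdeg : x 1 = y 1)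
    {α σ : (L → ℂ) → (G → ℂ)} (hα : IsLinearIsometryOn (zspanOn ({x, y} : Set (L → ℂ)) {1}ᶜ) α)
    (hσ : IsLinearIsometryOn (zspan ({x, y} : Set (L → ℂ))) σ)
    (hσα : ∀ θ ∈ zspanOn ({x, y} : Set (L → ℂ)) {1}ᶜ, σ θ = α θ) :
    ∃ σ' : (L → ℂ) → (G → ℂ), IsLinearIsometryOn (zspan ({x, y} : Set (L → ℂ))) σ' ∧
      (∀ θ ∈ zspanOn ({x, y} : Set (L → ℂ)) {1}ᶜ, σ' θ = α θ) ∧ σ' x = -σ y ∧ σ' y = -σ x := by
  classical
  have hI := isoOn_span hσ
  have hαI := isoOn_zsub hα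
  have mx : x ∈ zspan ({x, y} : Set (L → ℂ)) := zspan_mem (by simp)
  have my : y ∈ zspan ({x, y} : Set (L → ℂ)) := zspan_mem (by simp)
  let F : Finset (L → ℂ) := {x, y}
  have hF : (F : Set (L → ℂ)) = {x, y} := by simp [F]
  let T : (L → ℂ) → (G → ℂ) := fun φ => if φ = x then -σ y else -σ x
  have hTx : T x = -σ y := if_pos rfl
  have hTy : T y = -σ x := if_neg hxy.symm
  have hirrF : ∀ φ ∈ F, IsIrrCharacter L φ := by
    intro φ hφ
    simp only [F, Finset.mem_insert, Finset.mem_singleton] at hφ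
    rcases hφ with rfl | rfl
    · exact hx
    · exact hy
  have horth : ∀ φ ∈ F, ∀ ψ ∈ F, φ ≠ ψ → classInner φ ψ = 0 := fun φ hφ ψ hψ h => ii_ne (hirrF φ hφ) (hirrF ψ hψ) h
  have hne : ∀ φ ∈ F, classInner φ φ ≠ 0 := fun φ hφ => by rw [ii_self (hirrF φ hφ)]; exact one_ne_zero
  have hT : ∀ φ ∈ F, ∀ ψ ∈ F, classInner (T φ) (T ψ) = classInner φ ψ := by
    intro φ hφ ψ hψ
    simp only [F, Finset.mem_insert, Finset.mem_singleton] at hφ hψ
    rcases hφ with rfl | rfl <;> rcases hψ with rfl | rfl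
    · rw [hTx, inner_neg_left, inner_neg_right, neg_neg, hI.inner _ my _ my, ii_self hx, ii_self hy]
    · rw [hTx, hTy, inner_neg_left, inner_neg_right, neg_neg, hI.inner _ my _ mx, ii_ne hy hx hxy.symm, ii_ne hx hy hxy]
    · rw [hTx, hTy, inner_neg_left, inner_neg_right, neg_neg, hI.inner _ mx _ my, ii_ne hy hx hxy.symm, ii_ne hx hy hxy]
    · rw [hTy, inner_neg_left, inner_neg_right, neg_neg, hI.inner _ mx _ mx, ii_self hx, ii_self hy]
  have hgen : ∀ φ ∈ F, IsGeneralizedCharacter G (T φ) := by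
    intro φ hφ
    simp only [F, Finset.mem_insert, Finset.mem_singleton] at hφ
    rcases hφ with rfl | rfl
    · rw [hTx]; exact H5.isGeneralized_neg (hI.gen _ my)
    · rw [hTy]; exact H5.isGeneralized_neg (hI.gen _ mx)
  have hbuild := coh_build F T horth hne hT hgen
  have hFI := isoOn_span hbuild
  have hxF : x ∈ F := by simp [F]
  have hyF : y ∈ F := by simp [F]
  have hTax : orthExt F T x = T x := orthExt_apply F T horth hne hxF
  have hTay : orthExt F T y = T y := orthExt_apply F T horth hne hyF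
  refine ⟨orthExt F T, by rw [← hF]; exact hbuild, ?_, by rw [hTax, hTx], by rw [hTay, hTy]⟩
  rw [← hF] at hαI ⊢
  have hS₁ : ({x} : Set (L → ℂ)) ⊆ (F : Set (L → ℂ)) := by
    intro φ hφ; rw [Set.mem_singleton_iff] at hφ; rw [hφ]; exact hxF
  apply glue hS₁ hαI hFI
  · intro β hβ
    have h1 : β = 0 := by
      rw [mem_zspanOn_one] at hβ
      obtain ⟨hβ, hβ1⟩ := hβ
      obtain ⟨c, hc⟩ := Submodule.mem_span_singleton.mp (show β ∈ Submodule.span ℤ {x} from hβ)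
      rw [← hc, zs_apply] at hβ1
      rcases mul_eq_zero.mp hβ1 with h | h
      · have : c = 0 := by exact_mod_cast h
        rw [← hc, this, zero_smul]
      · exact absurd h (IsIrr.degree_ne_zero hx)
    rw [h1, hFI.zero, hαI.zero]
  · intro χ hχ hχx
    have hχ' : χ = y := by
      rw [hF] at hχ
      simp only [Set.mem_insert_iff, Set.mem_singleton_iff] at hχ hχx
      exact hχ.resolve_left hχx
    subst hχ'
    refine ⟨x, zspan_mem rfl, by rw [Pi.sub_apply, hdeg, sub_self], ?_⟩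
    rw [hFI.sub (Submodule.subset_span hyF) (Submodule.subset_span hxF), hTax, hTay, hTx, hTy]
    have hb : χ - x ∈ zspanOn ({x, χ} : Set (L → ℂ)) {1}ᶜ := by
      rw [mem_zspanOn_one]
      exact ⟨zspan_sub my mx, by rw [Pi.sub_apply, hdeg, sub_self]⟩
    rw [← hσα _ hb, hI.sub my mx]
    ring

end swap

section final
variable {L : Type u} [Group L] [Fintype L] {G : Type v} [Group G] [Fintype G]

theorem sib_final (S : Set (L → ℂ)) (X Y : Finset (L → ℂ)) (hirr : ∀ ξ ∈ S, IsIrrCharacter L ξ) (hXS : ↑X ⊆ S) (hYS : ↑Y ⊆ S)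
    (hXY : Disjoint (↑X : Set (L → ℂ)) ↑Y) (hX2 : 2 ≤ X.card) (hY2 : 2 ≤ Y.card)
    (α : (L → ℂ) → (G → ℂ)) (hα : IsLinearIsometryOn (zspanOn S {1}ᶜ) α) (hα1 : ∀ θ ∈ zspanOn S {1}ᶜ, α θ 1 = 0)
    (σ ρ : (L → ℂ) → (G → ℂ)) (hσ : IsLinearIsometryOn (zspan (↑X : Set (L → ℂ))) σ) (hσα : ∀ θ ∈ zspanOn (↑X : Set (L → ℂ)) {1}ᶜ, σ θ = α θ)
    (hρ : IsLinearIsometryOn (zspan (↑Y : Set (L → ℂ))) ρ) (hρα : ∀ θ ∈ zspanOn (↑Y : Set (L → ℂ)) {1}ᶜ, ρ θ = α θ)
    (d : (L → ℂ) → ℕ) (hd : ∀ ξ ∈ S, ξ 1 = (d ξ : ℂ)) (ψ φ : L → ℂ) (hψ : ψ ∈ X) (hφ : φ ∈ Y) (hψmin : ∀ χ ∈ X, d ψ ≤ d χ)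
    (hYd : ∀ χ ∈ Y, d χ = d φ) (a : ℕ) (ha : d ψ = a * d φ)
    (hdiv : ∀ φ' ∈ Y, ∃ t : ℤ, classInner (α (ψ - (a : ℤ) • φ)) (ρ φ') = (a : ℂ) * t) :
    IsCoherent (↑X ∪ ↑Y : Set (L → ℂ)) {1}ᶜ α := by
  classical
  have hσI := isoOn_span hσ
  have hρI := isoOn_span hρ
  have hαI := isoOn_zsub hα
  have iX : ∀ {χ}, χ ∈ X → IsIrrCharacter L χ := fun h => hirr _ (hXS h)
  have iY : ∀ {χ}, χ ∈ Y → IsIrrCharacter L χ := fun h => hirr _ (hYS h)
  have mX : ∀ {χ}, χ ∈ X → χ ∈ zspan (↑X : Set (L → ℂ)) := fun h => zspan_mem h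
  have mY : ∀ {χ}, χ ∈ Y → χ ∈ zspan (↑Y : Set (L → ℂ)) := fun h => zspan_mem h
  have hXYne : ∀ {χ η}, χ ∈ X → η ∈ Y → χ ≠ η := fun h h' e => Set.disjoint_left.mp hXY h (e ▸ h')
  obtain ⟨ψ', hψ', hψψ'⟩ : ∃ ψ' ∈ X, ψ' ≠ ψ := Finset.exists_mem_ne (by omega) ψ
  obtain ⟨φ₁, hφ₁, hφφ₁⟩ : ∃ φ₁ ∈ Y, φ₁ ≠ φ := Finset.exists_mem_ne (by omega) φ
  have hX2' : ∃ a ∈ (↑X : Set (L → ℂ)), ∃ b ∈ (↑X : Set (L → ℂ)), a ≠ b := ⟨ψ', hψ', ψ, hψ, hψψ'⟩
  have hY2' : ∃ a ∈ (↑Y : Set (L → ℂ)), ∃ b ∈ (↑Y : Set (L → ℂ)), a ≠ b := ⟨φ₁, hφ₁, φ, hφ, hφφ₁⟩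
  have hperp := join_perp S ↑X ↑Y hirr hXS hYS hXY hX2' hY2' α hα hα1 σ ρ hσ hσα hρ hρα
  have hdpos : ∀ χ ∈ S, 0 < d χ := by
    intro χ hχ
    rcases Nat.eq_zero_or_pos (d χ) with h | h
    · exact absurd (by rw [hd χ hχ, h]; simp) (IsIrr.degree_ne_zero (hirr χ hχ))
    · exact h
  have hdψ : 0 < d ψ := hdpos ψ (hXS hψ)
  have ha0 : 0 < a := by
    rcases Nat.eq_zero_or_pos a with h | h
    · rw [h, zero_mul] at ha; omega
    · exact h
  have hdψr : (d ψ : ℝ) ≠ 0 := by exact_mod_cast hdψ.ne'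
  have hdψc : (d ψ : ℂ) ≠ 0 := by exact_mod_cast hdψ.ne'
  have hm : ψ - (a : ℤ) • φ ∈ zspanOn S {1}ᶜ := by
    rw [mem_zspanOn_one]
    refine ⟨zspan_sub (zspan_mem (hXS hψ)) (zspan_smul _ (zspan_mem (hYS hφ))), ?_⟩
    rw [Pi.sub_apply, zs_apply, hd ψ (hXS hψ), hd φ (hYS hφ), ha]; push_cast; ring
  set β := α (ψ - (a : ℤ) • φ) with hβ
  have hβgen : IsGeneralizedCharacter G β := hαI.gen _ hm
  have hψφ : classInner ψ φ = 0 := ii_ne (iX hψ) (iY hφ) (hXYne hψ hφ)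
  have hφψ : classInner φ ψ = 0 := ii_ne (iY hφ) (iX hψ) (hXYne hψ hφ).symm
  have hβn : classInner β β = 1 + (a : ℂ) ^ 2 := by
    rw [hβ, hαI.inner _ hm _ hm, zs_eq, H5.classInner_sub_left, H5.classInner_sub_right, H5.classInner_sub_right,
      H5.classInner_smul_left, H5.classInner_smul_left, H5.classInner_smul_right, H5.classInner_smul_right, hψφ, hφψ, ii_self (iX hψ), ii_self (iY hφ)]
    simp
    ring
  -- X coefficients
  obtain ⟨k, hk⟩ := gen_gen_int hβgen (hσI.gen _ (mX hψ))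
  have hu : ∀ χ ∈ X, classInner β (σ χ) = (((k - 1 : ℝ) * (d χ / d ψ) + (if χ = ψ then 1 else 0) : ℝ) : ℂ) := by
    intro χ hχ
    have hb : (d χ : ℤ) • ψ - (d ψ : ℤ) • χ ∈ zspanOn (↑X : Set (L → ℂ)) {1}ᶜ := by
      rw [mem_zspanOn_one]
      refine ⟨zspan_sub (zspan_smul _ (mX hψ)) (zspan_smul _ (mX hχ)), ?_⟩
      rw [Pi.sub_apply, zs_apply, zs_apply, hd χ (hXS hχ), hd ψ (hXS hψ)]
      push_cast; ring
    have e1 : classInner β (α ((d χ : ℤ) • ψ - (d ψ : ℤ) • χ)) = (d χ : ℂ) - d ψ * (if χ = ψ then 1 else 0) := by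
      rw [hβ, hαI.inner _ hm _ (zspanOn_mono hXS hb), zs_eq, zs_eq, zs_eq, H5.classInner_sub_left, H5.classInner_sub_right, H5.classInner_sub_right]
      simp only [H5.classInner_smul_left, H5.classInner_smul_right]
      rw [ii_self (iX hψ), hφψ, ii_ne (iY hφ) (iX hχ) (hXYne hχ hφ).symm]
      split_ifs with h
      · rw [h, ii_self (iX hψ)]; simp
      · rw [ii_ne (iX hψ) (iX hχ) (Ne.symm h)]; simp
    rw [← hσα _ hb, hσI.sub (zspan_smul _ (mX hψ)) (zspan_smul _ (mX hχ)), hσI.smul _ (mX hψ), hσI.smul _ (mX hχ), zs_eq, zs_eq,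
      H5.classInner_sub_right, H5.classInner_smul_right, H5.classInner_smul_right, hk] at e1
    simp only [Int.cast_natCast, map_natCast] at e1
    have e4 : (d ψ : ℂ) * classInner β (σ χ) = d ψ * (((k - 1 : ℝ) * (d χ / d ψ) + (if χ = ψ then 1 else 0) : ℝ) : ℂ) := by
      split_ifs at e1 ⊢ with h
      · rw [h, hk]
        push_cast
        field_simp
        ring
      · push_cast
        field_simp
        linear_combination -e1
    exact mul_left_cancel₀ hdψc e4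
  -- Y coefficients
  obtain ⟨t, ht⟩ := hdiv φ hφ
  have hw : ∀ χ ∈ Y, classInner β (ρ χ) = (((a : ℝ) * ((t + 1 : ℝ) - (if χ = φ then 1 else 0)) : ℝ) : ℂ) := by
    intro χ hχ
    by_cases h : χ = φ
    · rw [if_pos h, h, ht]; push_cast; ring
    · have hb : χ - φ ∈ zspanOn (↑Y : Set (L → ℂ)) {1}ᶜ := by
        rw [mem_zspanOn_one]
        refine ⟨zspan_sub (mY hχ) (mY hφ), ?_⟩
        rw [Pi.sub_apply, hd χ (hYS hχ), hd φ (hYS hφ), hYd χ hχ, sub_self]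
      have e1 : classInner β (α (χ - φ)) = a := by
        rw [hβ, hαI.inner _ hm _ (zspanOn_mono hYS hb), zs_eq, H5.classInner_sub_left, H5.classInner_sub_right, H5.classInner_sub_right]
        simp only [H5.classInner_smul_left]
        rw [ii_ne (iX hψ) (iY hχ) (hXYne hψ hχ), hψφ, ii_self (iY hφ), ii_ne (iY hφ) (iY hχ) (Ne.symm h)]
        simp
      rw [← hρα _ hb, hρI.sub (mY hχ) (mY hφ), H5.classInner_sub_right, ht] at e1
      rw [if_neg h]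
      push_cast
      linear_combination e1
  -- combined Bessel
  let T : (L → ℂ) → (G → ℂ) := fun χ => if χ ∈ X then σ χ else ρ χ
  have hTX : ∀ χ ∈ X, T χ = σ χ := fun χ h => if_pos h
  have hTY : ∀ χ ∈ Y, T χ = ρ χ := fun χ h => if_neg (fun h' => hXYne h' h rfl)
  have hdisj : Disjoint X Y := by
    rw [Finset.disjoint_left]; intro χ h h'; exact hXYne h h' rfl
  have hTn : ∀ i ∈ X ∪ Y, classInner (T i) (T i) = ((1 : ℝ) : ℂ) := by
    intro i hi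
    rcases Finset.mem_union.mp hi with h | h
    · rw [hTX i h, hσI.inner _ (mX h) _ (mX h), ii_self (iX h)]; simp
    · rw [hTY i h, hρI.inner _ (mY h) _ (mY h), ii_self (iY h)]; simp
  have hTo : ∀ i ∈ X ∪ Y, ∀ j ∈ X ∪ Y, i ≠ j → classInner (T i) (T j) = 0 := by
    intro i hi j hj hij
    rcases Finset.mem_union.mp hi with h | h <;> rcases Finset.mem_union.mp hj with h' | h'
    · rw [hTX i h, hTX j h', hσI.inner _ (mX h) _ (mX h'), ii_ne (iX h) (iX h') hij]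
    · rw [hTX i h, hTY j h', hperp i h j h']
    · rw [hTY i h, hTX j h', ← H5.classInner_conj_symm, hperp j h' i h, map_zero]
    · rw [hTY i h, hTY j h', hρI.inner _ (mY h) _ (mY h'), ii_ne (iY h) (iY h') hij]
  have hn0 : ∀ i ∈ X ∪ Y, (1 : ℝ) ≠ 0 := fun _ _ => one_ne_zero
  have hle := bessel_orth_le (X ∪ Y) T (fun _ => (1 : ℝ)) hn0 hTn hTo β
  set s : ℝ := ∑ χ ∈ X, ((d χ : ℝ) / d ψ) ^ 2 with hs
  have hsumX : ∑ χ ∈ X, ‖classInner β (T χ)‖ ^ 2 / (1 : ℝ) = (k - 1 : ℝ) ^ 2 * s + 2 * (k - 1) + 1 := by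
    have h1 : ∀ χ ∈ X, ‖classInner β (T χ)‖ ^ 2 / (1 : ℝ) = (k - 1 : ℝ) ^ 2 * ((d χ : ℝ) / d ψ) ^ 2 + (if χ = ψ then (2 * (k - 1) + 1 : ℝ) else 0) := by
      intro χ hχ
      rw [hTX χ hχ, hu χ hχ, Complex.norm_real, Real.norm_eq_abs, sq_abs]
      split_ifs with h
      · rw [h, div_self hdψr]; ring
      · ring
    rw [Finset.sum_congr rfl h1, Finset.sum_add_distrib, ← Finset.mul_sum, Finset.sum_ite_eq' X ψ, if_pos hψ]
    ring
  have hsumY : ∑ χ ∈ Y, ‖classInner β (T χ)‖ ^ 2 / (1 : ℝ) = (a : ℝ) ^ 2 * ((t + 1 : ℝ) ^ 2 * Y.card - 2 * (t + 1) + 1) := by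
    have h1 : ∀ χ ∈ Y, ‖classInner β (T χ)‖ ^ 2 / (1 : ℝ) = (a : ℝ) ^ 2 * ((t + 1 : ℝ) ^ 2) + (if χ = φ then (a : ℝ) ^ 2 * (-2 * (t + 1) + 1 : ℝ) else 0) := by
      intro χ hχ
      rw [hTY χ hχ, hw χ hχ, Complex.norm_real, Real.norm_eq_abs, sq_abs]
      split_ifs with h
      · ring
      · ring
    rw [Finset.sum_congr rfl h1, Finset.sum_add_distrib, Finset.sum_const, nsmul_eq_mul, Finset.sum_ite_eq' Y φ, if_pos hφ]
    ring
  rw [Finset.sum_union hdisj, hsumX, hsumY] at hle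
  have hβre : (classInner β β).re = 1 + (a : ℝ) ^ 2 := by
    rw [hβn]
    have h9 : (1 + (a : ℂ) ^ 2) = ((1 + (a : ℝ) ^ 2 : ℝ) : ℂ) := by push_cast; rfl
    rw [h9, Complex.ofReal_re]
  rw [hβre] at hle
  have hratio : ∀ χ ∈ X, (1 : ℝ) ≤ ((d χ : ℝ) / d ψ) ^ 2 := by
    intro χ hχ
    have h1 : (1 : ℝ) ≤ (d χ : ℝ) / d ψ := by
      rw [le_div_iff₀ (by exact_mod_cast hdψ)]
      rw [one_mul]; exact_mod_cast hψmin χ hχ
    nlinarith
  have hs2 : (X.card : ℝ) ≤ s := by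
    have := Finset.card_nsmul_le_sum X (fun χ => ((d χ : ℝ) / d ψ) ^ 2) 1 hratio
    simpa using this
  have hXc : (2 : ℝ) ≤ X.card := by exact_mod_cast hX2
  have hYc : (2 : ℝ) ≤ Y.card := by exact_mod_cast hY2
  have har : (1 : ℝ) ≤ a := by exact_mod_cast ha0
  -- integrality
  have hkk : (0 : ℝ) ≤ ((k : ℝ) - 1) * k := by
    have h1 : (0 : ℤ) ≤ (k - 1) * k := by
      rcases le_or_gt k 0 with h | h
      · nlinarith
      · nlinarith
    exact_mod_cast h1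
  have htt : (0 : ℝ) ≤ ((t : ℝ) + 1) * t := by
    have h1 : (0 : ℤ) ≤ (t + 1) * t := by
      rcases le_or_gt 0 t with h | h
      · nlinarith
      · nlinarith
    exact_mod_cast h1
  have hA : 0 ≤ (k - 1 : ℝ) ^ 2 * s + 2 * (k - 1) := by nlinarith [sq_nonneg ((k : ℝ) - 1)]
  have hB : 0 ≤ (t + 1 : ℝ) ^ 2 * Y.card - 2 * (t + 1) := by nlinarith [sq_nonneg ((t : ℝ) + 1)]
  have ha2 : (1 : ℝ) ≤ (a : ℝ) ^ 2 := by nlinarith
  have hA0 : (k - 1 : ℝ) ^ 2 * s + 2 * (k - 1) = 0 := by nlinarith [mul_nonneg (le_trans zero_le_one ha2) hB]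
  have hB0 : (t + 1 : ℝ) ^ 2 * Y.card - 2 * (t + 1) = 0 := by
    have : (a : ℝ) ^ 2 * ((t + 1 : ℝ) ^ 2 * Y.card - 2 * (t + 1)) ≤ 0 := by nlinarith
    nlinarith
  have hβeq := bessel_orth_equality (X ∪ Y) T (fun _ => (1 : ℝ)) hn0 hTn hTo β (by
    rw [Finset.sum_union hdisj, hsumX, hsumY, hβre, hA0]
    have : (a : ℝ) ^ 2 * ((t + 1 : ℝ) ^ 2 * Y.card - 2 * (t + 1) + 1) = (a : ℝ) ^ 2 * ((t + 1 : ℝ) ^ 2 * Y.card - 2 * (t + 1)) + (a : ℝ) ^ 2 := by ring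
    rw [this, hB0]
    linarith)
  rw [Finset.sum_union hdisj] at hβeq
  -- choose σ'
  obtain ⟨σ', hσ', hσα', hσβ⟩ : ∃ σ' : (L → ℂ) → (G → ℂ), IsLinearIsometryOn (zspan (↑X : Set (L → ℂ))) σ' ∧
      (∀ θ ∈ zspanOn (↑X : Set (L → ℂ)) {1}ᶜ, σ' θ = α θ) ∧ ∑ χ ∈ X, (classInner β (T χ) / ((1 : ℝ) : ℂ)) • T χ = σ' ψ := by
    by_cases hk1 : k = 1
    · refine ⟨σ, hσ, hσα, ?_⟩
      rw [Finset.sum_eq_single ψ]
      · rw [hTX ψ hψ, hu ψ hψ, if_pos rfl, hk1]; simp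
      · intro χ hχ hne
        rw [hTX χ hχ, hu χ hχ, if_neg hne, hk1]; simp
      · intro h; exact absurd hψ h
    · have hkm : ((k : ℝ) - 1) ≠ 0 := by
        intro h; apply hk1
        have : (k : ℝ) = 1 := by linarith
        exact_mod_cast this
      have hk0 : k = 0 := by
        by_contra hk0
        have h1 : (1 : ℝ) ≤ (k - 1) * k := by
          have h2 : (1 : ℤ) ≤ (k - 1) * k := by
            rcases lt_or_gt_of_ne hk0 with h | h
            · nlinarith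
            · have : 2 ≤ k := by omega
              nlinarith
          exact_mod_cast h2
        nlinarith [sq_nonneg ((k : ℝ) - 1)]
      have hs22 : s = 2 := by
        rw [hk0] at hA0
        push_cast at hA0
        linarith
      have hXcard : X.card = 2 := by
        have : (X.card : ℝ) ≤ 2 := by rw [← hs22]; exact hs2
        have : X.card ≤ 2 := by exact_mod_cast this
        omega
      have hXpair : X = {ψ, ψ'} := by
        symm
        apply Finset.eq_of_subset_of_card_le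
        · intro χ hχ
          simp only [Finset.mem_insert, Finset.mem_singleton] at hχ
          rcases hχ with rfl | rfl
          · exact hψ
          · exact hψ'
        · rw [hXcard, Finset.card_pair hψψ'.symm]
      have hdd : d ψ' = d ψ := by
        have h1 : s = 1 + ((d ψ' : ℝ) / d ψ) ^ 2 := by
          rw [hs, hXpair, Finset.sum_pair hψψ'.symm, div_self hdψr]; ring
        rw [hs22] at h1
        have h2 : ((d ψ' : ℝ) / d ψ) ^ 2 = 1 := by linarith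
        have h3 : (d ψ' : ℝ) / d ψ = 1 := by
          have h4 : 0 ≤ (d ψ' : ℝ) / d ψ := by positivity
          nlinarith
        rw [div_eq_one_iff_eq hdψr] at h3
        exact_mod_cast h3
      have hXset : (↑X : Set (L → ℂ)) = {ψ, ψ'} := by rw [hXpair]; simp
      rw [hXset] at hσ hσα ⊢
      obtain ⟨σ', h1, h2, h3, h4⟩ := swap_ext ψ ψ' (iX hψ) (iX hψ') hψψ'.symm (by rw [hd ψ (hXS hψ), hd ψ' (hXS hψ'), hdd])
        (hαI.mono (fun θ hθ => zspanOn_mono (by rw [← hXset]; exact hXS) hθ)).to_zsub hσ hσα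
      refine ⟨σ', h1, h2, ?_⟩
      rw [h3, hXpair, Finset.sum_pair hψψ'.symm, hTX ψ hψ, hTX ψ' hψ', hu ψ hψ, hu ψ' hψ', if_pos rfl, if_neg hψψ', hk0, hdd, div_self hdψr]
      simp
  obtain ⟨ρ', hρ', hρα', hρβ⟩ : ∃ ρ' : (L → ℂ) → (G → ℂ), IsLinearIsometryOn (zspan (↑Y : Set (L → ℂ))) ρ' ∧
      (∀ θ ∈ zspanOn (↑Y : Set (L → ℂ)) {1}ᶜ, ρ' θ = α θ) ∧ ∑ χ ∈ Y, (classInner β (T χ) / ((1 : ℝ) : ℂ)) • T χ = -((a : ℂ) • ρ' φ) := by
    by_cases ht1 : t = -1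
    · refine ⟨ρ, hρ, hρα, ?_⟩
      rw [Finset.sum_eq_single φ]
      · rw [hTY φ hφ, hw φ hφ, if_pos rfl, ht1]; simp
      · intro χ hχ hne
        rw [hTY χ hχ, hw χ hχ, if_neg hne, ht1]; simp
      · intro h; exact absurd hφ h
    · have htm : ((t : ℝ) + 1) ≠ 0 := by
        intro h; apply ht1
        have : (t : ℝ) = -1 := by linarith
        exact_mod_cast this
      have ht0 : t = 0 := by
        by_contra ht0
        have h1 : (1 : ℝ) ≤ (t + 1) * t := by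
          have h2 : (1 : ℤ) ≤ (t + 1) * t := by
            rcases lt_or_gt_of_ne ht0 with h | h
            · have : t ≤ -2 := by omega
              nlinarith
            · nlinarith
          exact_mod_cast h2
        nlinarith [sq_nonneg ((t : ℝ) + 1)]
      have hYcard : Y.card = 2 := by
        rw [ht0] at hB0
        push_cast at hB0
        have : (Y.card : ℝ) = 2 := by linarith
        exact_mod_cast this
      have hYpair : Y = {φ, φ₁} := by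
        symm
        apply Finset.eq_of_subset_of_card_le
        · intro χ hχ
          simp only [Finset.mem_insert, Finset.mem_singleton] at hχ
          rcases hχ with rfl | rfl
          · exact hφ
          · exact hφ₁
        · rw [hYcard, Finset.card_pair hφφ₁.symm]
      have hYset : (↑Y : Set (L → ℂ)) = {φ, φ₁} := by rw [hYpair]; simp
      rw [hYset] at hρ hρα ⊢
      obtain ⟨ρ', h1, h2, h3, h4⟩ := swap_ext φ φ₁ (iY hφ) (iY hφ₁) hφφ₁.symm (by rw [hd φ (hYS hφ), hd φ₁ (hYS hφ₁), hYd φ₁ hφ₁])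
        (hαI.mono (fun θ hθ => zspanOn_mono (by rw [← hYset]; exact hYS) hθ)).to_zsub hρ hρα
      refine ⟨ρ', h1, h2, ?_⟩
      rw [h3, hYpair, Finset.sum_pair hφφ₁.symm, hTY φ hφ, hTY φ₁ hφ₁, hw φ hφ, hw φ₁ hφ₁, if_pos rfl, if_neg hφφ₁, ht0]
      simp
  rw [hσβ, hρβ] at hβeq
  have hperp' := join_perp S ↑X ↑Y hirr hXS hYS hXY hX2' hY2' α hα hα1 σ' ρ' hσ' hσα' hρ' hρα'
  refine join_coherent S ↑X ↑Y hirr hXS hYS hXY hX2' α hα σ' ρ' hσ' hσα' hρ' hρα' hperp' hψ hφ ?_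
  have e1 : ψ 1 • φ - φ 1 • ψ = (-(d φ : ℤ)) • (ψ - (a : ℤ) • φ) := by
    rw [hd ψ (hXS hψ), hd φ (hYS hφ), ha]
    funext x
    rw [Pi.sub_apply, Pi.smul_apply, Pi.smul_apply, zs_apply, Pi.sub_apply, zs_apply]
    simp only [smul_eq_mul]
    push_cast
    ring
  rw [e1, hαI.smul _ hm, ← hβ, hβeq, hd ψ (hXS hψ), hd φ (hYS hφ), ha]
  funext x
  simp only [zs_apply, Pi.sub_apply, Pi.smul_apply, smul_eq_mul, zsmul_eq_mul, Pi.add_apply, Pi.neg_apply, Int.cast_neg, Int.cast_natCast, Nat.cast_mul]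
  ring

end final

end Cfsg.Agent.H4
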