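import Cfsg.Agent.H4.Sib1
import Cfsg.Agent.H4.Sib2
import Cfsg.Agent.H1.Coprime3

set_option linter.all false
set_option autoImplicit false

/-! Sibley's coherence theorem: the p-group case. -/

namespace Cfsg.Agent.H4

open Module
open scoped ComplexConjugate Pointwise commutatorElement

universe u v w

theorem frob_quot {L : Type u} [Group L] [Finite L] {K D : Subgroup L} (hcop : Nat.Coprime (Nat.card K) K.index)
    (hC : ∀ k ∈ K, k ≠ 1 → Subgroup.centralizer ({k} : Set L) ≤ K) (hK : K.Normal) (hD : D.Normal) (hDK : D ≤ K) :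
    ∀ k ∈ K, k ∉ D → ∀ x : L, x * k * x⁻¹ * k⁻¹ ∈ D → x ∈ K := by
  intro k hk hkD x hx
  haveI := hD
  haveI := hK
  set n := Nat.card K with hn
  set o := orderOf x with ho
  set y := x ^ (n ^ o) with hy
  have hopos : 0 < o := orderOf_pos x
  have hycop : Nat.Coprime (orderOf y) n := by
    rw [Nat.coprime_iff_gcd_eq_one]
    by_contra hne
    obtain ⟨q, hq, hqd⟩ := Nat.exists_prime_and_dvd hne
    have h1 : q ∣ orderOf y := hqd.trans (Nat.gcd_dvd_left _ _)
    have h2 : q ∣ n := hqd.trans (Nat.gcd_dvd_right _ _)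
    rw [hy, orderOf_pow, ← ho] at h1
    have h3 : q ^ o.factorization q ∣ o := Nat.ordProj_dvd o q
    have h4 : q ^ o.factorization q ∣ n ^ o := by
      have h5 : o.factorization q ≤ o := (Nat.factorization_lt q hopos.ne').le
      exact (pow_dvd_pow q h5).trans (pow_dvd_pow_of_dvd h2 o)
    have h6 := Nat.dvd_gcd h3 h4
    have h7 : q * q ^ o.factorization q ∣ o := by
      calc q * q ^ o.factorization q ∣ (o / Nat.gcd o (n ^ o)) * Nat.gcd o (n ^ o) := Nat.mul_dvd_mul h1 h6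
        _ = o := Nat.div_mul_cancel (Nat.gcd_dvd_left _ _)
    rw [← pow_succ'] at h7
    exact Nat.pow_succ_factorization_not_dvd hopos.ne' hq h7
  -- commutation mod D
  have hcomm : Commute (QuotientGroup.mk' D x) (QuotientGroup.mk' D k) := by
    show _ * _ = _ * _
    rw [← map_mul, ← map_mul, QuotientGroup.mk'_apply, QuotientGroup.mk'_apply, eq_comm, QuotientGroup.eq]
    have := hD.conj_mem _ hx (k * x)⁻¹
    convert this using 1; group
  have hfix : ∀ a ∈ Subgroup.zpowers y, k⁻¹ * (a * k * a⁻¹) ∈ D := by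
    rintro _ ⟨j, rfl⟩
    have h1 : Commute (QuotientGroup.mk' D (y ^ j)) (QuotientGroup.mk' D k) := by
      rw [map_zpow, hy, map_pow]
      exact (hcomm.pow_left _).zpow_left _
    have h2 : QuotientGroup.mk' D (k * y ^ j) = QuotientGroup.mk' D (y ^ j * k) := by
      rw [map_mul, map_mul]; exact h1.symm
    rw [QuotientGroup.mk'_apply, QuotientGroup.mk'_apply, QuotientGroup.eq] at h2
    have := hD.conj_mem _ h2 (y ^ j)
    convert this using 1; group
  obtain ⟨d, hd, hdc⟩ := H1.exists_fixed_in_coset (A := Subgroup.zpowers y) (D := D) (x := k)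
    (by rw [Subgroup.normalizer_eq_top]; exact le_top) (by
      rw [Nat.card_zpowers]
      exact Nat.Coprime.coprime_dvd_right (Subgroup.card_dvd_of_le hDK) hycop) (Or.inl (Group.isSolvable_of_comm (by
        rintro ⟨_, i, rfl⟩ ⟨_, j, rfl⟩
        exact Subtype.ext (((Commute.refl y).zpow_left i).zpow_right j)))) hfix
  have hkd : k * d ≠ 1 := by
    intro h
    apply hkD
    rw [eq_inv_of_mul_eq_one_left h]
    exact D.inv_mem hd
  have hyK : y ∈ K := by
    apply hC (k * d) (K.mul_mem hk (hDK hd)) hkd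
    rw [Subgroup.mem_centralizer_singleton_iff]
    exact (Subgroup.mem_centralizer_iff.mp hdc) y (Subgroup.mem_zpowers y)
  have hy1 : y = 1 := by
    have h1 : orderOf y ∣ n := Subgroup.orderOf_dvd_natCard K hyK
    have h2 := Nat.dvd_gcd (dvd_refl _) h1
    rw [hycop] at h2
    exact orderOf_eq_one_iff.mp (Nat.dvd_one.mp h2)
  -- x ∈ K
  rw [← QuotientGroup.eq_one_iff, ← orderOf_eq_one_iff]
  have h1 : orderOf (x : L ⧸ K) ∣ n ^ o := by
    apply orderOf_dvd_of_pow_eq_one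
    rw [← QuotientGroup.mk_pow, ← hy, hy1]; rfl
  have h2 : orderOf (x : L ⧸ K) ∣ K.index := orderOf_dvd_natCard _
  have h3 := Nat.dvd_gcd h1 h2
  rw [Nat.Coprime.pow_left o hcop] at h3
  exact Nat.dvd_one.mp h3

section sib
variable {G : Type u} [Group G] [Fintype G]

theorem sibley_p {p : ℕ} [hpf : Fact p.Prime] (P : Sylow p G) (L : Subgroup G) [Fintype L] (hL : Subgroup.normalizer ((P : Subgroup G) : Set G) = L)
    (hodd : Odd (Nat.card L)) (hTI : IsTISubset ((P : Subgroup G) : Set G)) (K : Subgroup L) (hKdef : K = (P : Subgroup G).subgroupOf L)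
    (hC : ∀ k ∈ K, k ≠ 1 → Subgroup.centralizer ({k} : Set L) ≤ K) (hnab : ⁅K, K⁆ ≠ ⊥) :
    IsCoherent (inducedIrrAbove K ⊥) {1}ᶜ (fun α : L → ℂ => indFun L α) := by
  classical
  have hp := hpf.out
  have hPL : (P : Subgroup G) ≤ L := by rw [← hL]; exact Subgroup.le_normalizer
  have hmK : ∀ x : L, x ∈ K ↔ (x : G) ∈ (P : Subgroup G) := fun x => by rw [hKdef]; exact Subgroup.mem_subgroupOf
  have hK : K.Normal := by
    refine ⟨fun k hk x => ?_⟩
    rw [hmK] at hk ⊢
    have hx : (x : G) ∈ Subgroup.normalizer ((P : Subgroup G) : Set G) := by rw [hL]; exact x.2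
    exact (Subgroup.mem_normalizer_iff.mp hx _).mp hk
  haveI := hK
  have hcardK : Nat.card K = Nat.card (P : Subgroup G) := by rw [hKdef]; exact card_subgroupOf_of_le hPL
  have hKp : IsPGroup p K := by
    obtain ⟨m, hm⟩ := P.isPGroup'.exists_card_eq
    exact IsPGroup.of_card (by rw [hcardK, hm])
  haveI hnil : Group.IsNilpotent K := hKp.isNilpotent
  have hsolv : Group.IsSolvable K := inferInstance
  have hKbot : K ≠ ⊥ := by
    rintro rfl
    apply hnab
    rw [eq_bot_iff]; exact Subgroup.commutator_le_self _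
  have hcopi : Nat.Coprime p K.index := by
    rw [Nat.Prime.coprime_iff_not_dvd hp]
    intro h
    apply P.not_dvd_index
    rw [← Subgroup.relIndex_mul_index hPL]
    apply Dvd.dvd.mul_right
    rw [Subgroup.relIndex, ← hKdef]; exact h
  have hcop : Nat.Coprime (Nat.card K) K.index := by
    obtain ⟨m, hm⟩ := hKp.exists_card_eq
    rw [hm]; exact Nat.Coprime.pow_left _ hcopi
  haveI : Nontrivial K := (Subgroup.nontrivial_iff_ne_bot K).mpr hKbot
  have hmapc : (commutator K).map K.subtype = ⁅K, K⁆ := by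
    rw [commutator_def, Subgroup.map_commutator, ← MonoidHom.range_eq_map, Subgroup.range_subtype]
  have hKK : ⁅K, K⁆ < K := by
    refine lt_of_le_of_ne (Subgroup.commutator_le_self K) ?_
    intro h
    have h1 : commutator K < ⊤ := IsSolvable.commutator_lt_top_of_nontrivial _
    apply h1.ne
    apply Subgroup.map_injective K.subtype_injective
    rw [hmapc, h, ← MonoidHom.range_eq_map, Subgroup.range_subtype]
  have hab : ∀ x ∈ K, ∀ y ∈ K, x * y * x⁻¹ * y⁻¹ ∈ ⁅K, K⁆ := fun x hx y hy => Subgroup.commutator_mem_commutator hx hy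
  have hp2 : p ≠ 2 := by
    rintro rfl
    have h1 : 2 ∣ Nat.card L := by
      have h2 : 2 ∣ Nat.card K := by
        obtain ⟨m, hm⟩ := hKp.exists_card_eq
        have hm0 : m ≠ 0 := by
          rintro rfl
          rw [pow_zero] at hm
          exact hKbot (Subgroup.card_eq_one.mp hm)
        rw [hm]; exact dvd_pow_self 2 hm0
      exact h2.trans (Subgroup.card_subgroup_dvd_card K)
    exact (Nat.not_even_iff_odd.mpr hodd) (even_iff_two_dvd.mpr h1)
  -- Z
  set Z : Subgroup L := (Subgroup.center K).map K.subtype ⊓ ⁅K, K⁆ with hZdef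
  have hZ : Z.Normal := by
    haveI : ((Subgroup.center K).map K.subtype).Normal := ConjAct.normal_of_characteristic_of_normal
    infer_instance
  have hZK : Z ≤ K := inf_le_right.trans hKK.le
  have hZKK : Z ≤ ⁅K, K⁆ := inf_le_right
  have hZc : ∀ z ∈ Z, ∀ k ∈ K, z * k = k * z := by
    intro z hz k hk
    obtain ⟨c, hc, rfl⟩ := hz.1
    have := (Subgroup.mem_center_iff.mp hc) ⟨k, hk⟩
    exact (congrArg Subtype.val this).symm
  have hZ1 : Z ≠ ⊥ := by
    haveI : ((⁅K, K⁆).subgroupOf K).Normal := inferInstance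
    have h1 : (⁅K, K⁆).subgroupOf K ≠ ⊥ := by
      intro h
      apply hnab
      rw [← Subgroup.map_subgroupOf_eq_of_le hKK.le, h, Subgroup.map_bot]
    obtain ⟨y, hy1, hy2, hy3⟩ := exists_mem_center_of_normal hKp _ h1
    intro h
    apply hy3
    have h2 : (y : L) ∈ Z := ⟨⟨y, hy2, rfl⟩, Subgroup.mem_subgroupOf.mp hy1⟩
    rw [h] at h2
    exact Subtype.ext (Subgroup.mem_bot.mp h2)
  -- irreducibility
  have hirrS : ∀ χ ∈ inducedIrrAbove K ⊥, IsIrrCharacter L χ := by
    rintro χ ⟨θ, h1, h2, _, rfl⟩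
    exact induced_irr_of_cent hK hC θ h1 h2
  have hconjS : ∀ χ ∈ inducedIrrAbove K ⊥, conjFun χ ∈ inducedIrrAbove K ⊥ ∧ conjFun χ ≠ χ := by
    intro χ hχ
    exact ⟨above_conj hχ, fun h => above_ne_one hK hχ (odd_real_one hodd (hirrS χ hχ) h)⟩
  have hSne : (inducedIrrAbove K ⊥).Nonempty := above_nonempty hsolv inferInstance (bot_lt_iff_ne_bot.mpr hKbot)
  obtain ⟨hiso, hvan⟩ := ti_iso (P : Subgroup G) L hL hTI (inducedIrrAbove K ⊥) (fun χ hχ => IsIrr.isCharacter (hirrS χ hχ))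
    (by
      rintro χ ⟨θ, _, _, _, rfl⟩ x hx
      exact ind_vanish_off hK θ (fun h => hx ((hmK x).mp h)))
  obtain ⟨R, hS⟩ := Cfsg.Agent.S1514.result (inducedIrrAbove K ⊥) hSne hirrS hconjS (fun α : L → ℂ => indFun L α) hiso hvan
  set τ : (L → ℂ) → (G → ℂ) := fun α : L → ℂ => indFun L α with hτ
  -- X and Y
  have hdiff := diff_eq_XZ hK hZ
  have hXS : XZ K Z ⊆ inducedIrrAbove K ⊥ := by rw [← hdiff]; exact Set.diff_subset
  have hXirr : ∀ χ ∈ XZ K Z, IsIrrCharacter L χ := fun χ hχ => hirrS χ (hXS hχ)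
  have hXeq := XZ_eq_irr hK hZ hZK hXirr
  have hXcoh : IsCoherent (XZ K Z) {1}ᶜ τ := coherent_XZ hp hp2 hK hKp hZ hZK hZ1 hZc hcopi hXirr (fun χ hχ => (hconjS χ (hXS hχ)).2)
    ((isoOn_zsub hiso).mono (fun α hα => zspanOn_mono hXS hα)).to_zsub (fun α hα => hvan α (zspanOn_mono hXS hα))
  have hYS : inducedIrrAbove K ⁅K, K⁆ ⊆ inducedIrrAbove K ⊥ := above_sub _
  have hYcoh : IsCoherent (inducedIrrAbove K ⁅K, K⁆) {1}ᶜ τ := coherent_abelian hK hsolv hS ⁅K, K⁆ inferInstance hKK hab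
  have hfinS := cs_finite hS
  set FS := hfinS.toFinset with hFS
  have eS : (FS : Set (L → ℂ)) = inducedIrrAbove K ⊥ := hfinS.coe_toFinset
  have mS : ∀ φ, φ ∈ FS ↔ φ ∈ inducedIrrAbove K ⊥ := fun φ => hfinS.mem_toFinset
  have hfinX : (XZ K Z).Finite := hfinS.subset hXS
  set FX := hfinX.toFinset with hFX
  have eX : (FX : Set (L → ℂ)) = XZ K Z := hfinX.coe_toFinset
  have mX : ∀ φ, φ ∈ FX ↔ φ ∈ XZ K Z := fun φ => hfinX.mem_toFinset
  have hfinY : (inducedIrrAbove K ⁅K, K⁆).Finite := hfinS.subset hYS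
  set FY := hfinY.toFinset with hFY
  have eY : (FY : Set (L → ℂ)) = inducedIrrAbove K ⁅K, K⁆ := hfinY.coe_toFinset
  have mY : ∀ φ, φ ∈ FY ↔ φ ∈ inducedIrrAbove K ⁅K, K⁆ := fun φ => hfinY.mem_toFinset
  have hdisj : Disjoint (FX : Set (L → ℂ)) FY := by
    rw [eX, eY, Set.disjoint_left]
    intro χ h1 h2
    rw [← hdiff] at h1
    exact h1.2 (above_anti hZKK h2)
  obtain ⟨ψ₀, hψ₀⟩ := XZ_nonempty hZK hZ1
  obtain ⟨φ, hφ⟩ := above_nonempty hsolv (inferInstance : (⁅K, K⁆).Normal) hKK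
  have hXcard : 2 ≤ FX.card := by
    have : ({conjFun ψ₀, ψ₀} : Finset (L → ℂ)) ⊆ FX := by
      intro χ hχ
      simp only [Finset.mem_insert, Finset.mem_singleton] at hχ
      rcases hχ with rfl | rfl
      · exact (mX _).mpr (XZ_conj hψ₀)
      · exact (mX _).mpr hψ₀
    calc 2 = ({conjFun ψ₀, ψ₀} : Finset (L → ℂ)).card := (Finset.card_pair (hconjS _ (hXS hψ₀)).2).symm
      _ ≤ _ := Finset.card_le_card this
  have hYcard : 2 ≤ FY.card := by
    have : ({conjFun φ, φ} : Finset (L → ℂ)) ⊆ FY := by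
      intro χ hχ
      simp only [Finset.mem_insert, Finset.mem_singleton] at hχ
      rcases hχ with rfl | rfl
      · exact (mY _).mpr (above_conj hφ)
      · exact (mY _).mpr hφ
    calc 2 = ({conjFun φ, φ} : Finset (L → ℂ)).card := (Finset.card_pair (hconjS _ (hYS hφ)).2).symm
      _ ≤ _ := Finset.card_le_card this
  -- degrees
  have hdex : ∀ χ : L → ℂ, ∃ b : ℕ, χ ∈ inducedIrrAbove K ⊥ → χ 1 = ((K.index * b : ℕ) : ℂ) ∧ b ^ 2 ≤ Z.relIndex K ∧ 0 < b := by
    intro χ
    by_cases h : χ ∈ inducedIrrAbove K ⊥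
    · obtain ⟨θ, h1, h2, h3, rfl⟩ := h
      obtain ⟨b, hb, hb1⟩ := IsIrr.exists_degree h1
      refine ⟨b, fun _ => ⟨?_, ?_, hb⟩⟩
      · rw [indFun_one, hb1]; push_cast; ring
      · haveI : Fintype K := Fintype.ofFinite K
        apply degree_sq_le_of_scalar h1 (Z.subgroupOf K) _ b hb1
        intro x hx
        apply scalar_of_comm_ker h1
        intro y
        have h8 : x * y = y * x := Subtype.ext (hZc x (Subgroup.mem_subgroupOf.mp hx) y y.2)
        rw [h8]
        congr 1; group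
    · exact ⟨0, fun h' => absurd h' h⟩
  choose b hb using hdex
  set d : (L → ℂ) → ℕ := fun χ => K.index * b χ with hd
  have hdS : ∀ χ ∈ inducedIrrAbove K ⊥, χ 1 = (d χ : ℂ) := fun χ hχ => (hb χ hχ).1
  have he : 0 < K.index := Nat.pos_of_ne_zero Subgroup.index_ne_zero_of_finite
  have hdY : ∀ χ ∈ FY, d χ = K.index := by
    intro χ hχ
    rw [mY] at hχ
    have h0 := hdS χ (hYS hχ)
    obtain ⟨θ, h1, h2, h3, h4⟩ := hχ
    obtain ⟨lam, hl⟩ := linear_of_comm_ker h1 (fun x y => h3 _ (by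
      have := hab x x.2 y y.2
      simpa using this))
    have h5 : χ 1 = (K.index : ℂ) := by
      rw [h4, indFun_one, hl]; simp
    rw [h5] at h0
    exact_mod_cast h0.symm
  obtain ⟨ψ, hψX, hψmin⟩ := Finset.exists_min_image FX d ⟨ψ₀, (mX ψ₀).mpr hψ₀⟩
  have hφY : φ ∈ FY := (mY φ).mpr hφ
  obtain ⟨_, σ, hσ, hσα⟩ := hXcoh
  obtain ⟨_, ρ, hρ, hρα⟩ := hYcoh
  rw [← eX] at hσ hσα
  rw [← eY] at hρ hρα
  have hXS' : (FX : Set (L → ℂ)) ⊆ inducedIrrAbove K ⊥ := by rw [eX]; exact hXS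
  have hYS' : (FY : Set (L → ℂ)) ⊆ inducedIrrAbove K ⊥ := by rw [eY]; exact hYS
  obtain ⟨x1, hx1, hx1'⟩ := Finset.exists_mem_ne (show 1 < FX.card by omega) ψ
  obtain ⟨y1, hy1, hy1'⟩ := Finset.exists_mem_ne (show 1 < FY.card by omega) φ
  have hperp := join_perp (inducedIrrAbove K ⊥) ↑FX ↑FY hirrS hXS' hYS' hdisj ⟨x1, hx1, ψ, hψX, hx1'⟩ ⟨y1, hy1, φ, hφY, hy1'⟩
    τ hiso hvan σ ρ hσ hσα hρ hρα
  have hcardL : Nat.card L = Nat.card (P : Subgroup G) * K.index := by
    rw [← hcardK]; exact (Subgroup.card_mul_index K).symm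
  have hcohXY : IsCoherent (↑FX ∪ ↑FY : Set (L → ℂ)) {1}ᶜ τ := by
    apply sib_final (inducedIrrAbove K ⊥) FX FY hirrS hXS' hYS' hdisj hXcard hYcard τ hiso hvan σ ρ hσ hσα hρ hρα d hdS ψ φ hψX hφY hψmin
      (fun χ hχ => by rw [hdY χ hχ, hdY φ hφY]) (b ψ) (by rw [hdY φ hφY]; simp only [hd]; ring)
    intro φ' hφ'
    have hρI := isoOn_span hρ
    -- irreducible up to sign
    obtain ⟨μ, ε, hμ, hε, hμε⟩ : ∃ (μ : G → ℂ) (ε : ℤ), IsIrrCharacter G μ ∧ (ε = 1 ∨ ε = -1) ∧ ρ φ' = ε • μ := by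
      rcases iso_signed hρI (Submodule.subset_span hφ') (hirrS φ' (hYS' hφ')) with h | h
      · exact ⟨_, 1, h, Or.inl rfl, by simp⟩
      · exact ⟨_, -1, h, Or.inr rfl, by simp⟩
    have hμε' : μ = ε • ρ φ' := by
      rcases hε with rfl | rfl
      · rw [hμε]; simp
      · rw [hμε]; simp
    obtain ⟨c, hc1, hc2⟩ := sib_mu (G := G) (L := L) hXirr hXeq hψ₀ (τ₁ := σ) (by rw [← eX]; exact hσ) (by rw [← eX]; exact hσα) hμ (by
      intro χ hχ
      rw [hμε', zs_eq, H5.classInner_smul_left, ← H5.classInner_conj_symm, hperp χ (by rw [eX]; exact hχ) φ' hφ', map_zero, mul_zero])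
    -- the congruence
    obtain ⟨z, hz, hz1⟩ := Z.bot_or_exists_ne_one.resolve_left hZ1
    have hconst : ∀ z ∈ Z.map L.subtype, ∀ z' ∈ Z.map L.subtype, z ≠ 1 → z' ≠ 1 → μ z = μ z' := by
      rintro _ ⟨z, hz, rfl⟩ _ ⟨z', hz', rfl⟩ h1 h2
      have e1 := hc2 z hz (fun h => h1 (by rw [h]; rfl))
      have e2 := hc2 z' hz' (fun h => h2 (by rw [h]; rfl))
      simp only [Subgroup.coe_subtype]
      linear_combination e2 - e1
    obtain ⟨n, D, hn, hD, k, hk⟩ := ti_congruence P hTI (by rw [hL]; exact hodd) (Z.map L.subtype)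
      (by
        rintro _ ⟨z, hz, rfl⟩
        exact (hmK z).mp (hZK hz))
      (by
        rintro x hx _ ⟨z, hz, rfl⟩
        rw [hL] at hx
        exact ⟨⟨x, hx⟩ * z * ⟨x, hx⟩⁻¹, hZ.conj_mem z hz _, rfl⟩)
      (by
        rintro _ ⟨z, hz, rfl⟩ y hy
        exact congrArg Subtype.val (hZc z hz ⟨y, hPL hy⟩ ((hmK _).mpr hy)))
      μ hμ hconst (z : G) ⟨z, hz, rfl⟩ (fun h => hz1 (Subtype.ext h))
    have e3 := hc2 z hz hz1
    rw [hn, hD, hcardL] at e3
    have hPc : (Nat.card (P : Subgroup G) : ℂ) ≠ 0 := by exact_mod_cast Nat.card_pos.ne'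
    have e4 : c * K.index = k := by
      have e5 : ((D - n : ℤ) : ℂ) = ((Nat.card (P : Subgroup G) : ℤ) * k : ℤ) := by rw [hk]
      push_cast at e5 e3
      apply mul_left_cancel₀ hPc
      linear_combination e5 - e3
    have e6 : classInner (fun l : L => μ l) ψ = (b ψ : ℂ) * k := by
      rw [hc1 ψ ((mX ψ).mp hψX), (hb ψ (hXS ((mX ψ).mp hψX))).1]
      push_cast
      linear_combination (b ψ : ℂ) * e4
    obtain ⟨l, hl⟩ := inner_char_nat (IsChar.restrict L (IsIrr.isCharacter hμ)) (IsIrr.isCharacter (hirrS φ (hYS hφ)))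
    refine ⟨ε * (k - l), ?_⟩
    rw [hμε, zs_eq ε μ, H5.classInner_smul_right]
    have e7 : classInner (τ (ψ - (b ψ : ℤ) • φ)) μ = (b ψ : ℂ) * (k - l) := by
      rw [hτ]
      show classInner (indFun L _) μ = _
      rw [frobenius_reciprocity L _ μ (IsIrr.isClassFunction hμ), H5.classInner_sub_left, zs_eq, H5.classInner_smul_left,
        ← H5.classInner_conj_symm, e6, ← H5.classInner_conj_symm _ φ, hl]
      simp
      ring
    rw [e7]
    rcases hε with rfl | rfl
    · push_cast; simp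
    · push_cast; simp; ring
  -- chain to S
  have hn1 : ∀ χ ∈ inducedIrrAbove K ⊥, classInner χ χ = (((fun _ => 1 : (L → ℂ) → ℕ) χ : ℕ) : ℂ) := by
    intro χ hχ; rw [ii_self (hirrS χ hχ)]; simp
  have hsub : (↑(FX ∪ FY) : Set (L → ℂ)) ⊆ inducedIrrAbove K ⊥ := by
    rw [Finset.coe_union]; exact Set.union_subset hXS' hYS'
  have hZodd : K.index ∣ Nat.card Z - 1 := by
    apply cong_of_centralizer Z hZ
    intro z hz hz1
    have : Subgroup.centralizer ({z} : Set L) = K := by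
      apply le_antisymm (hC z (hZK hz) hz1)
      intro k hk
      rw [Subgroup.mem_centralizer_singleton_iff]
      exact (hZc z hz k hk).symm
    rw [this]
  have hZge : 2 * K.index ≤ Nat.card Z - 1 := by
    have h1 : Odd (Nat.card Z) := Odd.of_dvd_nat hodd (Subgroup.card_subgroup_dvd_card Z)
    have h2 : Odd K.index := Odd.of_dvd_nat hodd K.index_dvd_card
    have h3 : 1 < Nat.card Z := by
      rw [Finite.one_lt_card_iff_nontrivial, Subgroup.nontrivial_iff_ne_bot]; exact hZ1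
    obtain ⟨m, hm⟩ := h1
    have h4 : Nat.card Z - 1 = 2 * m := by omega
    rw [h4] at hZodd ⊢
    have hc1 : Nat.Coprime K.index 2 := by
      rw [Nat.coprime_comm]; exact (Nat.coprime_two_left (n := K.index)).mpr h2
    have h5 := Nat.le_of_dvd (by omega) (hc1.dvd_of_dvd_mul_left hZodd)
    omega
  have hsumX : ∑ χ ∈ FX, (d χ : ℝ) ^ 2 = (K.index : ℝ) * (Z.relIndex K * ((Nat.card Z : ℝ) - 1)) := by
    have h1 := XZ_sum hK hZ hZK FX eX
    have h2 : ∑ φ ∈ FX, (φ 1) ^ 2 / classInner φ φ = ((∑ χ ∈ FX, (d χ : ℝ) ^ 2 : ℝ) : ℂ) := by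
      push_cast
      apply Finset.sum_congr rfl; intro χ hχ
      rw [ii_self (hXirr χ ((mX χ).mp hχ)), hdS χ (hXS ((mX χ).mp hχ))]; simp
    rw [h2] at h1
    exact_mod_cast h1
  have hdisjF : Disjoint FX FY := by exact_mod_cast hdisj
  have hch := coherent_chain hS d (fun _ => 1) hdS hn1 (FX ∪ FY) FS (by rw [eS]) (fun χ hχ => (mS _).mpr (above_conj ((mS _).mp hχ)))
    (by
      intro χ hχ
      refine ⟨φ, Finset.mem_union_right _ hφY, ?_, ?_⟩
      · rw [hdY φ hφY]; exact dvd_mul_right _ _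
      · rw [hdY φ hφY, Finset.sum_union hdisjF]
        have hbχ := hb χ ((mS χ).mp hχ)
        have h1 : 0 < ∑ χ ∈ FY, ((d χ : ℝ) ^ 2 / (((fun _ => 1 : (L → ℂ) → ℕ) χ : ℕ) : ℝ)) := by
          apply Finset.sum_pos
          · intro χ hχ
            rw [hdY χ hχ]
            have : (0 : ℝ) < K.index := by exact_mod_cast he
            simp; positivity
          · exact ⟨φ, hφY⟩
        have h2 : ∑ χ ∈ FX, ((d χ : ℝ) ^ 2 / (((fun _ => 1 : (L → ℂ) → ℕ) χ : ℕ) : ℝ)) = (K.index : ℝ) * (Z.relIndex K * ((Nat.card Z : ℝ) - 1)) := by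
          rw [← hsumX]
          apply Finset.sum_congr rfl; intro χ _; simp
        rw [h2]
        have h3 : b χ ≤ Z.relIndex K := by
          calc b χ ≤ b χ * b χ := Nat.le_mul_of_pos_left _ hbχ.2.2
            _ = b χ ^ 2 := by ring
            _ ≤ _ := hbχ.2.1
        have h4 : 2 * (K.index * b χ) * K.index ≤ K.index * (Z.relIndex K * (Nat.card Z - 1)) := by
          calc 2 * (K.index * b χ) * K.index = K.index * (b χ * (2 * K.index)) := by ring
            _ ≤ K.index * (Z.relIndex K * (Nat.card Z - 1)) := Nat.mul_le_mul_left _ (Nat.mul_le_mul h3 hZge)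
        have h5 : 1 ≤ Nat.card Z := Nat.card_pos
        have h6 : (2 * d χ * K.index : ℝ) ≤ (K.index : ℝ) * (Z.relIndex K * ((Nat.card Z : ℝ) - 1)) := by
          have h7 : ((2 * (K.index * b χ) * K.index : ℕ) : ℝ) ≤ ((K.index * (Z.relIndex K * (Nat.card Z - 1)) : ℕ) : ℝ) := by exact_mod_cast h4
          push_cast [h5] at h7
          simp only [hd]; push_cast; exact h7
        linarith) _ (FX ∪ FY) (le_refl _) hsub
    (by
      intro χ hχ
      rcases Finset.mem_union.mp hχ with h | h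
      · exact Finset.mem_union_left _ ((mX _).mpr (XZ_conj ((mX _).mp h)))
      · exact Finset.mem_union_right _ ((mY _).mpr (above_conj ((mY _).mp h))))
    (by rw [Finset.coe_union]; exact hcohXY) (le_refl _)
  rw [Set.union_eq_right.mpr (by rw [eS]; exact hsub), eS] at hch
  exact hch

end sib

end Cfsg.Agent.H4
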