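import Cfsg.Agent.H4.Sib3
import Cfsg.Agent.H4.Frob

set_option linter.all false
set_option autoImplicit false

/-! Sibley's coherence theorem. -/

namespace Cfsg.Agent.H4

open Module
open scoped ComplexConjugate Pointwise commutatorElement

universe u v w

theorem cop_of_cent {L : Type u} [Group L] [Finite L] {K : Subgroup L} (hK : K.Normal)
    (hC : ∀ k ∈ K, k ≠ 1 → Subgroup.centralizer ({k} : Set L) ≤ K) : K.index ∣ Nat.card K - 1 ∧ Nat.Coprime (Nat.card K) K.index := by
  have h1 : K.index ∣ Nat.card K - 1 := by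
    apply cong_of_centralizer K hK
    intro k hk hk1
    exact Subgroup.index_dvd_of_le (hC k hk hk1)
  refine ⟨h1, ?_⟩
  have h2 : 1 ≤ Nat.card K := Nat.card_pos
  rw [Nat.coprime_iff_gcd_eq_one]
  have h3 := (Nat.gcd_dvd_right (Nat.card K) K.index).trans h1
  have h4 := Nat.dvd_sub (Nat.gcd_dvd_left (Nat.card K) K.index) h3
  rw [Nat.sub_sub_self h2] at h4
  exact Nat.dvd_one.mp h4

theorem sylow_of_cop {G : Type u} [Group G] [Finite G] {H : Subgroup G} {p : ℕ} [hp : Fact p.Prime] (hH : IsPGroup p H)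
    (hcop : ¬ p ∣ H.relIndex (Subgroup.normalizer (H : Set G))) : ∃ P : Sylow p G, (P : Subgroup G) = H := by
  obtain ⟨n, hn⟩ := hH.exists_card_eq
  have h1 : n = (Nat.card G).factorization p := by
    have h2 : p ^ n ∣ Nat.card G := by rw [← hn]; exact Subgroup.card_subgroup_dvd_card H
    have h3 : n ≤ (Nat.card G).factorization p := (hp.out.pow_dvd_iff_le_factorization Nat.card_pos.ne').mp h2
    rcases h3.lt_or_eq with h4 | h4
    · exfalso
      apply hcop
      have h5 : p ^ (n + 1) ∣ Nat.card G := (hp.out.pow_dvd_iff_le_factorization Nat.card_pos.ne').mpr h4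
      exact Sylow.prime_dvd_card_quotient_normalizer h5 hn
    · exact h4
  exact ⟨Sylow.ofCard H (by rw [hn, h1]), rfl⟩

section main
variable {G : Type u} [Group G] [Fintype G]

theorem sibley (H L : Subgroup G) [Fintype L] (hL : Subgroup.normalizer (H : Set G) = L)
    (hodd : Odd (Nat.card L)) (hTI : IsTISubset (H : Set G)) (K : Subgroup L) (hKdef : K = H.subgroupOf L)
    (hC : ∀ k ∈ K, k ≠ 1 → Subgroup.centralizer ({k} : Set L) ≤ K) (hK1 : K ≠ ⊥) (hnil : Group.IsNilpotent K) :
    IsCoherent (inducedIrrAbove K ⊥) {1}ᶜ (fun α : L → ℂ => indFun L α) := by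
  classical
  have hHL : H ≤ L := by rw [← hL]; exact Subgroup.le_normalizer
  have hmK : ∀ x : L, x ∈ K ↔ (x : G) ∈ H := fun x => by rw [hKdef]; exact Subgroup.mem_subgroupOf
  have hK : K.Normal := by
    refine ⟨fun k hk x => ?_⟩
    rw [hmK] at hk ⊢
    have hx : (x : G) ∈ Subgroup.normalizer (H : Set G) := by rw [hL]; exact x.2
    exact (Subgroup.mem_normalizer_iff.mp hx _).mp hk
  haveI := hK
  haveI : Group.IsNilpotent K := hnil
  have hsolv : Group.IsSolvable K := inferInstance
  haveI : Nontrivial K := (Subgroup.nontrivial_iff_ne_bot K).mpr hK1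
  obtain ⟨hdvd, hcop⟩ := cop_of_cent hK hC
  have hmapc : (commutator K).map K.subtype = ⁅K, K⁆ := by
    rw [commutator_def, Subgroup.map_commutator, ← MonoidHom.range_eq_map, Subgroup.range_subtype]
  have hKK : ⁅K, K⁆ < K := by
    refine lt_of_le_of_ne (Subgroup.commutator_le_self K) ?_
    intro h
    have h1 : commutator K < ⊤ := IsSolvable.commutator_lt_top_of_nontrivial _
    apply h1.ne
    apply Subgroup.map_injective K.subtype_injective
    rw [hmapc, h, ← MonoidHom.range_eq_map, Subgroup.range_subtype]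
  by_cases hcase : (∃ p m : ℕ, p.Prime ∧ (⊥ : Subgroup L).relIndex K = p ^ m) ∧ ⁅K, K⁆ ≠ ⊥
  · obtain ⟨⟨p, m, hp, hm⟩, hnab⟩ := hcase
    haveI : Fact p.Prime := ⟨hp⟩
    rw [Subgroup.relIndex_bot_left] at hm
    have hcardK : Nat.card K = Nat.card H := by rw [hKdef]; exact card_subgroupOf_of_le hHL
    have hHp : IsPGroup p H := IsPGroup.of_card (by rw [← hcardK, hm])
    have hm0 : m ≠ 0 := by
      rintro rfl
      rw [pow_zero] at hm
      exact hK1 (Subgroup.card_eq_one.mp hm)
    obtain ⟨P, rfl⟩ := sylow_of_cop hHp (by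
      rw [hL]
      intro h
      have h1 : p ∣ K.index := by rw [hKdef]; exact h
      have h2 : p ∣ Nat.card K := by rw [hm]; exact dvd_pow_self p hm0
      have h3 := Nat.dvd_gcd h2 h1
      rw [hcop] at h3
      exact hp.one_lt.ne' (Nat.dvd_one.mp h3))
    exact sibley_p P L hL hodd hTI K hKdef hC hnab
  · have hirrS : ∀ χ ∈ inducedIrrAbove K ⊥, IsIrrCharacter L χ := by
      rintro χ ⟨θ, h1, h2, _, rfl⟩
      exact induced_irr_of_cent hK hC θ h1 h2
    have hconjS : ∀ χ ∈ inducedIrrAbove K ⊥, conjFun χ ∈ inducedIrrAbove K ⊥ ∧ conjFun χ ≠ χ := by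
      intro χ hχ
      exact ⟨above_conj hχ, fun h => above_ne_one hK hχ (odd_real_one hodd (hirrS χ hχ) h)⟩
    have hSne : (inducedIrrAbove K ⊥).Nonempty := above_nonempty hsolv inferInstance (bot_lt_iff_ne_bot.mpr hK1)
    obtain ⟨hiso, hvan⟩ := ti_iso H L hL hTI (inducedIrrAbove K ⊥) (fun χ hχ => IsIrr.isCharacter (hirrS χ hχ))
      (by
        rintro χ ⟨θ, _, _, _, rfl⟩ x hx
        exact ind_vanish_off hK θ (fun h => hx ((hmK x).mp h)))
    obtain ⟨R, hS⟩ := Cfsg.Agent.S1514.result (inducedIrrAbove K ⊥) hSne hirrS hconjS (fun α : L → ℂ => indFun L α) hiso hvan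
    haveI : ((⊥ : Subgroup L).subgroupOf K).Normal := by
      rw [Subgroup.bot_subgroupOf]; infer_instance
    refine coherent_64 hK hsolv hS hodd ⊥ inferInstance bot_le inferInstance ⁅K, K⁆ (sup_bot_eq _).symm hKK
      (frob_quot hcop hC hK inferInstance hKK.le) ?_
    by_cases h1 : ∃ p m : ℕ, p.Prime ∧ (⊥ : Subgroup L).relIndex K = p ^ m
    · right; right; right; left
      by_contra h2
      exact hcase ⟨h1, fun h3 => h2 (by rw [h3])⟩
    · exact Or.inr (Or.inr (Or.inl h1))

end main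

end Cfsg.Agent.H4
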