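import Cfsg.Agent.H4.U4757
import Cfsg.Agent.H4.Values
import Cfsg.Agent.H4.Misc1
import Cfsg.Agent.H4.Cliff3
import Cfsg.Agent.H4.FrobSchur
import Cfsg.Agent.H4.ExtTheory

namespace Cfsg.Agent.H4
open scoped ComplexConjugate
universe u
variable {G : Type u} [Group G]

theorem two_prod {n : ℕ} (hn : n = 2) (μ : Fin n → ℂ) (h : ∀ i, μ i = 1 ∨ μ i = -1) (hprod : ∏ i, μ i = 1) :
    ‖∑ i, μ i‖ = (n : ℝ) := by
  subst hn
  rw [Fin.prod_univ_two] at hprod
  rw [Fin.sum_univ_two]
  rcases h 0 with h0 | h0 <;> rcases h 1 with h' | h' <;> rw [h0, h'] at hprod ⊢ <;> first | (exfalso; norm_num at hprod; done) | norm_num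

theorem simple_hom_trivial [IsSimpleGroup G] (hna : ¬ ∀ a b : G, a * b = b * a) {A : Type*} [CommGroup A] (f : G →* A) : f = 1 := by
  rcases (inferInstance : f.ker.Normal).eq_bot_or_eq_top with h | h
  · exfalso
    apply hna
    intro a b
    apply (MonoidHom.ker_eq_bot_iff f).1 h
    rw [map_mul, map_mul, mul_comm]
  · ext x
    have : x ∈ f.ker := by rw [h]; exact Subgroup.mem_top x
    exact this

theorem simple_ker [IsSimpleGroup G] [Finite G] {χ : IrrCharacter G} (hχ : χ ≠ trivIrr G) (g : G) (hg : (χ : G → ℂ) g = (χ : G → ℂ) 1) :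
    g = 1 := by
  rcases (charKer_normal (IsIrr.isCharacter χ.2)).eq_bot_or_eq_top with h | h
  · have : g ∈ charKer (IsIrr.isCharacter χ.2) := (mem_charKer _ g).2 hg
    rw [h, Subgroup.mem_bot] at this
    exact this
  · exfalso
    apply hχ
    have hall : ∀ g, (χ : G → ℂ) g = (χ : G → ℂ) 1 := fun g => (mem_charKer (IsIrr.isCharacter χ.2) g).1 (h ▸ Subgroup.mem_top g)
    obtain ⟨lam, hlam⟩ := linear_of_comm_ker χ.2 (fun x y => hall _)
    apply Subtype.ext
    funext g
    rw [hall g, hlam]
    simp [trivIrr]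

theorem simple_deg [IsSimpleGroup G] [Finite G] (hna : ¬ ∀ a b : G, a * b = b * a) {χ : IrrCharacter G} (hχ : χ ≠ trivIrr G) :
    3 ≤ charDegree (χ : G → ℂ) := by
  classical
  have hpos := IsIrr.degree_pos χ.2
  have h1 : charDegree (χ : G → ℂ) ≠ 1 := by
    intro h1
    have h2 := H5.IsCharacter.one_eq_charDegree (IsIrr.isCharacter χ.2)
    rw [h1, Nat.cast_one] at h2
    obtain ⟨lam, hlam⟩ := exists_hom_of_degree_one (IsIrr.isCharacter χ.2) h2
    apply hχ
    apply Subtype.ext
    rw [hlam, simple_hom_trivial hna lam]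
    funext g; simp [trivIrr]
  have h2 : charDegree (χ : G → ℂ) ≠ 2 := by
    intro h2
    have hdvd : 2 ∣ Nat.card G := h2 ▸ IsIrr.degree_dvd χ.2
    haveI : Fact (Nat.Prime 2) := ⟨Nat.prime_two⟩
    obtain ⟨t, ht⟩ := exists_prime_orderOf_dvd_card' 2 hdvd
    obtain ⟨n, ρ, hρ, hχρ⟩ := χ.2
    have hdeg : (charDegree (χ : G → ℂ) : ℂ) = ((Module.finrank ℂ (Fin n → ℂ) : ℕ) : ℂ) := by
      rw [← H5.IsCharacter.one_eq_charDegree (IsIrr.isCharacter χ.2), ← hχρ, Representation.char_one]
    have hfr : Module.finrank ℂ (Fin n → ℂ) = 2 := by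
      rw [h2] at hdeg; exact_mod_cast hdeg.symm
    obtain ⟨b, μ, hb, hμ, _, hk, _⟩ := exists_eigen ρ t
    have hμ2 : ∀ i, μ i = 1 ∨ μ i = -1 := by
      intro i
      have := hμ i
      rw [ht] at this
      exact sq_eq_one_iff.1 this
    -- determinant
    have hdet : LinearMap.det (ρ t) = 1 := by
      have h3 := simple_hom_trivial hna (detHom ρ)
      have h4 := detHom_apply ρ t
      rw [h3] at h4
      simpa using h4.symm
    have hprod : ∏ i, μ i = 1 := by
      rw [← hdet, ← LinearMap.det_toMatrix b]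
      have h5 : LinearMap.toMatrix b b (ρ t) = Matrix.diagonal μ := by
        ext i j
        rw [LinearMap.toMatrix_apply, hb, map_smul, Finsupp.smul_apply, Module.Basis.repr_self, Matrix.diagonal_apply, smul_eq_mul,
          Finsupp.single_apply]
        by_cases hij : i = j
        · rw [hij, if_pos rfl, if_pos rfl, mul_one]
        · rw [if_neg (Ne.symm hij), if_neg hij, mul_zero]
      rw [h5, Matrix.det_diagonal]
    have hsum : ρ.character t = ∑ i, μ i := by
      have := hk 1
      simpa using this
    have hnorm : ‖ρ.character t‖ = (Module.finrank ℂ (Fin n → ℂ) : ℝ) := by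
      rw [hsum]
      exact two_prod hfr μ hμ2 hprod
    rw [norm_char_eq_iff] at hnorm
    obtain ⟨w, hw⟩ := hnorm
    have hcen : ∀ g : G, t * g * t⁻¹ * g⁻¹ = 1 := by
      intro g
      apply simple_ker hχ
      rw [← hχρ, Representation.character, Representation.character]
      congr 1
      have hw0 : w ≠ 0 := by
        rintro rfl
        rw [zero_smul] at hw
        have := congrArg (fun T => T * ρ t⁻¹) hw
        simp only [← map_mul, mul_inv_cancel, map_one, zero_mul] at this
        have h6 : Module.finrank ℂ (Fin n → ℂ) = 0 := by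
          have h7 : Subsingleton (Fin n → ℂ) := ⟨fun a b => by
            have ha := LinearMap.congr_fun this a
            have hb := LinearMap.congr_fun this b
            simp only [Module.End.one_apply, LinearMap.zero_apply] at ha hb
            rw [ha, hb]⟩
          exact Module.finrank_zero_of_subsingleton
        omega
      have e1 : ρ (t * g) = ρ (g * t) := by
        rw [map_mul, map_mul, hw, smul_mul_assoc, mul_smul_comm]
        congr 1
      have e2 : t * g * t⁻¹ * g⁻¹ = (t * g) * (g * t)⁻¹ := by group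
      rw [e2, map_mul, e1, ← map_mul, mul_inv_cancel]
    apply hna
    have ht1 : t ≠ 1 := by
      rintro rfl; rw [orderOf_one] at ht; omega
    have hcenter : Subgroup.center G = ⊤ := by
      rcases (inferInstance : (Subgroup.center G).Normal).eq_bot_or_eq_top with h | h
      · exfalso
        apply ht1
        rw [← Subgroup.mem_bot, ← h, Subgroup.mem_center_iff]
        intro g
        have := hcen g
        have h6 : t * g * t⁻¹ = g := mul_inv_eq_one.1 this
        have h7 : t * g = g * t := mul_inv_eq_iff_eq_mul.1 h6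
        exact h7.symm
      · exact h
    intro a b
    have : a ∈ Subgroup.center G := by rw [hcenter]; exact Subgroup.mem_top a
    exact ((Subgroup.mem_center_iff.1 this) b).symm
  omega

theorem simple_invol_count [IsSimpleGroup G] [Finite G] (heven : Even (Nat.card G)) (hgt : 2 < Nat.card G) :
    3 * Nat.card {t : G // orderOf t = 2} < Nat.card G := by
  classical
  haveI := Fintype.ofFinite G
  have hna : ¬ ∀ a b : G, a * b = b * a := by
    intro h
    letI : CommGroup G := { (inferInstance : Group G) with mul_comm := h }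
    haveI : Fact (Nat.Prime 2) := ⟨Nat.prime_two⟩
    obtain ⟨t, ht⟩ := exists_prime_orderOf_dvd_card' 2 heven.two_dvd
    have hn : (Subgroup.zpowers t).Normal := by
      constructor
      intro n hn g
      have : g * n * g⁻¹ = n := by rw [h g n]; group
      rw [this]; exact hn
    rcases hn.eq_bot_or_eq_top with h1 | h1
    · rw [Subgroup.zpowers_eq_bot] at h1
      rw [h1, orderOf_one] at ht; omega
    · have h2 : Nat.card (Subgroup.zpowers t) = 2 := by rw [Nat.card_zpowers, ht]
      rw [h1, Subgroup.card_top] at h2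
      omega
  -- Frobenius–Schur
  have h1 := card_sqrt (1 : G)
  have h2 : Nat.card {s : G // s * s = 1} = Nat.card {t : G // orderOf t = 2} + 1 := by
    have h3 : (Finset.univ.filter (fun s : G => s * s = 1)) = insert 1 (Finset.univ.filter (fun t : G => orderOf t = 2)) := by
      ext s
      rw [Finset.mem_filter, Finset.mem_insert, Finset.mem_filter]
      simp only [Finset.mem_univ, true_and]
      constructor
      · intro hs
        by_cases hs1 : s = 1
        · exact Or.inl hs1
        · right
          exact orderOf_eq_prime (by rw [sq]; exact hs) hs1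
      · rintro (rfl | hs)
        · exact mul_one 1
        · rw [← sq, ← hs, pow_orderOf_eq_one]
    rw [Nat.card_eq_fintype_card, Fintype.card_subtype, h3, Finset.card_insert_of_notMem, Nat.card_eq_fintype_card,
      Fintype.card_subtype]
    intro hc
    have := (Finset.mem_filter.1 hc).2
    rw [orderOf_one] at this
    omega
  have h3 : (Nat.card {t : G // orderOf t = 2} : ℝ) + 1 ≤ ∑ χ : IrrCharacter G, (charDegree (χ : G → ℂ) : ℝ) := by
    have h4 : ((Nat.card {t : G // orderOf t = 2} : ℂ) + 1) = ∑ χ : IrrCharacter G, fsInd (χ : G → ℂ) * (χ : G → ℂ) 1 := by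
      rw [← h1, h2]; push_cast; rfl
    have h5 : ((Nat.card {t : G // orderOf t = 2} : ℝ) + 1) = ‖∑ χ : IrrCharacter G, fsInd (χ : G → ℂ) * (χ : G → ℂ) 1‖ := by
      rw [← h4]
      have : ((Nat.card {t : G // orderOf t = 2} : ℂ) + 1) = ((Nat.card {t : G // orderOf t = 2} + 1 : ℕ) : ℂ) := by push_cast; rfl
      rw [this, Complex.norm_natCast]; push_cast; rfl
    rw [h5]
    refine (norm_sum_le _ _).trans (Finset.sum_le_sum fun χ _ => ?_)
    rw [norm_mul, H5.IsCharacter.one_eq_charDegree (IsIrr.isCharacter χ.2), Complex.norm_natCast]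
    have h6 : ‖fsInd (χ : G → ℂ)‖ ≤ 1 := by
      rcases fsInd_irr χ with h | h | h <;> rw [h] <;> simp
    exact mul_le_of_le_one_left (Nat.cast_nonneg _) h6
  have h4 : Nat.card {t : G // orderOf t = 2} + 1 ≤ ∑ χ : IrrCharacter G, charDegree (χ : G → ℂ) := by exact_mod_cast h3
  have h5 : ∑ χ : IrrCharacter G, charDegree (χ : G → ℂ) ^ 2 = Nat.card G := by
    have hsq := H5.sum_irr_sq (G := G)
    have : ((∑ ψ : IrrCharacter G, charDegree (ψ : G → ℂ) ^ 2 : ℕ) : ℂ) = (Nat.card G : ℂ) := by
      push_cast
      rw [← hsq]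
      refine Finset.sum_congr rfl fun χ _ => ?_
      rw [H5.IsCharacter.one_eq_charDegree (IsIrr.isCharacter χ.2)]
    exact_mod_cast this
  have hdt : charDegree (trivIrr G : G → ℂ) = 1 := by
    have := H5.IsCharacter.one_eq_charDegree (IsIrr.isCharacter (trivIrr G).2)
    rw [trivIrr_apply] at this
    exact_mod_cast this.symm
  rw [← Finset.add_sum_erase _ _ (Finset.mem_univ (trivIrr G)), hdt] at h4 h5
  have h6 : ∑ χ ∈ Finset.univ.erase (trivIrr G), 3 * charDegree (χ : G → ℂ) ≤ ∑ χ ∈ Finset.univ.erase (trivIrr G), charDegree (χ : G → ℂ) ^ 2 := by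
    refine Finset.sum_le_sum fun χ hχ => ?_
    have := simple_deg hna (Finset.mem_erase.1 hχ).1
    nlinarith
  rw [← Finset.mul_sum] at h6
  omega

end Cfsg.Agent.H4
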