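import Cfsg.Prelude.Def_Characters
import Cfsg.Prelude.Def_Blocks
import Cfsg.Agent.H4.BrauerInd1
import Cfsg.Agent.H4.Mult
import Mathlib

set_option linter.all false
set_option autoImplicit false

/-! Taketa's theorem. -/

namespace Cfsg.Agent.H4

open Module
open scoped ComplexConjugate

universe u v w

variable {G : Type u} [Group G] [Fintype G]

theorem mem_of_indFun_one (H : Subgroup G) (x : G) (h : indFun H (fun _ => (1 : ℂ)) x = H.index) : x ∈ H := by
  classical
  rw [indFun_one_eq_card_fixed] at h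
  have h1 : Nat.card (MulAction.fixedBy (G ⧸ H) x) = Nat.card (G ⧸ H) := by exact_mod_cast h
  have h2 : (MulAction.fixedBy (G ⧸ H) x) = Set.univ := by
    apply Set.eq_univ_of_forall
    intro q
    by_contra hq
    have h3 : Nat.card (MulAction.fixedBy (G ⧸ H) x) < Nat.card (G ⧸ H) := by
      apply Finite.card_subtype_lt (x := q)
      exact hq
    omega
  have h3 : (QuotientGroup.mk (1 : G) : G ⧸ H) ∈ MulAction.fixedBy (G ⧸ H) x := by rw [h2]; trivial
  rw [MulAction.mem_fixedBy] at h3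
  have h4 : (QuotientGroup.mk (x * 1) : G ⧸ H) = QuotientGroup.mk 1 := h3
  rw [eq_comm, QuotientGroup.eq] at h4
  simpa using h4

theorem taketa_aux (hM : ∀ χ : G → ℂ, IsIrrCharacter G χ → ∃ (H : Subgroup G) (lam : H →* ℂˣ), χ = indFun H (fun h => (lam h : ℂ))) :
    ∀ (d : ℕ) (χ : G → ℂ), IsIrrCharacter G χ → χ 1 = d → ∀ x ∈ derivedSeries G d, χ x = χ 1 := by
  classical
  intro d
  induction d using Nat.strong_induction_on with
  | _ d ih =>
  intro χ hχ hd x hx
  obtain ⟨H, lam, hlam⟩ := hM χ hχ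
  have hidx : H.index = d := by
    have := indFun_one H (fun h => (lam h : ℂ))
    rw [← hlam, hd, map_one, Units.val_one, mul_one] at this
    exact_mod_cast this.symm
  have hd0 : d ≠ 0 := by rw [← hidx]; exact H.index_ne_zero_of_finite
  obtain ⟨e, rfl⟩ := Nat.exists_eq_succ_of_ne_zero hd0
  -- D ≤ H
  have hDH : derivedSeries G e ≤ H := by
    intro y hy
    apply mem_of_indFun_one
    obtain ⟨m, hm1, hm2⟩ := IsChar.exists_mult (IsChar.induce H (fun _ => (1 : ℂ)) isCharacter_one)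
    have hone : indFun H (fun _ => (1 : ℂ)) 1 = H.index := by rw [indFun_one, mul_one]
    rw [← hone, hm2 y, hm2 1]
    apply Finset.sum_congr rfl
    intro ψ _
    by_cases h0 : m ψ = 0
    · rw [h0]; simp
    congr 1
    by_cases hψ1 : (ψ : G → ℂ) = fun _ => 1
    · rw [hψ1]
    -- degree bound
    obtain ⟨f, hf, hf'⟩ := IsIrr.exists_degree ψ.2
    let one : IrrCharacter G := ⟨fun _ => 1, H5.isIrrCharacter_trivial⟩
    have hmone : m one = 1 := by
      have h1 := hm1 one
      rw [frobenius_reciprocity H _ _ (fun _ _ => rfl)] at h1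
      have h2 : classInner (fun _ : H => (1 : ℂ)) (fun _ : H => (1 : ℂ)) = 1 :=
        H5.classInner_irr_self ⟨_, H5.isIrrCharacter_trivial⟩
      have h3 : classInner (fun _ : H => (1 : ℂ)) (fun h : H => (one : G → ℂ) h) = 1 := h2
      rw [h3] at h1
      exact_mod_cast h1.symm
    have hne : ψ ≠ one := fun h => hψ1 (congrArg Subtype.val h)
    have h2 := hm2 1
    rw [hone, hidx] at h2
    choose deg hdeg0 hdeg using fun φ : IrrCharacter G => IsIrr.exists_degree φ.2
    have h3 : e + 1 = ∑ φ : IrrCharacter G, m φ * deg φ := by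
      simp only [hdeg] at h2
      exact_mod_cast h2
    have h4 : m ψ * deg ψ + m one * deg one ≤ ∑ φ : IrrCharacter G, m φ * deg φ := by
      rw [← Finset.sum_pair hne (f := fun φ => m φ * deg φ)]
      exact Finset.sum_le_sum_of_subset (Finset.subset_univ _)
    have h5 : deg one = 1 := by
      have h6 : ((one : IrrCharacter G) : G → ℂ) 1 = deg one := hdeg one
      have h7 : ((one : IrrCharacter G) : G → ℂ) 1 = 1 := rfl
      rw [h7] at h6
      exact_mod_cast h6.symm
    rw [hmone, h5, ← h3] at h4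
    have h6 : deg ψ ≤ m ψ * deg ψ := Nat.le_mul_of_pos_left _ (Nat.pos_of_ne_zero h0)
    have h7 : deg ψ ≤ e := by omega
    have h8 := ih (deg ψ) (by omega) (ψ : G → ℂ) ψ.2 (hdeg ψ) y
      (derivedSeries_antitone (G := G) h7 hy)
    exact h8
  have hker : ∀ y ∈ derivedSeries G (e + 1), ∃ h : y ∈ H, lam ⟨y, h⟩ = 1 := by
    intro y hy
    rw [derivedSeries_succ] at hy
    have h1 : ⁅derivedSeries G e, derivedSeries G e⁆ ≤ lam.ker.map H.subtype := by
      rw [Subgroup.commutator_le]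
      intro a ha b hb
      refine ⟨(⟨a, hDH ha⟩ : H) * (⟨b, hDH hb⟩ : H) * (⟨a, hDH ha⟩ : H)⁻¹ * (⟨b, hDH hb⟩ : H)⁻¹, ?_, rfl⟩
      rw [SetLike.mem_coe, MonoidHom.mem_ker, map_mul, map_mul, map_mul, map_inv, map_inv, mul_comm (lam _) (lam _)]
      simp
    obtain ⟨z, hz, hzy⟩ := h1 hy
    refine ⟨hzy ▸ z.2, ?_⟩
    have : (⟨y, hzy ▸ z.2⟩ : H) = z := Subtype.ext hzy.symm
    rw [this]; exact hz
  rw [hlam]
  unfold indFun
  congr 1
  apply Finset.sum_congr rfl
  intro t _
  have hconj : t⁻¹ * x * t ∈ derivedSeries G (e + 1) := by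
    have := (derivedSeries_normal G (e + 1)).conj_mem x hx t⁻¹
    rwa [inv_inv] at this
  obtain ⟨h1, h2⟩ := hker _ hconj
  rw [extendByZero_mem _ _ h1, h2]
  have h3 : t⁻¹ * 1 * t ∈ H := by simp [H.one_mem]
  rw [extendByZero_mem _ _ h3]
  have h4 : (⟨t⁻¹ * 1 * t, h3⟩ : H) = 1 := by apply Subtype.ext; simp
  rw [h4, map_one]

end Cfsg.Agent.H4
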